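import Cfsg.Agent.Lib.CG.EvalP

/-! A verified evaluator for elements of a Chevalley group in characteristic two, with vectors given by
the binary digits of natural numbers. -/

set_option autoImplicit false
set_option linter.unusedSectionVars false

namespace CA.CG

open Cfsg.Lie Cfsg.Lie.ChevalleyDatum CA.Chev Matrix

/-- A matrix, given by its columns, applied to a vector. -/
noncomputable def appB (A : List ℕ) : ℕ → ℕ :=
  List.rec (fun _ => 0) (fun c _ ih v => Nat.rec 0 (fun n _ => bIf (Nat.beq (Nat.mod n 2) 0)
    (Nat.xor c (ih (Nat.div n 2))) (ih (Nat.succ (Nat.div n 2)))) v) A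

/-- The product of two matrices. -/
noncomputable def mulB (A B : List ℕ) : List ℕ := B.map (appB A)

/-- The identity matrix. -/
def oneB (N : ℕ) : List ℕ := (List.range N).map fun a => 2 ^ a

/-- A list of digits as a number. -/
def toB (l : List ℕ) : ℕ := l.foldr (fun c acc => c % 2 + 2 * acc) 0

/-- The matrix of a word in the root elements. -/
noncomputable def wordB (T : Tab) (n l : ℕ) (w : List ℕ) : List ℕ :=
  w.foldr (fun r acc => mulB ((xM T n l 2 r 1).map toB) acc) (oneB (n + l))

/-- The value of a word in a list of matrices. -/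
noncomputable def evalB (N : ℕ) (L : List (List ℕ)) (w : List ℕ) : List ℕ :=
  w.foldr (fun i acc => mulB (L.getD i (oneB N)) acc) (oneB N)

theorem appB_zero (A : List ℕ) : appB A 0 = 0 := by cases A <;> rfl

theorem appB_cons (c : ℕ) (A : List ℕ) (v : ℕ) :
    appB (c :: A) v = if v % 2 = 0 then appB A (v / 2) else c ^^^ appB A (v / 2) := by
  cases v with
  | zero => simp [appB_zero]
  | succ n =>
    change bIf (Nat.beq (n % 2) 0) (c ^^^ appB A (n / 2)) (appB A (n / 2 + 1)) = _
    simp only [bIf_eq, Nat.beq_eq]
    split_ifs with h1 h2 h2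
    · omega
    · rw [show (n + 1) / 2 = n / 2 by omega]
    · rw [show (n + 1) / 2 = n / 2 + 1 by omega]
    · omega

variable {D : ChevalleyDatum} {F : Type*} [Field F]

variable (D F) in
/-- The vector with the binary digits of `v` as coordinates. -/
def bv (v : ℕ) : D.Idx → F := fun z => if v.testBit (enc z) then 1 else 0

theorem bv_zero : bv D F 0 = 0 := by funext z; simp [bv]

theorem bv_two_pow (j : ℕ) : bv D F (2 ^ j) = bas D F j := by
  funext z; simp [bv, bas, Nat.testBit_two_pow, eq_comm]

theorem bv_shift (v k : ℕ) : bv D F (v <<< k) =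
    (if v % 2 = 0 then 0 else bas D F k) + bv D F ((v / 2) <<< (k + 1)) := by
  funext z
  simp only [bv, Pi.add_apply, Nat.testBit_shiftLeft, ite_apply, bas, Pi.zero_apply]
  rcases lt_trichotomy k (enc z) with h | h | h
  · rw [show enc z - k = enc z - (k + 1) + 1 by omega, Nat.testBit_add_one]
    simp [h.le, h.ne', show k + 1 ≤ enc z from h]
  · rcases Nat.mod_two_eq_zero_or_one v with h1 | h1 <;> simp [← h, h1]
  · simp [h.ne, not_le.2 h, not_le.2 (Nat.lt_succ_of_lt h)]

theorem bv_inj {v w : ℕ} (h : bv D F v = bv D F w) :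
    v % 2 ^ (D.nroots + D.rank) = w % 2 ^ (D.nroots + D.rank) := by
  refine Nat.eq_of_testBit_eq fun i => ?_
  simp only [Nat.testBit_mod_two_pow]
  by_cases hi : i < D.nroots + D.rank
  · obtain ⟨z, rfl⟩ : ∃ z : D.Idx, enc z = i := by
      by_cases h1 : i < D.nroots
      · exact ⟨Sum.inr ⟨i, h1⟩, rfl⟩
      · exact ⟨Sum.inl ⟨i - D.nroots, by omega⟩, by simp; omega⟩
    have := congrFun h z
    simp only [bv] at this
    cases h1 : v.testBit (enc z) <;> cases h2 : w.testBit (enc z) <;> simp_all
  · simp [hi]

variable [CharP F 2]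

theorem bv_xor (v w : ℕ) : bv D F (v ^^^ w) = bv D F v + bv D F w := by
  funext z
  simp only [bv, Nat.testBit_xor, Pi.add_apply]
  cases v.testBit (enc z) <;> cases w.testBit (enc z) <;> simp [CharTwo.add_self_eq_zero]

theorem bv_toB (l : List ℕ) : ∀ k, bv D F (toB l <<< k) = evS D F k l := by
  induction l with
  | nil => intro k; simp [toB, bv_zero, evS]
  | cons c l ih =>
    intro k
    have h : toB (c :: l) = c % 2 + 2 * toB l := rfl
    rw [bv_shift, h, show (c % 2 + 2 * toB l) / 2 = toB l by omega, ih, evS,
      show (c % 2 + 2 * toB l) % 2 = c % 2 by omega, CharP.cast_eq_mod F 2 c]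
    rcases Nat.mod_two_eq_zero_or_one c with h1 | h1 <;> simp [h1]

theorem mulVec_bv {M : Matrix D.Idx D.Idx F} (A : List ℕ) : ∀ k v,
    (∀ j, M *ᵥ bas D F (k + j) = bv D F (A.getD j 0)) →
      M *ᵥ bv D F (v <<< k) = bv D F (appB A v) := by
  induction A with
  | nil =>
    intro k v h
    change _ = bv D F 0
    induction v using Nat.strong_induction_on generalizing k with
    | _ v ih =>
      rcases Nat.eq_zero_or_pos v with rfl | hv
      · simp [bv_zero]
      · rw [bv_shift, mulVec_add, ih (v / 2) (by omega) (k + 1) fun j => by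
          simpa [add_assoc] using h (1 + j)]
        have := h 0
        split_ifs <;> simp_all [bv_zero]
  | cons c A ih =>
    intro k v h
    have h1 := ih (k + 1) (v / 2) fun j => by simpa [add_assoc, add_comm 1] using h (j + 1)
    have h0 : M *ᵥ bas D F k = bv D F c := by simpa using h 0
    rw [bv_shift, mulVec_add, h1, appB_cons]
    split_ifs
    · simp
    · rw [h0, bv_xor]

/-- The list of columns `A` represents the group element `g`. -/
def RepB (g : D.group F) (A : List ℕ) : Prop := ∀ j, mat g *ᵥ bas D F j = bv D F (A.getD j 0)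

theorem RepB.app {g : D.group F} {A : List ℕ} (h : RepB g A) (v : ℕ) :
    mat g *ᵥ bv D F v = bv D F (appB A v) :=
  mulVec_bv A 0 v fun j => by rw [zero_add]; exact h j

theorem RepB.eq {g g' : D.group F} {A B : List ℕ} (h : RepB g A) (h' : RepB g' B) (e : A = B) : g = g' :=
  mat_inj (matrix_ext_bas fun a _ => (h a).trans (e ▸ (h' a).symm))

theorem RepB.mul {g g' : D.group F} {A B : List ℕ} (h : RepB g A) (h' : RepB g' B) :
    RepB (g * g') (mulB A B) := fun j => by
  have : mat (g * g') = mat g * mat g' := rfl
  rw [this, ← mulVec_mulVec, h' j, h.app, mulB, ← List.getD_map B 0 (appB A), appB_zero]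

theorem RepB.one : RepB (1 : D.group F) (oneB (D.nroots + D.rank)) := fun j => by
  have : mat (1 : D.group F) = 1 := rfl
  rw [this, one_mulVec]
  by_cases hj : j < D.nroots + D.rank
  · simp [oneB, List.getD_eq_getElem?_getD, hj, bv_two_pow]
  · simp [oneB, List.getD_eq_getElem?_getD, hj, bv_zero, bas_eq_zero (not_lt.1 hj)]

theorem RepM.toB {g : D.group F} {A : List (List ℕ)} (h : RepM g A) : RepB g (A.map toB) := fun j => by
  rw [h j, ← bv_toB, show (0 : ℕ) = CG.toB [] from rfl, List.getD_map]; rfl

theorem RepB.eval {L : List (D.group F)} {A : List (List ℕ)} (h : List.Forall₂ RepB L A)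
    (w : List ℕ) : RepB (w.map fun i => L.getD i 1).prod (evalB (D.nroots + D.rank) A w) := by
  have key : ∀ i, RepB (L.getD i 1) (A.getD i (oneB (D.nroots + D.rank))) := by
    induction h with
    | nil => exact fun _ => RepB.one
    | cons h1 _ ih => exact fun i => by cases i with
      | zero => exact h1
      | succ i => exact ih i
  induction w with
  | nil => exact RepB.one
  | cons i w ih => exact (key i).mul ih

variable [hD : IsRoot D] [hM : MatFacts D F] {T : Tab}

theorem RepB.word (hA : Agree D T) {w : List ℕ} (hw : ∀ r ∈ w, r < D.nroots) :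
    RepB (wordG (xg (D := D)) (w.map fun r => (r, (1 : F)))) (wordB T D.nroots D.rank w) := by
  induction w with
  | nil => exact RepB.one
  | cons r w ih =>
    rw [List.map_cons, wordG_cons, xN_of_lt _ (hw r (by simp))]
    have := RepM.x (F := F) hA two_pos ⟨r, hw r (by simp)⟩ 1
    rw [Nat.cast_one] at this
    exact this.toB.mul (ih fun q hq => hw q (by simp [hq]))

end CA.CG
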