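import Cfsg.Agent.Lib.CG.Sys
import Cfsg.Agent.Lib.Chev.Eval

/-! A verified evaluator for elements of a Chevalley group in characteristic `p`, with matrices given by
lists of columns of residues. -/

set_option autoImplicit false
set_option linter.unusedSectionVars false

namespace CA.CG

open Cfsg.Lie Cfsg.Lie.ChevalleyDatum CA.Chev Matrix

/-- `u + c v` modulo `p`. -/
noncomputable def addV (p c : ℕ) (v : List ℕ) : List ℕ → List ℕ :=
  List.rec (fun u => u) (fun b _ ih u => List.casesOn (motive := fun _ => List ℕ) u
    (Nat.mod (Nat.mul c b) p :: ih []) fun a u' => Nat.mod (Nat.add a (Nat.mul c b)) p :: ih u') v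

/-- A matrix, given by its columns, applied to a vector. -/
noncomputable def mulV (p : ℕ) (z : List ℕ) (A : List (List ℕ)) : List ℕ → List ℕ :=
  List.rec (fun _ => z) (fun col _ ih v => List.casesOn (motive := fun _ => List ℕ) v z
    fun c v' => bIf (Nat.beq c 0) (ih v') (addV p c col (ih v'))) A

/-- The product of two matrices. -/
noncomputable def mulM (p : ℕ) (z : List ℕ) (A B : List (List ℕ)) : List (List ℕ) := B.map (mulV p z A)

/-- A unit vector. -/
def unitV (i : ℕ) : List ℕ := List.replicate i 0 ++ [1]

/-- The identity matrix. -/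
noncomputable def oneM (p N : ℕ) : List (List ℕ) :=
  (List.range N).map fun a => addV p 1 (unitV a) (List.replicate N 0)

/-- The matrix of a root element. -/
noncomputable def xM (T : Tab) (n l p r τ : ℕ) : List (List ℕ) :=
  (List.range (n + l)).map fun a => (colF T n l r a).foldr
    (fun q acc => addV p ((q.2.2 % (p : ℤ)).toNat * τ ^ q.2.1) (unitV q.1) acc)
    (addV p 1 (unitV a) (List.replicate (n + l) 0))

/-- The matrix of a word. -/
noncomputable def wordM (T : Tab) (n l p : ℕ) (w : List (ℕ × ℕ)) : List (List ℕ) :=
  w.foldr (fun q acc => mulM p (List.replicate (n + l) 0) (xM T n l p q.1 q.2) acc) (oneM p (n + l))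

/-- The value of a word in a list of matrices. -/
noncomputable def evalM (p N : ℕ) (L : List (List (List ℕ))) (w : List ℕ) : List (List ℕ) :=
  w.foldr (fun i acc => mulM p (List.replicate N 0) (L.getD i (oneM p N)) acc) (oneM p N)

variable {D : ChevalleyDatum} {F : Type*} [Field F] {p : ℕ}

variable (D F) in
/-- The vector with the given coordinates, starting at position `k`. -/
def evS : ℕ → List ℕ → D.Idx → F
  | _, [] => 0
  | k, c :: v => (c : F) • bas D F k + evS (k + 1) v

theorem evS_replicate (n : ℕ) : ∀ k, evS D F k (List.replicate n 0) = 0 := by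
  induction n with
  | zero => intro k; rfl
  | succ n ih => intro k; simp [List.replicate_succ, evS, ih]

theorem evS_unitV (i : ℕ) : ∀ k, evS D F k (unitV i) = bas D F (k + i) := by
  induction i with
  | zero => intro k; simp [unitV, evS]
  | succ i ih =>
    intro k
    have := ih (k + 1)
    simp only [unitV, List.replicate_succ, List.cons_append, evS] at this ⊢
    rw [this]; simp [add_assoc, add_comm 1]

variable [CharP F p]

theorem evS_addV (c : ℕ) (v : List ℕ) : ∀ u k, evS D F k (addV p c v u) =
    evS D F k u + (c : F) • evS D F k v := by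
  induction v with
  | nil => intro u k; simp [addV, evS]
  | cons b v ih =>
    intro u k
    cases u with
    | nil =>
      change ((c * b % p : ℕ) : F) • _ + evS D F (k + 1) (addV p c v []) = _
      rw [ih, ← CharP.cast_eq_mod]; simp [smul_smul, evS]
    | cons a u =>
      change (((a + c * b) % p : ℕ) : F) • _ + evS D F (k + 1) (addV p c v u) = _
      rw [ih, ← CharP.cast_eq_mod, evS, evS]; push_cast; module

theorem evS_mulV {M : Matrix D.Idx D.Idx F} (n : ℕ) (A : List (List ℕ)) : ∀ k v,
    (∀ j, M *ᵥ bas D F (k + j) = evS D F 0 (A.getD j [])) →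
      M *ᵥ evS D F k v = evS D F 0 (mulV p (List.replicate n 0) A v) := by
  induction A with
  | nil =>
    intro k v h
    simp only [mulV, evS_replicate]
    induction v generalizing k with
    | nil => simp [evS]
    | cons c v ih =>
      rw [evS, mulVec_add, mulVec_smul, ih (k + 1) fun j => by simpa [add_assoc] using h (1 + j)]
      simpa [evS] using Or.inr (h 0)
  | cons col A ih =>
    intro k v h
    cases v with
    | nil => simp [mulV, evS, evS_replicate]
    | cons c v =>
      have h1 := ih (k + 1) v fun j => by simpa [add_assoc, add_comm 1] using h (j + 1)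
      have h0 : M *ᵥ bas D F k = evS D F 0 col := by simpa using h 0
      simp only [mulV, bIf_eq, Nat.beq_eq] at h1 ⊢
      rw [evS, mulVec_add, mulVec_smul, h1, h0]
      split_ifs with hc
      · simp [hc]
      · rw [evS_addV, add_comm]

/-- The list of columns `A` represents the group element `g`. -/
def RepM (g : D.group F) (A : List (List ℕ)) : Prop :=
  ∀ j, mat g *ᵥ bas D F j = evS D F 0 (A.getD j [])

theorem bas_eq_zero {a : ℕ} (ha : D.nroots + D.rank ≤ a) : bas D F a = 0 := by
  funext z
  have := enc_lt z
  simp only [bas, Pi.zero_apply, ite_eq_right_iff]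
  omega

theorem RepM.eq {g g' : D.group F} {A : List (List ℕ)} (h : RepM g A) (h' : RepM g' A) : g = g' :=
  mat_inj (matrix_ext_bas fun a _ => (h a).trans (h' a).symm)

theorem RepM.mul {g g' : D.group F} {A B : List (List ℕ)} (h : RepM g A) (h' : RepM g' B) (n : ℕ) :
    RepM (g * g') (mulM p (List.replicate n 0) A B) := fun j => by
  have : mat (g * g') = mat g * mat g' := rfl
  rw [this, ← mulVec_mulVec, h' j, evS_mulV (p := p) n A 0 _ (fun j => by rw [zero_add]; exact h j)]
  by_cases hj : j < B.length
  · simp [mulM, List.getD_eq_getElem?_getD, hj]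
  · have hj' : B.length ≤ j := by omega
    simp only [mulM, List.getD_eq_getElem?_getD, List.getElem?_eq_none hj', List.getElem?_map,
      Option.map_none, Option.getD_none]
    cases A <;> simp [mulV, evS, evS_replicate]

theorem RepM.one : RepM (1 : D.group F) (oneM p (D.nroots + D.rank)) := fun j => by
  have : mat (1 : D.group F) = 1 := rfl
  rw [this, one_mulVec]
  by_cases hj : j < D.nroots + D.rank
  · simp [oneM, List.getD_eq_getElem?_getD, hj, evS_addV, evS_replicate, evS_unitV]
  · simp [oneM, List.getD_eq_getElem?_getD, hj, evS, bas_eq_zero (not_lt.1 hj)]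

theorem RepM.eval {L : List (D.group F)} {A : List (List (List ℕ))} (h : List.Forall₂ RepM L A)
    (w : List ℕ) : RepM (w.map fun i => L.getD i 1).prod (evalM p (D.nroots + D.rank) A w) := by
  have key : ∀ i, RepM (L.getD i 1) (A.getD i (oneM p (D.nroots + D.rank))) := by
    induction h with
    | nil => exact fun _ => RepM.one
    | cons h1 _ ih => exact fun i => by cases i with
      | zero => exact h1
      | succ i => exact ih i
  induction w with
  | nil => exact RepM.one
  | cons i w ih => exact (key i).mul ih _

variable [hD : IsRoot D] [hM : MatFacts D F] {T : Tab}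

theorem RepM.x (hA : Agree D T) (hp : 0 < p) (r : Rt D) (τ : ℕ) :
    RepM (xg r (τ : F)) (xM T D.nroots D.rank p r τ) := fun j => by
  have : mat (xg r (τ : F)) = D.x F r τ := rfl
  rw [this]
  by_cases hj : j < D.nroots + D.rank
  · rw [colF_spec hA]
    simp only [xM, List.getD_eq_getElem?_getD, List.getElem?_map, List.getElem?_range hj,
      Option.map_some, Option.getD_some]
    induction colF T D.nroots D.rank r j with
    | nil => simp [evS_addV, evS_replicate, evS_unitV]
    | cons q l ih =>
      rw [List.foldr_cons, evS_addV, ← ih, evS_unitV, List.map_cons, List.sum_cons, zero_add, add_assoc,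
        add_comm (List.sum _)]
      congr 3
      rw [Nat.cast_mul, Nat.cast_pow, ← Int.cast_natCast (R := F) (Int.toNat _),
        Int.toNat_of_nonneg (Int.emod_nonneg _ (by omega)), CharP.intCast_eq_intCast_mod F p]
  · simp [xM, List.getD_eq_getElem?_getD, hj, evS, bas_eq_zero (not_lt.1 hj)]

theorem RepM.word (hA : Agree D T) (hp : 0 < p) {w : List (ℕ × ℕ)} (hw : ∀ q ∈ w, q.1 < D.nroots) :
    RepM (wordG (xg (D := D)) (w.map fun q => (q.1, (q.2 : F)))) (wordM T D.nroots D.rank p w) := by
  induction w with
  | nil => exact RepM.one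
  | cons q w ih =>
    rw [List.map_cons, wordG_cons, xN_of_lt _ (hw q (by simp))]
    exact (RepM.x hA hp ⟨q.1, hw q (by simp)⟩ q.2).mul (ih fun q hq => hw q (by simp [hq])) _

theorem word_eq_of_eval (hA : Agree D T) (hp : 0 < p) {w w' : List (ℕ × ℕ)}
    (h : (∀ q ∈ w, q.1 < D.nroots) ∧ (∀ q ∈ w', q.1 < D.nroots) ∧
      wordM T D.nroots D.rank p w = wordM T D.nroots D.rank p w') :
    wordG (xg (D := D)) (w.map fun q => (q.1, (q.2 : F))) = wordG xg (w'.map fun q => (q.1, (q.2 : F))) :=
  (RepM.word hA hp h.1).eq (h.2.2 ▸ RepM.word hA hp h.2.1)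

end CA.CG
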