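import Cfsg.Agent.Lib.Chev.Root
import Cfsg.Agent.Lib.Weyl.Roots

/-! The root system of a Chevalley datum, with its Weyl group as a Coxeter system. -/

set_option autoImplicit false
set_option linter.unusedSectionVars false

namespace CA.CG

open Cfsg.Lie Cfsg.Lie.ChevalleyDatum CA.Chev CA.Weyl Matrix

/-- The Cartan matrix of a datum. -/
def cartA (D : ChevalleyDatum) : Nd D → Nd D → ℤ := fun j i => D.cartan j (D.simple i)

/-- The order of the product of two simple reflections, from the number of bonds. -/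
def bondM (k : ℤ) : ℕ := if k = 0 then 2 else if k = 1 then 3 else if k = 2 then 4 else 6

/-- The Coxeter matrix of a datum. -/
def coxM (D : ChevalleyDatum) : CoxeterMatrix (Nd D) where
  M := Matrix.of fun i j => if i = j then 1 else bondM (cartA D i j * cartA D j i)
  isSymm := by
    ext i j
    simp only [transpose_apply, of_apply, eq_comm (a := j), mul_comm]
  diagonal := fun i => by simp
  off_diagonal := fun i j h => by
    simp only [of_apply, h, if_false, bondM]
    split_ifs <;> omega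

variable {D : ChevalleyDatum} [hD : IsRoot D]

theorem cartA_eq (j i : Nd D) : cartA D j i = wt (Chev.simple i) j := rfl

variable (D) in
theorem cartanCox_coxM : CartanCox (cartA D) (coxM D) where
  diag := fun i => wt_simple_self i
  off := fun i j hij => by
    have h := hD.cartan_pairs i j hij
    have e : coxM D i j = bondM (cartA D i j * cartA D j i) := by simp [coxM, hij]
    change (cartA D i j, cartA D j i) ∈ _ at h
    rw [e]
    simp only [List.mem_cons, Prod.mk.injEq, List.not_mem_nil, or_false] at h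
    rcases h with ⟨h1, h2⟩ | ⟨h1, h2⟩ | ⟨h1, h2⟩ | ⟨h1, h2⟩ | ⟨h1, h2⟩ | ⟨h1, h2⟩ <;>
      simp [h1, h2, bondM]

theorem cor_sRefl_sig (i : Nd D) (r : Rt D) : cor (sRefl i r) = sig (cartA D) i (cor r) := by
  rw [cor_sRefl, sig_apply, cor_simple]
  rfl

variable {M : CoxeterMatrix (Nd D)} (h : CartanCox (cartA D) M)

include h in
theorem exists_cs : ∃ cs : CoxeterSystem M (W D), (∀ i, (cs.simple i : Equiv.Perm (Rt D)) = sRefl i) ∧
    ∀ (w : W D) (r : Rt D), cor ((w : Equiv.Perm (Rt D)) r) = h.lin cs w (cor r) :=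
  h.exists_cs sRefl cor cor_injective cor_sRefl_sig Chev.simple cor_simple

/-- The root system of a datum. -/
noncomputable def rs : RS (Nd D) (Rt D) (W D) where
  A := cartA D
  M := M
  h := h
  cs := (exists_cs h).choose
  act := (W D).subtype
  cor := cor
  simple := Chev.simple
  neg := Chev.neg
  cor_inj := cor_injective
  cor_act := (exists_cs h).choose_spec.2
  cor_simple := cor_simple
  cor_neg := cor_neg
  pos_or_neg := fun r => by
    by_cases hr : Pos r
    · exact Or.inl ((pos_iff_cor r).1 hr)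
    · exact Or.inr ((not_pos_iff_cor r).1 hr)
  cor_ne_zero := cor_ne_zero
  reduced := fun r i hr hne => by
    change 0 ≤ cor (((exists_cs h).choose.simple i : Equiv.Perm (Rt D)) r)
    rw [(exists_cs h).choose_spec.1]
    exact (pos_iff_cor _).1 (pos_sRefl ((pos_iff_cor r).2 hr) hne)

@[simp] theorem rs_simple (i : Nd D) : (rs h).simple i = Chev.simple i := rfl
@[simp] theorem rs_neg (r : Rt D) : (rs h).neg r = Chev.neg r := rfl
@[simp] theorem rs_cor (r : Rt D) : (rs h).cor r = cor r := rfl
theorem rs_act (w : W D) (r : Rt D) : (rs h).act w r = (w : Equiv.Perm (Rt D)) r := rfl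

theorem rs_cs_simple (i : Nd D) : ((rs h).cs.simple i : Equiv.Perm (Rt D)) = sRefl i :=
  (exists_cs h).choose_spec.1 i

@[simp] theorem rs_act_simple (i : Nd D) (r : Rt D) : (rs h).act ((rs h).cs.simple i) r = sRefl i r := by
  rw [rs_act, rs_cs_simple]

@[simp] theorem rs_pos (r : Rt D) : (rs h).Pos r ↔ Pos r := (pos_iff_cor r).symm

theorem rs_inSub (J : Set ℕ) (r : Rt D) : (rs h).InSub {i | (i : ℕ) ∈ J} r ↔ D.InRootSub J r :=
  ⟨fun hr => ⟨r.2, fun i hi hJ => hr ⟨i, hi⟩ hJ⟩, fun hr i hi => hr.2 i i.2 hi⟩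

theorem len_cor_of_wt_eq {r s u : Rt D} {a b : ℤ} (e : wt u = a • wt r + b • wt s) :
    (len u : ℤ) • cor u = (a * len r) • cor r + (b * len s) • cor s := by
  funext i
  have h1 := congrFun (rc_of_wt_eq e) i
  have h2 := rc_mul_len u i
  have h3 := rc_mul_len r i
  have h4 := rc_mul_len s i
  simp only [Pi.add_apply, Pi.smul_apply, smul_eq_mul] at h1 ⊢
  linear_combination -h2 + (len (Chev.simple i) : ℤ) * h1 + a * h3 + b * h4

theorem cone_of_wt_eq {r s u : Rt D} {a b : ℤ} (ha : 0 < a) (hb : 0 < b)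
    (e : wt u = a • wt r + b • wt s) : (rs h).Cone r s u :=
  ⟨a * len r, b * len s, len u, mul_pos ha (by exact_mod_cast len_pos r),
    mul_pos hb (by exact_mod_cast len_pos s), by exact_mod_cast len_pos u, len_cor_of_wt_eq e⟩

theorem wt_of_cone {r s u : Rt D} (e : (rs h).Cone r s u) :
    ∃ a b k : ℤ, 0 < a ∧ 0 < b ∧ 0 < k ∧ k • wt u = a • wt r + b • wt s := by
  obtain ⟨a, b, k, ha, hb, hk, e⟩ := e
  have hr : (0 : ℤ) < len r := by exact_mod_cast len_pos r
  have hs : (0 : ℤ) < len s := by exact_mod_cast len_pos s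
  have hu : (0 : ℤ) < len u := by exact_mod_cast len_pos u
  refine ⟨a * len s * len u, b * len r * len u, k * len r * len s, by positivity, by positivity,
    by positivity, ?_⟩
  rw [wt_eq_sum u, wt_eq_sum r, wt_eq_sum s]
  simp only [Finset.smul_sum, ← Finset.sum_add_distrib, smul_smul, ← add_smul]
  refine Finset.sum_congr rfl fun i _ => ?_
  congr 1
  have h1 := congrFun e i
  have h2 := rc_mul_len u i
  have h3 := rc_mul_len r i
  have h4 := rc_mul_len s i
  have hi : (len (Chev.simple i) : ℤ) ≠ 0 := by exact_mod_cast (len_pos _).ne'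
  simp only [Pi.add_apply, Pi.smul_apply, smul_eq_mul, rs_cor] at h1
  apply mul_right_cancel₀ hi
  linear_combination k * len r * len s * h2 - a * len s * len u * h3 - b * len r * len u * h4 +
    len r * len s * len u * h1

omit hD in
theorem chainRoot_mem {r s i k : ℕ} (hi : 0 < i) (e : D.chainRoot r s i = some k) :
    ∃ en ∈ (D.chain.getD r #[]).toList, en.1 = s ∧ ∃ q ∈ en.2.toList.zipIdx, q.1.1 = k ∧ q.2 + 1 = i := by
  unfold chainRoot chainEntry at e
  split at e
  · simp at e
  · rename_i en hen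
    refine ⟨en, List.mem_of_find?_eq_some hen, by simpa using List.find?_some hen, ?_⟩
    rw [Option.map_eq_some_iff] at e
    obtain ⟨p, hp, rfl⟩ := e
    exact ⟨(p, i - 1), List.mem_zipIdx_iff_getElem?.2 (by simpa using hp), rfl, by simp; omega⟩

theorem chainRoot_spec {r s : Rt D} {i k : ℕ} (hi : 0 < i) (e : D.chainRoot r s i = some k) :
    ∃ u : Rt D, (u : ℕ) = k ∧ wt u = (i : ℤ) • wt r + wt s := by
  obtain ⟨en, hen, h1, q, hq, rfl, rfl⟩ := chainRoot_mem hi e
  obtain ⟨-, -, -, h4⟩ := hD.chain_spec r en hen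
  obtain ⟨h5, h6⟩ := h4 q hq
  refine ⟨⟨_, h5⟩, rfl, funext fun j => ?_⟩
  have := h6 j
  rw [h1] at this
  simpa [wt] using this

theorem commTerms_spec {r s : Rt D} {c : ℕ × ℤ × ℕ × ℕ} (hc : c ∈ D.commTerms r s) :
    ∃ u : Rt D, (u : ℕ) = c.1 ∧ 0 < c.2.2.1 ∧ 0 < c.2.2.2 ∧
      wt u = (c.2.2.1 : ℤ) • wt r + (c.2.2.2 : ℤ) • wt s := by
  simp only [commTerms, List.mem_filterMap, List.mem_cons, List.not_mem_nil, or_false,
    Option.map_eq_some_iff] at hc
  obtain ⟨a, ha, k, hk, rfl⟩ := hc
  rcases ha with rfl | rfl | rfl | rfl | rfl | rfl | rfl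
  · obtain ⟨u, h1, h2⟩ := chainRoot_spec one_pos hk
    exact ⟨u, h1, one_pos, one_pos, by simpa using h2⟩
  · obtain ⟨u, h1, h2⟩ := chainRoot_spec two_pos hk
    exact ⟨u, h1, two_pos, one_pos, by simpa using h2⟩
  · obtain ⟨u, h1, h2⟩ := chainRoot_spec two_pos hk
    exact ⟨u, h1, one_pos, two_pos, by simpa [add_comm] using h2⟩
  · obtain ⟨u, h1, h2⟩ := chainRoot_spec three_pos hk
    exact ⟨u, h1, three_pos, one_pos, by simpa using h2⟩
  · obtain ⟨u, h1, h2⟩ := chainRoot_spec three_pos hk
    exact ⟨u, h1, one_pos, three_pos, by simpa [add_comm] using h2⟩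
  · rw [Option.bind_eq_some_iff] at hk
    obtain ⟨l, hl, hk⟩ := hk
    obtain ⟨v, rfl, h2⟩ := chainRoot_spec three_pos hl
    obtain ⟨u, h1, h3⟩ := chainRoot_spec one_pos hk
    refine ⟨u, h1, three_pos, two_pos, ?_⟩
    rw [h3, h2]; push_cast; module
  · rw [Option.bind_eq_some_iff] at hk
    obtain ⟨l, hl, hk⟩ := hk
    obtain ⟨v, rfl, h2⟩ := chainRoot_spec three_pos hl
    obtain ⟨u, h1, h3⟩ := chainRoot_spec one_pos hk
    refine ⟨u, h1, two_pos, three_pos, ?_⟩
    rw [h3, h2]; push_cast; module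

open Classical in
theorem card_pos : (Finset.univ.filter (rs h).Pos).card = D.nroots / 2 := by
  have h1 : (Finset.univ.filter (rs h).Pos).card =
      (Finset.univ.filter fun r => ¬ (rs h).Pos r).card := by
    refine Finset.card_bij (fun r _ => Chev.neg r) (by simp) (by simp) fun r hr => ?_
    exact ⟨Chev.neg r, by simpa using hr, by simp⟩
  have h2 := Finset.card_filter_add_card_filter_not (s := (Finset.univ : Finset (Rt D))) (rs h).Pos
  rw [Finset.card_univ, Fintype.card_fin] at h2
  omega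

theorem irreducible (J : Set (Nd D)) (h1 : J.Nonempty) (h2 : Jᶜ.Nonempty) :
    ∃ i ∈ J, ∃ j ∉ J, (rs h).cs.simple i * (rs h).cs.simple j ≠
      (rs h).cs.simple j * (rs h).cs.simple i := by
  classical
  obtain ⟨i, hi, j, hj, hij⟩ := hD.connected J.toFinset (by simpa using h1) (by
    intro e
    obtain ⟨k, hk⟩ := h2
    exact hk (Set.mem_toFinset.1 (by rw [e]; exact Finset.mem_univ k)))
  refine ⟨i, by simpa using hi, j, by simpa using hj, fun e => ?_⟩
  have hne : i ≠ j := by rintro rfl; exact hj hi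
  have e1 := congrArg (fun w => wt ((rs h).act w (Chev.simple j))) e
  simp only [RS.act_mul, rs_act_simple, sRefl_simple, sRefl_neg, wt_neg, wt_sRefl,
    wt_simple_self] at e1
  change wt (Chev.simple j) i ≠ 0 at hij
  have e3 : (2 * wt (Chev.simple j) i) • wt (Chev.simple i) =
      (wt (Chev.simple j) i * wt (Chev.simple i) j) • wt (Chev.simple j) := by
    funext k
    have := congrFun e1 k
    simp only [Pi.neg_apply, Pi.sub_apply, Pi.smul_apply, smul_eq_mul, wt_simple_self] at this ⊢
    linear_combination this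
  have e4 := coeff_unique (D := D) (a := Pi.single i (2 * wt (Chev.simple j) i))
    (b := Pi.single j (wt (Chev.simple j) i * wt (Chev.simple i) j)) (by
      simpa [Pi.single_apply] using e3)
  have := congrFun e4 i
  simp [hne] at this
  exact hij this

end CA.CG
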