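import Cfsg.Agent.Lib.Chev.SL2
import Cfsg.Agent.Lib.Classical.SmallIso

/-! A presentation of `SL₂` over a field, and the field with eight elements. -/

set_option autoImplicit false

namespace CA.CG

open Matrix CA.Chev
open scoped MatrixGroups

variable {F G : Type*} [Field F] [Group G]

theorem sl2_eq_top (P : Subgroup SL(2, F)) (hu : ∀ t, upM t ∈ P) (hw : wM ∈ P) (g : SL(2, F)) : g ∈ P := by
  have h2 : ∀ g : SL(2, F), g.1 1 0 ≠ 0 → g ∈ P := fun g hc => by
    have hdet := g.det_coe
    rw [det_fin_two] at hdet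
    have : wM * (upM ((1 - g.1 0 0) / g.1 1 0) * g) =
        upM (-g.1 1 0) * wM * upM ((g.1 1 1 - 1) / g.1 1 0) := by
      apply Subtype.ext
      change !![0, 1; -1, 0] * (!![1, _; 0, 1] * g.1) = !![1, _; 0, 1] * !![0, 1; -1, 0] * !![1, _; 0, 1]
      ext i j
      fin_cases i <;> fin_cases j <;> simp [Matrix.mul_apply, Fin.sum_univ_two, vecMul, dotProduct] <;>
        field_simp <;> first | ring1 | linear_combination hdet
    exact (P.mul_mem_cancel_left (hu _)).1 ((P.mul_mem_cancel_left hw).1
      (this ▸ P.mul_mem (P.mul_mem (hu _) hw) (hu _)))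
  by_cases hc : g.1 1 0 = 0
  · refine (P.mul_mem_cancel_left hw).1 (h2 _ ?_)
    have hdet := g.det_coe
    rw [det_fin_two] at hdet
    change (!![0, 1; -1, 0] * g.1 : Matrix (Fin 2) (Fin 2) F) 1 0 ≠ 0
    intro h
    simp [Matrix.mul_apply, Fin.sum_univ_two] at h
    simp [h, hc] at hdet
  · exact h2 g hc

/-- The relations of the rank one presentation. -/
structure SL2Rel (x h : F → G) (n : G) : Prop where
  add : ∀ s t, x (s + t) = x s * x t
  mul : ∀ a b, a ≠ 0 → b ≠ 0 → h (a * b) = h a * h b
  conj : ∀ a u, a ≠ 0 → h a * x u = x (a ^ 2 * u) * h a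
  sq : n * n = h (-1)
  rank : ∀ t, t ≠ 0 → n * x t * n = x (-t⁻¹) * (n * h (-t)) * x (-t⁻¹)

open Classical in
/-- The image of a matrix, by its Bruhat form. -/
noncomputable def sl2Q (x h : F → G) (n : G) (a b c d : F) : G :=
  if c = 0 then x (a * b) * h a else x (a / c) * (n * h (-c)) * x (d / c)

/-- The image of a matrix. -/
noncomputable def sl2P (x h : F → G) (n : G) (g : SL(2, F)) : G :=
  sl2Q x h n (g.1 0 0) (g.1 0 1) (g.1 1 0) (g.1 1 1)

namespace SL2Rel

variable {x h : F → G} {n : G} (H : SL2Rel x h n)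
include H

theorem zero : x 0 = 1 := by simpa using H.add 0 0

theorem one : h 1 = 1 := by simpa using H.mul 1 1 one_ne_zero one_ne_zero

theorem up (t : F) (g : SL(2, F)) : sl2P x h n (upM t * g) = x t * sl2P x h n g := by
  have hdet := g.det_coe
  rw [det_fin_two] at hdet
  have : (upM t * g).1 = !![g.1 0 0 + t * g.1 1 0, g.1 0 1 + t * g.1 1 1; g.1 1 0, g.1 1 1] := by
    change !![1, t; 0, 1] * g.1 = _
    ext i j; fin_cases i <;> fin_cases j <;> simp [Matrix.mul_apply, Fin.sum_univ_two]
  simp only [sl2P, this, of_apply, cons_val', cons_val_zero, cons_val_one, cons_val_fin_one]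
  generalize g.1 0 0 = a, g.1 0 1 = b, g.1 1 0 = c, g.1 1 1 = d at hdet
  unfold sl2Q
  split_ifs with hc
  · rw [← mul_assoc, ← H.add, hc, mul_zero, add_zero]
    congr 2
    rw [hc] at hdet
    linear_combination t * hdet
  · rw [← mul_assoc (x t), ← mul_assoc (x t), ← H.add]
    congr 3
    field_simp
    ring

theorem w (g : SL(2, F)) : sl2P x h n (wM * g) = n * sl2P x h n g := by
  have hdet := g.det_coe
  rw [det_fin_two] at hdet
  have : (wM * g).1 = !![g.1 1 0, g.1 1 1; -g.1 0 0, -g.1 0 1] := by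
    change !![0, 1; -1, 0] * g.1 = _
    ext i j; fin_cases i <;> fin_cases j <;> simp [Matrix.mul_apply, Fin.sum_univ_two]
  simp only [sl2P, this, of_apply, cons_val', cons_val_zero, cons_val_one, cons_val_fin_one]
  generalize g.1 0 0 = a, g.1 0 1 = b, g.1 1 0 = c, g.1 1 1 = d at hdet
  unfold sl2Q
  by_cases hc : c = 0
  · have ha : a ≠ 0 := by rintro rfl; simp [hc] at hdet
    have := H.conj a (b / a) ha
    rw [show a ^ 2 * (b / a) = a * b by field_simp] at this
    simp [hc, ha, H.zero, ← this, mul_assoc]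
  by_cases ha : a = 0
  · have := H.conj c (d / c) hc
    rw [show c ^ 2 * (d / c) = c * d by field_simp] at this
    have h1 := H.mul (-1) (-c) (by simp) (by simpa using hc)
    simp only [neg_mul_neg, one_mul] at h1
    simp [hc, ha, H.zero, ← this, ← mul_assoc, H.sq, ← h1]
  have h1 := H.rank (a / c) (div_ne_zero ha hc)
  have h2 := H.conj (-c) (-(a * c)⁻¹) (by simpa using hc)
  rw [show (-c) ^ 2 * -(a * c)⁻¹ = -(a / c)⁻¹ by field_simp] at h2
  have h3 := H.mul (-(a / c)) (-c) (by simpa using ⟨ha, hc⟩) (by simpa using hc)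
  rw [show -(a / c) * -c = a by field_simp] at h3
  have h4 : -b / -a = -(a * c)⁻¹ + d / c := by field_simp; linear_combination -hdet
  rw [if_neg (by simpa using ha), if_neg hc, ← mul_assoc n, ← mul_assoc n, ← mul_assoc (n * _), h1,
    mul_assoc _ (x _) (h _), ← h2, h4, H.add, _root_.neg_neg, h3,
    show c / -a = -(a / c)⁻¹ by field_simp]
  simp only [mul_assoc]

theorem exists_hom : ∃ φ : SL(2, F) →* G, (∀ t, φ (upM t) = x t) ∧ φ wM = n := by
  have h1 : sl2P x h n 1 = 1 := by simp [sl2P, sl2Q, H.zero, H.one]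
  have hu : ∀ t, sl2P x h n (upM t) = x t := fun t => by rw [← mul_one (upM t), H.up, h1, mul_one]
  have hw : sl2P x h n wM = n := by rw [← mul_one wM, H.w, h1, mul_one]
  let P : Subgroup SL(2, F) :=
    { carrier := {s | ∀ g, sl2P x h n (s * g) = sl2P x h n s * sl2P x h n g}
      one_mem' := fun g => by rw [one_mul, h1, one_mul]
      mul_mem' := fun {a b} ha hb g => by rw [mul_assoc, ha, hb, ha, mul_assoc]
      inv_mem' := fun {a} ha g => by
        have e1 := ha (a⁻¹ * g)
        have e2 := ha a⁻¹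
        rw [mul_inv_cancel_left] at e1
        rw [mul_inv_cancel, h1] at e2
        rw [e1, ← mul_assoc, mul_eq_one_comm.1 e2.symm, one_mul] }
  exact ⟨⟨⟨sl2P x h n, h1⟩, sl2_eq_top P (fun t g => by rw [H.up, hu]) fun g => by rw [H.w, hw]⟩, hu, hw⟩

end SL2Rel

/-- The field with eight elements. -/
def F8 : Type := Fin 8

namespace F8

instance instDecEqF8 : DecidableEq F8 := instDecidableEqFin 8

instance instFintypeF8 : Fintype F8 := Fin.fintype 8

/-- The addition. -/
def add (a b : F8) : F8 := Fin.ofNat 8 (a.1 ^^^ b.1)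

/-- The multiplication. -/
def mul (a b : F8) : F8 :=
  Fin.ofNat 8 (([0, 0x76543210, 0x57136420, 0x21475630, 0x15267340, 0x63724150, 0x42351760,
    0x34612570].getD a.1 0 : ℕ) >>> (4 * b.1))

/-- The inversion. -/
def inv (a : F8) : F8 := Fin.ofNat 8 ((0x43276510 : ℕ) >>> (4 * a.1))

instance instZeroF8 : Zero F8 := ⟨(0 : Fin 8)⟩

instance instAddF8 : Add F8 := ⟨add⟩

instance instNegF8 : Neg F8 := ⟨fun a => a⟩

instance instFieldF8 : Field F8 where
  mul := mul
  one := (1 : Fin 8)
  inv := inv
  add_assoc := by decide +kernel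
  zero_add := by decide +kernel
  add_zero := by decide +kernel
  add_comm := by decide +kernel
  neg_add_cancel := by decide +kernel
  mul_assoc := by decide +kernel
  one_mul := by decide +kernel
  mul_one := by decide +kernel
  mul_comm := by decide +kernel
  zero_mul := by decide +kernel
  mul_zero := by decide +kernel
  left_distrib := by decide +kernel
  right_distrib := by decide +kernel
  exists_pair_ne := ⟨(0 : Fin 8), (1 : Fin 8), Fin.zero_ne_one⟩
  mul_inv_cancel := by decide +kernel
  inv_zero := by decide +kernel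
  nsmul := nsmulRec
  zsmul := zsmulRec
  nnqsmul := _
  nnqsmul_def := fun _ _ => rfl
  qsmul := _
  qsmul_def := fun _ _ => rfl

theorem card : Fintype.card F8 = 8 := rfl

end F8

end CA.CG
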