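import Cfsg.Agent.Lib.CG.Uni

/-! The structure theorems for the Chevalley group, in terms of the standard subgroups of `GL`. -/

set_option autoImplicit false
set_option linter.unusedSectionVars false
set_option maxHeartbeats 400000

namespace CA.BN

open CA.Weyl RGD0

theorem parabolic_single {G : Type*} [Group G] {P : Cfsg.BNPair G} {s : G} (hs : s ∈ P.S) (g : G) :
    g ∈ P.parabolic {s} ↔ g ∈ P.B ∨ DC P g s := by
  rw [mem_parabolic_iff (by simpa using hs)]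
  have key : ∀ n ∈ Subgroup.closure {s}, n ∈ P.B ∨ s⁻¹ * n ∈ P.B := by
    intro n hn
    induction hn using Subgroup.closure_induction_left with
    | one => exact Or.inl P.B.one_mem
    | mul_left x hx y _ ih =>
      obtain rfl : x = s := hx
      rcases ih with h | h
      · exact Or.inr (by simpa using h)
      · exact Or.inl (by simpa [mul_assoc] using P.B.mul_mem (P.sq_mem x hs) h)
    | inv_mul_cancel x hx y _ ih =>
      obtain rfl : x = s := hx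
      rcases ih with h | h
      · exact Or.inr (by simpa [mul_assoc] using P.B.mul_mem (P.B.inv_mem (P.sq_mem x hs)) h)
      · exact Or.inl h
  constructor
  · rintro ⟨n, hn, h⟩
    rcases key n hn with h1 | h1
    · exact Or.inl (h.mem le_rfl h1)
    · exact Or.inr (h.trans (DC.of_inv_mul h1))
  · rintro (h | h)
    · exact ⟨1, Subgroup.one_mem _, DC.of_inv_mul (by simpa using h)⟩
    · exact ⟨s, Subgroup.subset_closure rfl, h⟩

variable {B R W : Type*} [Fintype B] [DecidableEq B] [Group W] [Fintype R]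
variable {Φ : RS B R W} {G : Type*} [Group G]

theorem RGD0.U_sup_V (Γ : RGD0 Φ G) : Γ.U ⊔ Γ.V = XS Γ.X fun _ => True :=
  le_antisymm (sup_le (XS_mono fun _ _ => trivial) (XS_mono fun _ _ => trivial)) (XS_le.2 fun r _ => by
    by_cases h : Φ.Pos r
    · exact le_sup_of_le_left fun _ => mem_U h
    · exact le_sup_of_le_right fun _ => mem_V h)

theorem RGD0.rad_single (Γ : RGD0 Φ G) (i : B) :
    Γ.Rad {i} = XS Γ.X fun r => Φ.Pos r ∧ r ≠ Φ.simple i :=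
  XS_congr fun r => and_congr_right fun hr => not_congr
    ⟨Φ.eq_simple_of_inSub_single hr, fun e => e ▸ Φ.inSub_simple_iff.2 rfl⟩

theorem RGD0.N_le_normalizer_H (Γ : RGD0 Φ G) : Γ.N ≤ Subgroup.normalizer (Γ.H : Set G) :=
  Subgroup.le_normalizer_iff.2 fun _ hn _ hk => (exists_rep_of_mem hn).choose_spec.conj_H hk

theorem RGD0.parab_eq (Γ : RGD0 Φ G) (ns : B → G) (hns : ∀ i, Γ.Rep (ns i) (Φ.cs.simple i))
    (J : Set B) : Γ.Bor ⊔ Subgroup.closure (ns '' J) = Γ.Rad J ⊔ Γ.L J := by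
  apply le_antisymm
  · refine sup_le (sup_le (fun u hu => ?_) (le_sup_of_le_right le_sup_right))
      ((Subgroup.closure_le _).2 ?_)
    · obtain ⟨a, ha, b, hb, rfl⟩ := split_U J hu
      exact Subgroup.mul_mem _ (Subgroup.mem_sup_left ha) (Subgroup.mem_sup_right (UJ_le_L J hb))
    · rintro _ ⟨j, hj, rfl⟩
      exact Subgroup.mem_sup_right (rep_mem_L (simple_mem_par _ hj) (hns j))
  · have hrep : ∀ w ∈ par Φ.cs J, ∀ n, Γ.Rep n w → n ∈ Γ.Bor ⊔ Subgroup.closure (ns '' J) := by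
      intro w hw
      refine par_induction_right Φ.cs
        (P := fun w => ∀ n, Γ.Rep n w → n ∈ Γ.Bor ⊔ Subgroup.closure (ns '' J)) ?_ ?_ hw
      · exact fun n hn => Subgroup.mem_sup_left (H_le_Bor (rep_one_iff.1 hn))
      · intro w _ j hj ih n hn
        have := Subgroup.mul_mem _ (ih (n * (ns j)⁻¹) (by simpa using hn.mul (hns j).inv))
          (Subgroup.mem_sup_right (Subgroup.subset_closure ⟨j, hj, rfl⟩))
        simpa using this
    refine sup_le (le_sup_of_le_left ((Rad_le_U J).trans U_le_Bor)) fun g hg => ?_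
    obtain ⟨w, hw, n, hn, a, ha, u, hu, rfl⟩ := bruhat_L hg
    exact Subgroup.mul_mem _ (Subgroup.mul_mem _ (Subgroup.mem_sup_left (U_le_Bor (UJ_le_U _ ha)))
      (hrep w hw n hn)) (Subgroup.mem_sup_left (U_le_Bor (Uw_le_U _ hu)))

theorem RGD0.rad_sup_L (Γ : RGD0 Φ G) (J : Set B) :
    Γ.Rad J ⊔ Γ.L J = Γ.H ⊔ XS Γ.X fun r => Φ.Pos r ∨ Φ.InSub J r := by
  apply le_antisymm
  · exact sup_le (le_sup_of_le_right (XS_mono fun _ h => Or.inl h.1))
      (sup_le (le_sup_of_le_right (XS_mono fun _ h => Or.inr h)) le_sup_left)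
  · refine sup_le (le_sup_of_le_right le_sup_right) (XS_le.2 fun r hr => ?_)
    by_cases h : Φ.InSub J r
    · exact le_sup_of_le_right (le_sup_of_le_left (le_XS h))
    · exact le_sup_of_le_left fun _ => mem_Rad (hr.resolve_right h) h

theorem RGD.normalizer_Rad (Γ : RGD Φ G) (J : Set B) :
    Subgroup.normalizer (Γ.Rad J : Set G) = Γ.Rad J ⊔ Γ.L J := by
  refine le_antisymm ?_ (sup_le Subgroup.le_normalizer (L_le_normalizer_Rad J))
  choose ns hns using fun i => Γ.exists_rep (Φ.cs.simple i)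
  have hB : Γ.Bor ≤ Subgroup.normalizer (Γ.Rad J : Set G) :=
    sup_le (U_le_normalizer_Rad J) (Γ.H_le_normalizer _)
  rw [eq_parabolic (P := Γ.toBN ns hns) hB, ← Γ.parab_eq ns hns]
  refine sup_le_sup_left (Subgroup.closure_mono ?_) _
  rintro _ ⟨⟨i, rfl⟩, hi⟩
  refine ⟨i, ?_, rfl⟩
  by_contra hJ
  obtain ⟨x, hx, h1⟩ := RGD.exists_ne_one (Γ := Γ) (Φ.simple i)
  have h2 := (Subgroup.mem_normalizer_iff.1 hi x).1
    (mem_Rad (Φ.pos_simple i) (by rwa [Φ.inSub_simple_iff]) hx)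
  have h3 := (hns i).conj hx
  rw [Φ.act_simple_self] at h3
  have h4 := Γ.BV _ (U_le_Bor (Rad_le_U J h2)) (mem_V (Φ.not_pos_neg_simple i) h3)
  exact h1 (by simpa [mul_inv_eq_one] using h4)

theorem RGD.Bor_inf_VH (Γ : RGD Φ G) : Γ.Bor ⊓ (Γ.V ⊔ Γ.H) = Γ.H := by
  refine le_antisymm ?_ (le_inf H_le_Bor le_sup_right)
  rintro g ⟨h1, h2⟩
  rw [sup_comm] at h2
  obtain ⟨v, hv, k, hk, rfl⟩ := mem_sup_of_le_normalizer' (Γ.H_le_normalizer _) h2
  have := Γ.BV v (by simpa using Γ.Bor.mul_mem h1 (Γ.Bor.inv_mem (H_le_Bor hk))) hv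
  simpa [this] using hk

theorem RGD.conj_H (Γ : RGD Φ G) {a b g : G} (ha : a ∈ Γ.H) (hb : b ∈ Γ.H) (e : g * a * g⁻¹ = b) :
    ∃ n ∈ Γ.N, n * a * n⁻¹ = b := by
  obtain ⟨w, n, hn, u, hu, v, hv, rfl⟩ := Γ.bruhat g
  refine ⟨n, hn.mem, ?_⟩
  have := RGD.bruhat_unique (hn.mul_H ha) (hn.H_mul hb) hu (H_conj_XS hb hu)
    (H_conj_XS (Γ.H.inv_mem ha) hv) hv (by rw [← e]; group)
  rw [this.2.2.1, mul_inv_cancel_right]

theorem RGD.conj_le_V_iff (Γ : RGD Φ G) {n : G} {w : W} (hn : Γ.Rep n w) (r : R) :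
    (∀ x ∈ Γ.X r, n * x * n⁻¹ ∈ Γ.V) ↔ ¬ Φ.Pos (Φ.act w r) := by
  refine ⟨fun h hp => ?_, fun h x hx => mem_V h (hn.conj hx)⟩
  obtain ⟨x, hx, h1⟩ := RGD.exists_ne_one (Γ := Γ) r
  exact h1 (by simpa [mul_inv_eq_one] using Γ.BV _ (U_le_Bor (mem_U hp (hn.conj hx))) (h x hx))

theorem RGD.irreducible (Γ : RGD Φ G) (ns : B → G) (hns : ∀ i, Γ.Rep (ns i) (Φ.cs.simple i))
    (hirr : ∀ J : Set B, J.Nonempty → Jᶜ.Nonempty → ∃ i ∈ J, ∃ j ∉ J,
      Φ.cs.simple i * Φ.cs.simple j ≠ Φ.cs.simple j * Φ.cs.simple i) :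
    (Γ.toBN ns hns).Irreducible := by
  rintro J hJ ⟨s, hs⟩ ⟨s', ⟨o', rfl⟩, hs'⟩
  obtain ⟨o, rfl⟩ := hJ hs
  obtain ⟨a, ha, b, hb, hab⟩ := hirr {o | ns o ∈ J} ⟨o, hs⟩ ⟨o', hs'⟩
  refine ⟨_, ha, _, ⟨⟨b, rfl⟩, hb⟩, fun h => hab ?_⟩
  have := RGD.eq_one_of_rep_mem_Bor ((((hns a).mul (hns b)).mul (hns a).inv).mul (hns b).inv) h
  calc Φ.cs.simple a * Φ.cs.simple b = (Φ.cs.simple a * Φ.cs.simple b * (Φ.cs.simple a)⁻¹ *
      (Φ.cs.simple b)⁻¹) * (Φ.cs.simple b * Φ.cs.simple a) := by group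
    _ = _ := by rw [this, one_mul]

theorem RGD0.eq_top_of_simple (Γ : RGD0 Φ G) (hgen : XS Γ.X (fun _ => True) = ⊤) {K : Subgroup G}
    [hK : K.Normal] (h : ∀ i, Γ.X (Φ.simple i) ≤ K) : K = ⊤ := by
  rw [eq_top_iff, ← hgen, XS_le]
  intro r _ x hx
  obtain ⟨v, i, rfl⟩ := Φ.exists_simple r
  obtain ⟨n, hn⟩ := Γ.exists_rep v
  have h1 := hn.conj' hx
  rw [Φ.act_inv_act] at h1
  simpa [mul_assoc] using hK.conj_mem _ (h i h1) n

theorem not_isMulCommutative {G : Type*} [Group G] [Nontrivial G] (h : commutator G = ⊤) :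
    ¬ IsMulCommutative G := fun _ => by
  rw [commutator_eq_bot] at h
  exact bot_ne_top h

theorem map_le_normalizer {G G' : Type*} [Group G] [Group G'] (f : G →* G') {A B : Subgroup G}
    (h : A ≤ Subgroup.normalizer (B : Set G)) :
    A.map f ≤ Subgroup.normalizer (B.map f : Set G') :=
  (Subgroup.map_mono h).trans (Subgroup.le_normalizer_map f)

theorem subgroupOf_map {G : Type*} [Group G] {K : Subgroup G} (A : Subgroup K) :
    (A.map K.subtype).subgroupOf K = A :=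
  Subgroup.comap_map_eq_self_of_injective K.subtype_injective A

end CA.BN

namespace CA.CG

open Cfsg.Lie Cfsg.Lie.ChevalleyDatum CA.Chev CA.Weyl CA.BN Matrix

variable {D : ChevalleyDatum} [hD : IsRoot D] {F : Type*} [Field F] [hM : MatFacts D F]

theorem mat_oprod (l : List (Rt D)) (t : ℕ → F) :
    mat (oprod xg l fun r => t r) = D.wordMat F ((l.map Fin.val).map fun r => (r, t r)) := by
  rw [← mat_wordG]
  congr 1
  induction l with
  | nil => rfl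
  | cons r l ih => simp [ih]

variable [hE : IsEta D]

local notation "ι" => Subgroup.subtype (D.group F)
local notation "ι_inj" => Subgroup.subtype_injective (D.group F)
local notation "h₀" => cartanCox_coxM D

variable (D F)

theorem s1026 : (∀ g : GL D.Idx F, g ∈ D.posUnipotent F →
      ∃! t : ℕ → F, (∀ r, ¬ D.IsPosRoot r → t r = 0) ∧
        (g : Matrix D.Idx D.Idx F) = D.wordMat F (D.posRoots.map fun r => (r, t r))) ∧
    (∀ t : ℕ → F, ∃ g : GL D.Idx F, g ∈ D.posUnipotent F ∧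
      (g : Matrix D.Idx D.Idx F) = D.wordMat F (D.posRoots.map fun r => (r, t r))) := by
  simp only [← posL_map, ← mat_oprod, ← map_U h₀]
  constructor
  · rintro _ ⟨g, hg, rfl⟩
    obtain ⟨t, rfl⟩ := exists_oprod_pos stRel_xg (fun r hr => (rs_pos _ r).1 hr) hg
    refine ⟨fun r => if hr : D.IsPosRoot r then t ⟨r, hr.1⟩ else 0, ⟨fun r hr => dif_neg hr, ?_⟩, ?_⟩
    · exact congrArg mat (oprod_congr fun r hr => by
        simp only [dif_pos (show D.IsPosRoot r from mem_posL.1 hr)])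
    · rintro t' ⟨h1, h2⟩
      funext r
      by_cases hr : D.IsPosRoot r
      · rw [dif_pos hr]
        exact (oprod_inj _ posL_pairwise (fun r hr => (posL_pos r hr).le) (mat_inj h2) ⟨r, hr.1⟩
          (mem_posL.2 hr)).symm
      · rw [dif_neg hr, h1 r hr]
  · exact fun t => ⟨_, ⟨_, oprod_mem (fun r hr => (rs_pos _ r).2 (mem_posL.1 hr)) _, rfl⟩, rfl⟩

variable {D F} in
theorem card_X (r : Rt D) : Nat.card (rtX (xg (F := F)) r) = Nat.card F :=
  (Nat.card_eq_of_bijective (fun t => (⟨xg r t, x_mem_rtX r t⟩ : rtX xg r))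
    ⟨fun _ _ e => xg_injective r (congrArg Subtype.val e), fun g => by
      obtain ⟨t, e⟩ := mem_rtX.1 g.2
      exact ⟨t, Subtype.ext e⟩⟩).symm

theorem s1027 [Fintype F] : Nat.card (D.posUnipotent F) = Fintype.card F ^ (D.nroots / 2) := by
  rw [← map_U h₀, Subgroup.card_map_of_injective ι_inj, (gam F h₀).card_U fun i => card_X _,
    card_pos, Nat.card_eq_fintype_card]

theorem s1029 : Group.IsNilpotent (D.posUnipotent F) := by
  rw [← map_U h₀]
  haveI := isNilpotent_U (F := F) h₀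
  exact Group.nilpotent_of_mulEquiv (Subgroup.equivMapOfInjective _ _ ι_inj)

theorem s1034 (g : GL D.Idx F) (hg : g ∈ D.diagonalSubgroup F) :
    ∃ c : ℕ → F, (∀ i < D.rank, c i ≠ 0) ∧ (g : Matrix D.Idx D.Idx F) =
      D.wordMat F ((List.range D.rank).flatMap fun i => D.hWord (D.simple i) (c i)) := by
  rw [← map_H h₀, gam_H] at hg
  obtain ⟨_, ⟨c, rfl⟩, rfl⟩ := hg
  refine ⟨fun i => if hi : i < D.rank then c ⟨i, hi⟩ else 0, fun i hi => by simp [hi], ?_⟩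
  rw [← mat_wordG, ← List.map_coe_finRange_eq_range, List.flatMap_map]
  conv_lhs => rw [← Finset.univ_prod_mulSingle c, Fin.prod_univ_def]
  refine congrArg mat ?_
  induction List.finRange D.rank with
  | nil => simp
  | cons i l ih =>
    rw [List.map_cons, List.prod_cons, map_mul, ih, List.flatMap_cons, wordG_append, tor_single,
      ← wordG_hWord]
    simp

theorem s1036 : D.diagonalSubgroup F ≤ Subgroup.normalizer (D.posUnipotent F : Set (GL D.Idx F)) ∧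
    D.posUnipotent F ⊓ D.diagonalSubgroup F = ⊥ := by
  rw [← map_U h₀, ← map_H h₀, ← Subgroup.map_inf _ _ _ ι_inj]
  refine ⟨map_le_normalizer _ ((gam F h₀).H_le_normalizer _), ?_⟩
  rw [show (gam F h₀).U ⊓ (gam F h₀).H = ⊥ from eq_bot_iff.2 fun _ hg => RGD.eq_one_of_U_H hg.1 hg.2,
    Subgroup.map_bot]

theorem s1037 : D.borelSubgroup F ⊓ D.negUnipotent F = ⊥ ∧
    D.borelSubgroup F ⊓ (D.negUnipotent F ⊔ D.diagonalSubgroup F) = D.diagonalSubgroup F := by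
  rw [← map_Bor h₀, ← map_V h₀, ← map_H h₀, ← Subgroup.map_sup, ← Subgroup.map_inf _ _ _ ι_inj,
    ← Subgroup.map_inf _ _ _ ι_inj, RGD.Bor_inf_VH,
    show (gam F h₀).Bor ⊓ (gam F h₀).V = ⊥ from eq_bot_iff.2 fun g hg => (gam F h₀).BV g hg.1 hg.2,
    Subgroup.map_bot]
  exact ⟨rfl, rfl⟩

theorem s1038 : ((D.diagonalSubgroup F).subgroupOf (D.monomialSubgroup F)).Normal := by
  rw [Subgroup.normal_subgroupOf_iff_le_normalizer (K := D.monomialSubgroup F) le_sup_left,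
    ← map_H h₀, ← map_N h₀]
  exact map_le_normalizer _ (gam F h₀).N_le_normalizer_H

theorem s1039 {M : CoxeterMatrix (Nd D)} (h : CartanCox (cartA D) M) :
    ∃ φ : ↥(D.monomialSubgroup F) →* M.Group, Function.Surjective φ ∧
      φ.ker = (D.diagonalSubgroup F).subgroupOf (D.monomialSubgroup F) ∧
      ∀ (i : Nd D) (g : ↥(D.monomialSubgroup F)),
        ((g : GL D.Idx F) : Matrix D.Idx D.Idx F) = D.nMat F (D.simple i) 1 → φ g = M.simple i := by
  rw [← map_H h, ← map_N h]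
  let e := Subgroup.equivMapOfInjective (gam F h).N _ ι_inj
  have he : ∀ n, ((e n : GL D.Idx F)) = (n : D.group F) := fun _ => rfl
  refine ⟨(rs h).cs.mulEquiv.toMonoidHom.comp ((gam F h).π.comp e.symm.toMonoidHom),
    (rs h).cs.mulEquiv.surjective.comp ((gam F h).surj.comp e.symm.surjective), ?_, ?_⟩
  · ext g
    obtain ⟨n, rfl⟩ := e.surjective g
    change (rs h).cs.mulEquiv ((gam F h).π (e.symm (e n))) = 1 ↔ _
    rw [MulEquiv.symm_apply_apply, EmbeddingLike.map_eq_one_iff, (gam F h).ker]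
    exact (Subgroup.mem_map_iff_mem ι_inj).symm
  · intro i g hg
    obtain ⟨n, rfl⟩ := e.surjective g
    have h1 : (n : D.group F) = nG xg (Chev.simple i) 1 := mat_inj (by rw [mat_nG]; exact hg)
    have h2 : (gam F h).π n = (rs h).cs.simple i :=
      RGD0.Rep.unique ⟨n.2, rfl⟩ (h1 ▸ rep_nG h i one_ne_zero)
    change (rs h).cs.mulEquiv ((gam F h).π (e.symm (e n))) = _
    rw [MulEquiv.symm_apply_apply, h2]
    exact (rs h).cs.mulEquiv.apply_symm_apply _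

theorem s1040 : D.posUnipotent F ⊓ D.monomialSubgroup F = ⊥ ∧
    D.borelSubgroup F ⊓ D.monomialSubgroup F = D.diagonalSubgroup F := by
  rw [← map_Bor h₀, ← map_U h₀, ← map_H h₀, ← map_N h₀, ← Subgroup.map_inf _ _ _ ι_inj,
    ← Subgroup.map_inf _ _ _ ι_inj, RGD.Bor_inf_N,
    show (gam F h₀).U ⊓ (gam F h₀).N = ⊥ from eq_bot_iff.2 fun g hg =>
      RGD.eq_one_of_U_H hg.1 (RGD.mem_H_of_mem_Bor hg.2 (RGD0.U_le_Bor hg.1)), Subgroup.map_bot]
  exact ⟨rfl, rfl⟩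

theorem s1041 : D.posUnipotent F ⊔ D.negUnipotent F = D.group F := by
  rw [← map_U h₀, ← map_V h₀, ← Subgroup.map_sup, RGD0.U_sup_V, gam_X, gen_xg, map_top']

variable {D} in
/-- The (B, N)-pair of the Chevalley group. -/
noncomputable def bn {M : CoxeterMatrix (Nd D)} (h : CartanCox (cartA D) M) : Cfsg.BNPair (D.group F) :=
  (gam F h).toBN (fun i => nG xg (Chev.simple i) 1) fun i => rep_nG h i one_ne_zero

theorem s1042 : ∃ P : Cfsg.BNPair ↥(D.group F),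
    P.B = (D.borelSubgroup F).subgroupOf (D.group F) ∧
      P.N = (D.monomialSubgroup F).subgroupOf (D.group F) ∧
      P.S = {n : ↥(D.group F) | ∃ i < D.rank,
        ((n : GL D.Idx F) : Matrix D.Idx D.Idx F) = D.nMat F (D.simple i) 1} := by
  rw [← map_Bor h₀, ← map_N h₀, subgroupOf_map, subgroupOf_map]
  refine ⟨bn F h₀, rfl, rfl, ?_⟩
  ext n
  exact ⟨by rintro ⟨i, rfl⟩; exact ⟨i, i.2, mat_nG _ _⟩,
    fun ⟨i, hi, e⟩ => ⟨⟨i, hi⟩, mat_inj ((mat_nG _ _).trans e.symm)⟩⟩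

theorem s1043 : D.borelSubgroup F ≤ D.group F ∧ D.monomialSubgroup F ≤ D.group F ∧
    D.borelSubgroup F ⊔ D.monomialSubgroup F = D.group F := by
  rw [← map_Bor h₀, ← map_N h₀, ← Subgroup.map_sup]
  refine ⟨Subgroup.map_subtype_le _, Subgroup.map_subtype_le _, ?_⟩
  rw [show (gam F h₀).Bor ⊔ (gam F h₀).N = ⊤ from (bn F h₀).sup_eq_top, map_top']

theorem s1044 (i : ℕ) (hi : i < D.rank) (n : GL D.Idx F)
    (hn : (n : Matrix D.Idx D.Idx F) = D.nMat F (D.simple i) 1) :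
    ∃ P : Subgroup (GL D.Idx F), (P : Set (GL D.Idx F)) = (D.borelSubgroup F : Set (GL D.Idx F)) ∪
      DoubleCoset.doubleCoset n (D.borelSubgroup F : Set (GL D.Idx F)) (D.borelSubgroup F) := by
  obtain rfl : n = (nG xg (Chev.simple ⟨i, hi⟩) 1 : D.group F) :=
    Units.ext (hn.trans (mat_nG (Chev.simple ⟨i, hi⟩) 1).symm)
  refine ⟨((bn F h₀).parabolic {nG xg (Chev.simple ⟨i, hi⟩) 1}).map ι, ?_⟩
  rw [← map_Bor h₀]
  ext g
  simp only [SetLike.mem_coe, Subgroup.mem_map, parabolic_single (P := bn F h₀) ⟨⟨i, hi⟩, rfl⟩,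
    Set.mem_union, DoubleCoset.mem_doubleCoset]
  constructor
  · rintro ⟨g, h | ⟨a, ha, b, hb, rfl⟩, rfl⟩
    · exact Or.inl ⟨g, h, rfl⟩
    · exact Or.inr ⟨_, ⟨a, ha, rfl⟩, _, ⟨b, hb, rfl⟩, rfl⟩
  · rintro (⟨g, h, rfl⟩ | ⟨_, ⟨a, ha, rfl⟩, _, ⟨b, hb, rfl⟩, rfl⟩)
    · exact ⟨g, Or.inl h, rfl⟩
    · exact ⟨_, Or.inr ⟨a, ha, b, hb, rfl⟩, rfl⟩

theorem s1045 (i : ℕ) (hi : i < D.rank) :
    D.rootSubgroup F (D.simple i) ⊔ D.rootSubgroup F (D.neg (D.simple i)) ≤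
        Subgroup.normalizer (Subgroup.closure {g : GL D.Idx F | ∃ (s : ℕ) (t : F), D.IsPosRoot s ∧
          s ≠ D.simple i ∧ (g : Matrix D.Idx D.Idx F) = D.x F s t} : Set (GL D.Idx F)) ∧
      Subgroup.closure {g : GL D.Idx F | ∃ (s : ℕ) (t : F), D.IsPosRoot s ∧ s ≠ D.simple i ∧
          (g : Matrix D.Idx D.Idx F) = D.x F s t} ⊔ D.rootSubgroup F (D.simple i) = D.posUnipotent F := by
  have e : ((gam F h₀).Rad {⟨i, hi⟩}).map ι = Subgroup.closure {g : GL D.Idx F | ∃ (s : ℕ) (t : F),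
      D.IsPosRoot s ∧ s ≠ D.simple i ∧ (g : Matrix D.Idx D.Idx F) = D.x F s t} := by
    rw [RGD0.rad_single]
    simp only [← and_assoc]
    exact map_XS (fun r => by rw [rs_pos, Ne, Fin.ext_iff]; rfl) fun _ hr => hr.1.1
  have e1 := map_X (F := F) h₀ (Chev.simple ⟨i, hi⟩)
  have e2 := map_X (F := F) h₀ (Chev.neg (Chev.simple ⟨i, hi⟩))
  simp only [neg_val, simple_val] at e1 e2
  rw [← e, ← e1, ← e2, ← Subgroup.map_sup, ← Subgroup.map_sup, ← map_U h₀]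
  have h1 : (rs h₀).InSub {⟨i, hi⟩} (Chev.simple ⟨i, hi⟩) := (rs h₀).inSub_simple_iff.2 rfl
  refine ⟨map_le_normalizer _ (le_trans (sup_le ?_ ?_) (RGD0.L_le_normalizer_Rad _)), ?_⟩
  · exact le_sup_of_le_left (le_XS h1)
  · exact le_sup_of_le_left (le_XS ((rs h₀).inSub_neg_iff.2 h1))
  · congr 1
    refine le_antisymm (sup_le (RGD0.Rad_le_U _) fun _ => RGD0.mem_U ((rs h₀).pos_simple _)) ?_
    intro u hu
    obtain ⟨a, ha, b, hb, rfl⟩ := RGD0.split_U {⟨i, hi⟩} hu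
    rw [RGD.UJ_single] at hb
    exact Subgroup.mul_mem _ (Subgroup.mem_sup_left ha) (Subgroup.mem_sup_right hb)

theorem s1046 (h₁ h₂ g : GL D.Idx F) (h1 : h₁ ∈ D.diagonalSubgroup F) (h2 : h₂ ∈ D.diagonalSubgroup F)
    (hg : g ∈ D.group F) (hc : g * h₁ * g⁻¹ = h₂) :
    ∃ n ∈ D.monomialSubgroup F, n * h₁ * n⁻¹ = h₂ := by
  rw [← map_H h₀] at h1 h2
  obtain ⟨a, ha, rfl⟩ := h1
  obtain ⟨b, hb, rfl⟩ := h2
  obtain ⟨n, hn, e⟩ := (gam F h₀).conj_H ha hb (g := ⟨g, hg⟩) (Subtype.ext hc)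
  exact ⟨n, map_N (F := F) h₀ ▸ ⟨n, hn, rfl⟩, congrArg Subtype.val e⟩

variable {D F} in
theorem map_P (J : Set ℕ) : ((gam F h₀).Rad {i | (i : ℕ) ∈ J} ⊔ (gam F h₀).L {i | (i : ℕ) ∈ J}).map ι =
    D.parabolicSubgroup F J := by
  rw [← (gam F h₀).parab_eq _ fun i => rep_nG h₀ i one_ne_zero, Subgroup.map_sup, map_Bor,
    MonoidHom.map_closure, parabolicSubgroup]
  congr 2
  ext g
  exact ⟨by rintro ⟨_, ⟨i, hi, rfl⟩, rfl⟩; exact ⟨i, hi, i.2, mat_nG _ _⟩,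
    fun ⟨i, hi, hi', e⟩ => ⟨_, ⟨⟨i, hi'⟩, hi, rfl⟩, Units.ext ((mat_nG _ _).trans e.symm)⟩⟩

theorem s1047 (J : Set ℕ) : D.parabolicSubgroup F J = D.diagonalSubgroup F ⊔
    Subgroup.closure {g : GL D.Idx F | ∃ (r : ℕ) (t : F), (D.IsPosRoot r ∨ D.InRootSub J r) ∧
      (g : Matrix D.Idx D.Idx F) = D.x F r t} := by
  rw [← map_P, RGD0.rad_sup_L, Subgroup.map_sup, map_H]
  congr 1
  exact map_XS (fun r => by rw [rs_pos, rs_inSub]; rfl) fun _ hr => hr.elim (·.1) (·.1)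

theorem s1048 (J : Set ℕ) :
    D.parabolicSubgroup F J ≤ Subgroup.normalizer (D.unipotentRadical F J : Set (GL D.Idx F)) ∧
      D.unipotentRadical F J ⊔ D.leviSubgroup F J = D.parabolicSubgroup F J ∧
      D.unipotentRadical F J ⊓ D.leviSubgroup F J = ⊥ := by
  rw [← map_P, ← map_Rad h₀, ← map_L h₀, ← Subgroup.map_sup, ← Subgroup.map_inf _ _ _ ι_inj,
    show (gam F h₀).Rad _ ⊓ (gam F h₀).L _ = ⊥ from eq_bot_iff.2 fun g hg => RGD.Rad_inf_L hg.1 hg.2,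
    Subgroup.map_bot]
  exact ⟨map_le_normalizer _ ((gam F h₀).normalizer_Rad _).ge, rfl, rfl⟩

theorem s1049 (J : Set ℕ) :
    Subgroup.normalizer (D.unipotentRadical F J : Set (GL D.Idx F)) ⊓ D.group F =
      D.parabolicSubgroup F J := by
  rw [← map_P, ← map_Rad h₀, ← Subgroup.subgroupOf_map_subtype,
    Subgroup.subgroupOf_normalizer_eq (Subgroup.map_subtype_le _), subgroupOf_map,
    RGD.normalizer_Rad]

theorem s1050 : Group.IsSolvable ↥(D.borelSubgroup F) := by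
  rw [← map_Bor h₀]
  haveI := isSolvable_Bor (F := F) h₀
  exact Group.isSolvable_of_surjective
    (f := (Subgroup.equivMapOfInjective (gam F h₀).Bor _ ι_inj).toMonoidHom)
    (Subgroup.equivMapOfInjective _ _ ι_inj).surjective

theorem s1051 : ((D.borelSubgroup F).subgroupOf (D.group F)).normalCore = ⊥ := by
  rw [← map_Bor h₀, subgroupOf_map, normalCore_Bor]

theorem s1053 : ∃ n ∈ D.monomialSubgroup F,
    (D.posUnipotent F).map (MulAut.conj n).toMonoidHom = D.negUnipotent F := by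
  obtain ⟨w, hw, hw'⟩ := (rs h₀).exists_w0
  obtain ⟨n, hn⟩ := (gam F h₀).exists_rep w
  refine ⟨n, map_N (F := F) h₀ ▸ ⟨n, hn.mem, rfl⟩, ?_⟩
  rw [← map_U h₀, ← map_V h₀]
  apply le_antisymm
  · rintro _ ⟨_, ⟨u, hu, rfl⟩, rfl⟩
    exact ⟨_, hn.conj_XS hw' hu, rfl⟩
  · rintro _ ⟨v, hv, rfl⟩
    refine ⟨_, ⟨_, hn.conj_XS' (fun r hr => ?_) hv, rfl⟩, by simp [mul_assoc]⟩
    by_contra hc
    have := hw' _ (((rs h₀).pos_neg_iff _).2 hc)
    rw [RS.act_neg, RS.act_act_inv, RS.not_pos_neg_iff] at this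
    exact hr this

variable {D F} in
theorem map_Uw {n : D.group F} {w : W D} (hn : (gam F h₀).Rep n w) : ((gam F h₀).Uw w).map ι =
    Subgroup.closure {x : GL D.Idx F | ∃ (r : ℕ) (t : F), D.IsPosRoot r ∧
      (D.rootSubgroup F r).map (MulAut.conj (n : GL D.Idx F)).toMonoidHom ≤ D.negUnipotent F ∧
        (x : Matrix D.Idx D.Idx F) = D.x F r t} := by
  simp only [← and_assoc]
  refine map_XS (fun r => and_congr (rs_pos _ r) ?_) fun _ hr => hr.1.1
  rw [← (gam F h₀).conj_le_V_iff hn, ← map_X h₀, ← map_V h₀]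
  constructor
  · rintro h _ ⟨_, ⟨x, hx, rfl⟩, rfl⟩
    exact ⟨_, h x hx, rfl⟩
  · intro h x hx
    exact (Subgroup.mem_map_iff_mem ι_inj).1 (h ⟨_, ⟨x, hx, rfl⟩, rfl⟩)

theorem s1100 : (∀ g ∈ D.group F, ∃ b ∈ D.borelSubgroup F, ∃ n ∈ D.monomialSubgroup F,
      ∃ u ∈ Subgroup.closure {x : GL D.Idx F | ∃ (r : ℕ) (t : F), D.IsPosRoot r ∧
            (D.rootSubgroup F r).map (MulAut.conj n).toMonoidHom ≤ D.negUnipotent F ∧ (x : Matrix D.Idx D.Idx F) = D.x F r t},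
        g = b * n * u) ∧
    (∀ (b b' n n' u u' : GL D.Idx F), b ∈ D.borelSubgroup F → b' ∈ D.borelSubgroup F →
      n ∈ D.monomialSubgroup F → n' ∈ D.monomialSubgroup F →
      u ∈ Subgroup.closure {x : GL D.Idx F | ∃ (r : ℕ) (t : F), D.IsPosRoot r ∧
            (D.rootSubgroup F r).map (MulAut.conj n).toMonoidHom ≤ D.negUnipotent F ∧ (x : Matrix D.Idx D.Idx F) = D.x F r t} →
      u' ∈ Subgroup.closure {x : GL D.Idx F | ∃ (r : ℕ) (t : F), D.IsPosRoot r ∧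
            (D.rootSubgroup F r).map (MulAut.conj n').toMonoidHom ≤ D.negUnipotent F ∧ (x : Matrix D.Idx D.Idx F) = D.x F r t} →
      b * n * u = b' * n' * u' → n⁻¹ * n' ∈ D.diagonalSubgroup F ∧ (n = n' → b = b' ∧ u = u')) := by
  rw [← map_Bor h₀, ← map_N h₀, ← map_H h₀]
  constructor
  · intro g hg
    obtain ⟨w, n, hn, a, ha, u, hu, e⟩ := (gam F h₀).bruhat ⟨g, hg⟩
    exact ⟨a, ⟨a, RGD0.U_le_Bor ha, rfl⟩, n, ⟨n, hn.mem, rfl⟩, u, map_Uw hn ▸ ⟨u, hu, rfl⟩,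
      congrArg Subtype.val e⟩
  · rintro _ _ _ _ u u' ⟨b, hb, rfl⟩ ⟨b', hb', rfl⟩ ⟨n, hn, rfl⟩ ⟨n', hn', rfl⟩ hu hu' e
    obtain ⟨w, hw⟩ := RGD0.exists_rep_of_mem hn
    obtain ⟨w', hw'⟩ := RGD0.exists_rep_of_mem hn'
    replace hu := (map_Uw hw).ge hu
    replace hu' := (map_Uw hw').ge hu'
    obtain ⟨u, hu, rfl⟩ := hu
    obtain ⟨u', hu', rfl⟩ := hu'
    obtain ⟨a, ha, k, hk, rfl⟩ := RGD0.mem_Bor.1 hb
    obtain ⟨a', ha', k', hk', rfl⟩ := RGD0.mem_Bor.1 hb'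
    obtain ⟨rfl, rfl, h3, rfl⟩ := RGD.bruhat_unique (hw.H_mul hk) (hw'.H_mul hk') ha ha' hu hu'
      (Subtype.ext (by simpa [mul_assoc] using e))
    refine ⟨⟨_, hw.inv_mul_mem hw', rfl⟩, fun e' => ?_⟩
    obtain rfl : n = n' := Subtype.ext e'
    rw [mul_right_cancel h3]
    exact ⟨rfl, rfl⟩

instance nontrivial_group : Nontrivial (D.group F) :=
  ⟨xg (Chev.simple ⟨0, by have := hD.rank_two_le; omega⟩) 1, xg _ 0, fun e =>
    one_ne_zero (xg_injective _ e)⟩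

theorem simple_of_perfect (h : commutator (D.group F) = ⊤) :
    IsSimpleGroup (D.group F) ∧ ¬ IsMulCommutative (D.group F) :=
  ⟨isSimpleGroup (P := bn F h₀) ((gam F h₀).irreducible _ _ (irreducible h₀)) (isSolvable_Bor h₀) h
    (normalCore_Bor h₀), not_isMulCommutative h⟩

end CA.CG
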