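import Cfsg.Agent.Lib.CG.RS
import Cfsg.Agent.Lib.Chev.Mat
import Cfsg.Agent.Lib.BN.ChevSys

/-! The Chevalley group of a datum as a Chevalley system; root group data; the standard subgroups. -/

set_option autoImplicit false
set_option linter.unusedSectionVars false
set_option maxHeartbeats 400000

namespace CA.CG

open Cfsg.Lie Cfsg.Lie.ChevalleyDatum CA.Chev CA.Weyl CA.BN Matrix

variable {D : ChevalleyDatum} [hD : IsRoot D] {F : Type*} [Field F]

section Fam

variable {G : Type*} [Group G] {x : Rt D → F → G}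

theorem stFam_of_map {G' : Type*} [Group G'] (f : G →* G') (hf : Function.Injective f)
    (hx : StFam fun r t => f (x r t)) : StFam x where
  add r t u := hf (by rw [map_mul, hx.add])
  comm r s h1 h2 t u := hf (by rw [map_mul, map_mul, map_mul, map_wordG, hx.comm r s h1 h2])
  nconj r s t u ht := hf (by rw [map_mul, map_mul, map_inv, map_nG, hx.nconj r s t u ht])
  hmul r t u ht hu := hf (by rw [map_mul, map_hG, map_hG, map_hG, hx.hmul r t u ht hu])

theorem x_mem_rtX (r : Rt D) (t : F) : x r t ∈ rtX x r := Subgroup.subset_closure ⟨t, rfl⟩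

theorem comm_mem (hx : StRel x) {K : Subgroup G} {r s : Rt D} (h1 : s ≠ r) (h2 : s ≠ Chev.neg r)
    (hK : ∀ (k : Rt D) (i j : ℕ), 0 < i → 0 < j → wt k = (i : ℤ) • wt r + (j : ℤ) • wt s →
      ∀ t, x k t ∈ K) (t u : F) : x r t * x s u * (x r t)⁻¹ * (x s u)⁻¹ ∈ K := by
  have e := hx.comm r s h1 h2 (-t) (-u)
  rw [hx.neg_arg, hx.neg_arg] at e
  have : x r t * x s u * (x r t)⁻¹ * (x s u)⁻¹ = (wordG x (D.commWord F r s (-t) (-u)))⁻¹ := by
    rw [eq_inv_iff_mul_eq_one, mul_assoc, mul_assoc, ← mul_assoc (x r t)⁻¹, ← e]; group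
  rw [this]
  exact K.inv_mem (StRel.commWord_mem hK _ _)

variable [hE : IsEta D] {M : CoxeterMatrix (Nd D)} (h : CartanCox (cartA D) M)

/-- A family satisfying Steinberg's relations is a Chevalley system. -/
def chevSys (hx : StFam x) (hgen : XS (rtX x) (fun _ => True) = ⊤)
    (hnd : ∀ i r t, ¬ Pos r → x (Chev.simple i) 1 ≠ x r t) : ChevSys (rs h) F G where
  x := x
  add := hx.add
  comm := fun r s h1 h2 t u => comm_mem hx.toStRel h1 h2 (fun k i j hi hj e t =>
    le_XS (cone_of_wt_eq h (by exact_mod_cast hi) (by exact_mod_cast hj) e) (x_mem_rtX k t)) t u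
  nconj := fun i s => ⟨eta (Chev.simple i) s, eta_mul_self' _ _, fun t => by
    have := hx.nconj (Chev.simple i) s 1 t one_ne_zero
    rw [_root_.one_zpow, mul_one, refl_simple] at this
    rw [rs_act_simple]; exact this, fun t => by
    have := hx.nconj (Chev.simple i) (Chev.neg s) 1 t one_ne_zero
    rw [_root_.one_zpow, mul_one, refl_simple, hE.eta_neg] at this
    rw [rs_act_simple]; exact this⟩
  hconj := fun i c hc s => ⟨c ^ pr (Chev.simple i) s, fun t => hx.hconj _ s hc t⟩
  gen := hgen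
  nondeg := fun i r t hr => hnd i r t (by simpa using hr)

variable [hM : MatFacts D F]

theorem nondeg_of_hom (θ : G →* GL D.Idx F) (hθ : ∀ r t, θ (x r t) = X r t) (i : Nd D) (r : Rt D)
    (t : F) (hr : ¬ Pos r) : x (Chev.simple i) 1 ≠ x r t := by
  intro e
  have e1 := congrArg (fun g => ((θ g : GL D.Idx F) : Matrix D.Idx D.Idx F) (Sum.inl i)
    (Sum.inr (Chev.neg (Chev.simple i)))) e
  have hne : Chev.simple i ≠ r := by rintro rfl; exact hr (pos_simple i)
  simp only [hθ, X_val, x_inl_inr] at e1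
  simp [cor_simple, hne] at e1

end Fam

/-! ### Triangularity -/

/-- The entries of `A` raise the degree by at least `m`. -/
def Up (φ : Lat D) (m : ℤ) (A : Matrix D.Idx D.Idx F) : Prop :=
  ∀ a b, A a b ≠ 0 → φ ⬝ᵥ wI b + m ≤ φ ⬝ᵥ wI a

omit hD in
theorem Up.add {φ : Lat D} {m : ℤ} {A B : Matrix D.Idx D.Idx F} (hA : Up φ m A) (hB : Up φ m B) :
    Up φ m (A + B) := fun a b h => by
  by_cases h1 : A a b = 0
  · exact hB a b (by simpa [h1] using h)
  · exact hA a b h1

omit hD in
theorem Up.mul {φ : Lat D} {m n : ℤ} {A B : Matrix D.Idx D.Idx F} (hA : Up φ m A) (hB : Up φ n B) :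
    Up φ (m + n) (A * B) := fun a b h => by
  rw [Matrix.mul_apply] at h
  obtain ⟨c, -, hc⟩ := Finset.exists_ne_zero_of_sum_ne_zero h
  have h1 := hA a c (left_ne_zero_of_mul hc)
  have h2 := hB c b (right_ne_zero_of_mul hc)
  omega

omit hD in
theorem Up.mono {φ : Lat D} {m n : ℤ} {A : Matrix D.Idx D.Idx F} (hA : Up φ m A) (h : n ≤ m) :
    Up φ n A := fun a b hab => by have := hA a b hab; omega

theorem up_x {φ : Lat D} {m : ℤ} (hm : 0 ≤ m) {r : Rt D} (hr : m ≤ φ ⬝ᵥ wt r) (t : F) :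
    Up φ m (D.x F r t - 1) := fun a b h => by
  have hab : a ≠ b := by rintro rfl; simp [x_diag] at h
  rw [Matrix.sub_apply, Matrix.one_apply_ne hab, sub_zero] at h
  obtain ⟨k, hk, e⟩ := (x_ne_zero h).resolve_left hab
  rw [e, dotProduct_add, dotProduct_smul, smul_eq_mul]
  have : (1 : ℤ) ≤ k := by exact_mod_cast hk
  nlinarith

variable [hM : MatFacts D F]

theorem X_mem_group (r : Rt D) (t : F) : X r t ∈ D.group F :=
  Subgroup.subset_closure ⟨r, t, by rw [X_val, x_eq_xMat]⟩

/-- Root elements of the Chevalley group. -/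
def xg (r : Rt D) (t : F) : D.group F := ⟨X r t, X_mem_group r t⟩

@[simp] theorem xg_coe (r : Rt D) (t : F) : (xg r t : GL D.Idx F) = X r t := rfl

/-- The matrix of an element of the Chevalley group. -/
abbrev mat (g : D.group F) : Matrix D.Idx D.Idx F := ((g : GL D.Idx F) : Matrix D.Idx D.Idx F)

omit hD hM in
theorem mat_inj {g g' : D.group F} (e : mat g = mat g') : g = g' := Subtype.ext (Units.ext e)

theorem mat_wordG (w : List (ℕ × F)) : mat (wordG xg w) = D.wordMat F w := by
  rw [← wordG_X_val]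
  exact congrArg Units.val (map_wordG (D.group F).subtype xg w)

theorem mat_nG (r : Rt D) (t : F) : mat (nG xg r t) = D.nMat F r t := by
  rw [← wordG_nWord, mat_wordG]; rfl

theorem mat_hG (r : Rt D) (t : F) : mat (hG xg r t) = D.hMat F r t := by
  rw [← wordG_hWord, mat_wordG]; rfl

theorem map_XS {S : Rt D → Prop} {P : ℕ → Prop} (h1 : ∀ r : Rt D, S r ↔ P r)
    (h2 : ∀ r, P r → r < D.nroots) :
    (XS (rtX (xg (F := F))) S).map (D.group F).subtype =
      Subgroup.closure {g : GL D.Idx F | ∃ (r : ℕ) (t : F), P r ∧ (g : Matrix D.Idx D.Idx F) = D.x F r t} := by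
  apply le_antisymm
  · rw [Subgroup.map_le_iff_le_comap, XS_le]
    intro r hr
    refine (Subgroup.closure_le _).2 ?_
    rintro _ ⟨t, rfl⟩
    exact Subgroup.subset_closure ⟨r, t, (h1 r).1 hr, rfl⟩
  · refine (Subgroup.closure_le _).2 ?_
    rintro g ⟨r, t, hr, e⟩
    exact ⟨xg ⟨r, h2 r hr⟩ t, le_XS ((h1 _).2 hr) (x_mem_rtX _ t), (Units.ext e).symm⟩

theorem gen_xg : XS (rtX (xg (D := D) (F := F))) (fun _ => True) = ⊤ := by
  apply Subgroup.map_injective (D.group F).subtype_injective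
  rw [map_XS (P := fun r => r < D.nroots) (fun r => by simp) (fun _ h => h), ← MonoidHom.range_eq_map,
    Subgroup.range_subtype, ChevalleyDatum.group]
  congr 1
  ext g
  exact ⟨fun ⟨r, t, hr, e⟩ => ⟨⟨r, hr⟩, t, by rw [e, ← x_eq_xMat]⟩,
    fun ⟨r, t, e⟩ => ⟨r, t, r.2, by rw [e, x_eq_xMat]⟩⟩

theorem stRel_xg : StRel (xg (D := D) (F := F)) where
  add r t u := Subtype.ext (stRel_X.add r t u)
  comm r s h1 h2 t u := mat_inj (by
    simp only [mat, Subgroup.coe_mul, Units.val_mul, xg_coe, X_val]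
    rw [hM.comm r s h1 h2, ← mat_wordG])

theorem xg_injective (r : Rt D) : Function.Injective (xg r : F → D.group F) := fun _ _ h =>
  X_injective r (congrArg Subtype.val h)

theorem mem_rtX {r : Rt D} {g : D.group F} : g ∈ rtX xg r ↔ ∃ t, xg r t = g :=
  ⟨fun hg => (Subgroup.closure_le (stRel_xg.XG r)).2 (fun _ h => h) hg,
    fun ⟨t, e⟩ => e ▸ x_mem_rtX r t⟩

theorem up_XS {φ : Lat D} {m : ℤ} (hm : 0 ≤ m) {S : Rt D → Prop} (hS : ∀ r, S r → m ≤ φ ⬝ᵥ wt r)
    {g : D.group F} (hg : g ∈ XS (rtX xg) S) : Up φ m (mat g - 1) := by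
  refine XS_induction (C := fun g => Up φ m (mat g - 1)) hg ?_ ?_ ?_
  · intro r hr y hy
    obtain ⟨t, rfl⟩ := mem_rtX.1 hy
    exact up_x hm (hS r hr) t
  · intro a b hab; simp [mat] at hab
  · intro a b ha hb
    have : mat (a * b) - 1 = (mat a - 1) * (mat b - 1) + (mat a - 1) + (mat b - 1) := by
      simp only [mat, Subgroup.coe_mul, Units.val_mul]; noncomm_ring
    rw [this]
    exact (((ha.mul hb).mono (by omega)).add ha).add hb

/-- A root element is not a product of root elements of higher degree. -/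
theorem eq_zero_of_mem_XS {φ : Lat D} {r : Rt D} (hr : 0 ≤ φ ⬝ᵥ wt r) {S : Rt D → Prop}
    (hS : ∀ s, S s → φ ⬝ᵥ wt r < φ ⬝ᵥ wt s) {t : F} (ht : xg r t ∈ XS (rtX xg) S) : t = 0 := by
  obtain ⟨i, hi⟩ := exists_cor_ne_zero F r
  by_contra h0
  have := up_XS (m := φ ⬝ᵥ wt r + 1) (by omega) (fun s hs => hS s hs) ht (Sum.inl i)
    (Sum.inr (Chev.neg r)) (by simp [mat, x_inl_inr, hi, h0])
  simp at this

/-! ### The torus -/

/-- The character of the weight lattice with values `c i` on the fundamental weights. -/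
def chi (c : Nd D → Fˣ) (a : Lat D) : Fˣ := ∏ i, c i ^ a i

omit hD hM in
theorem chi_add (c : Nd D → Fˣ) (a b : Lat D) : chi c (a + b) = chi c a * chi c b := by
  simp [chi, _root_.zpow_add, Finset.prod_mul_distrib]

omit hD hM in
@[simp] theorem chi_zero (c : Nd D → Fˣ) : chi c 0 = 1 := by simp [chi]

omit hD hM in
theorem chi_neg (c : Nd D → Fˣ) (a : Lat D) : chi c (-a) = (chi c a)⁻¹ := by
  rw [eq_inv_iff_mul_eq_one, ← chi_add, neg_add_cancel, chi_zero]

omit hD hM in
theorem chi_smul (c : Nd D → Fˣ) (k : ℤ) (a : Lat D) : chi c (k • a) = chi c a ^ k := by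
  simp only [chi, Pi.smul_apply, smul_eq_mul, ← Finset.prod_zpow, ← _root_.zpow_mul, mul_comm]

omit hD hM in
theorem chi_mul (c c' : Nd D → Fˣ) (a : Lat D) : chi (c * c') a = chi c a * chi c' a := by
  simp [chi, mul_zpow, Finset.prod_mul_distrib]

omit hD hM in
@[simp] theorem chi_one (a : Lat D) : chi (1 : Nd D → Fˣ) a = 1 := by simp [chi]

omit hD hM in
theorem chi_zpow (t : Fˣ) (v a : Lat D) : chi (fun i => t ^ v i) a = t ^ (v ⬝ᵥ a) := by
  simp only [chi, dotProduct, ← _root_.zpow_mul]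
  induction (Finset.univ : Finset (Nd D)) using Finset.induction_on with
  | empty => simp
  | insert i s hi ih => rw [Finset.prod_insert hi, Finset.sum_insert hi, ih, _root_.zpow_add]

omit hM in
theorem chi_wt (c : Nd D → Fˣ) (r : Rt D) : chi c (wt r) = ∏ i, chi c (wt (Chev.simple i)) ^ rc r i := by
  rw [wt_eq_sum r]
  induction (Finset.univ : Finset (Nd D)) using Finset.induction_on with
  | empty => simp
  | insert i s hi ih => rw [Finset.prod_insert hi, Finset.sum_insert hi, chi_add, ih, chi_smul]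

variable (D F) in
/-- The diagonal matrix of a character. -/
def dg : (Nd D → Fˣ) →* GL D.Idx F where
  toFun c := ⟨diagonal fun a => (chi c (wI a) : F), diagonal fun a => ((chi c (wI a))⁻¹ : Fˣ),
    by simp [diagonal_mul_diagonal], by simp [diagonal_mul_diagonal]⟩
  map_one' := Units.ext (by simp)
  map_mul' c c' := Units.ext (by simp [diagonal_mul_diagonal, chi_mul])

omit hD hM in
theorem dg_val (c : Nd D → Fˣ) : ((dg D F c : GL D.Idx F) : Matrix D.Idx D.Idx F) =
    diagonal fun a => (chi c (wI a) : F) := rfl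

omit hM in
theorem dg_eq_one_iff (c : Nd D → Fˣ) : dg D F c = 1 ↔ ∀ i, chi c (wt (Chev.simple i)) = 1 := by
  constructor
  · intro e i
    have := congrArg (fun g : GL D.Idx F => (g : Matrix D.Idx D.Idx F) (Sum.inr (Chev.simple i))
      (Sum.inr (Chev.simple i))) e
    simpa [dg_val] using this
  · intro e
    apply Units.ext
    rw [dg_val, Units.val_one, ← diagonal_one]
    congr 1
    funext a
    rcases a with j | r
    · simp
    · simp [chi_wt c r, e]

theorem dg_conj (c : Nd D → Fˣ) (r : Rt D) (t : F) :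
    dg D F c * X r t * (dg D F c)⁻¹ = X r (chi c (wt r) * t) := by
  rw [mul_inv_eq_iff_eq_mul]
  exact Units.ext (diagonal_mul_x (fun a => (chi c a : F)) (by simp [chi_add]) (by simp) r t)

variable [hE : IsEta D]

theorem stFam_xg : StFam (xg (D := D) (F := F)) :=
  stFam_of_map (D.group F).subtype (D.group F).subtype_injective stFam_X

theorem hG_eq_dg (r : Rt D) (t : Fˣ) :
    ((hG xg r (t : F) : D.group F) : GL D.Idx F) = dg D F fun i => t ^ cor r i := by
  apply Units.ext
  rw [dg_val]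
  change mat _ = _
  rw [mat_hG, hMat_eq r t.ne_zero]
  simp [chi_zpow]

theorem dg_single (i : Nd D) (t : Fˣ) :
    dg D F (Pi.mulSingle i t) = (hG xg (Chev.simple i) (t : F) : D.group F) := by
  rw [hG_eq_dg]
  congr 1
  funext j
  by_cases hj : j = i
  · subst hj; simp [cor_simple]
  · simp [cor_simple, hj]

theorem dg_mem_group (c : Nd D → Fˣ) : dg D F c ∈ D.group F := by
  rw [← Finset.univ_prod_mulSingle c]
  induction (Finset.univ : Finset (Nd D)) using Finset.induction_on with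
  | empty => simp
  | insert i s hi ih =>
    rw [Finset.prod_insert hi, map_mul, dg_single]
    exact Subgroup.mul_mem _ (Subtype.prop _) ih

variable (D F) in
/-- The torus element `∏ h_i(c i)`. -/
def tor : (Nd D → Fˣ) →* D.group F := (dg D F).codRestrict _ dg_mem_group

@[simp] theorem tor_coe (c : Nd D → Fˣ) : (tor D F c : GL D.Idx F) = dg D F c := rfl

theorem hG_eq_tor (r : Rt D) (t : Fˣ) : hG xg r (t : F) = tor D F fun i => t ^ cor r i :=
  Subtype.ext (hG_eq_dg r t)

theorem tor_single (i : Nd D) (t : Fˣ) : tor D F (Pi.mulSingle i t) = hG xg (Chev.simple i) (t : F) :=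
  Subtype.ext (dg_single i t)

theorem tor_conj (c : Nd D → Fˣ) (r : Rt D) (t : F) :
    tor D F c * xg r t * (tor D F c)⁻¹ = xg r (chi c (wt r) * t) := Subtype.ext (dg_conj c r t)

theorem tor_eq_one_iff (c : Nd D → Fˣ) : tor D F c = 1 ↔ ∀ i, chi c (wt (Chev.simple i)) = 1 := by
  rw [← dg_eq_one_iff, Subtype.ext_iff]; rfl

theorem tor_eq_iff (c c' : Nd D → Fˣ) : tor D F c = tor D F c' ↔
    ∀ i, chi c (wt (Chev.simple i)) = chi c' (wt (Chev.simple i)) := by
  rw [← mul_inv_eq_one, ← map_inv, ← map_mul, tor_eq_one_iff]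
  refine forall_congr' fun i => ?_
  have : chi c'⁻¹ (wt (Chev.simple i)) = (chi c' (wt (Chev.simple i)))⁻¹ := by
    rw [eq_inv_iff_mul_eq_one, ← chi_mul, inv_mul_cancel, chi_one]
  rw [chi_mul, this, mul_inv_eq_one]

variable {M : CoxeterMatrix (Nd D)} (h : CartanCox (cartA D) M)

variable (F) in
/-- The Chevalley group as a Chevalley system. -/
def sys : ChevSys (rs h) F (D.group F) :=
  chevSys h stFam_xg gen_xg (nondeg_of_hom (D.group F).subtype fun _ _ => rfl)

theorem sys_H : (sys F h).H = (tor D F).range := by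
  apply le_antisymm
  · refine (Subgroup.closure_le _).2 ?_
    rintro _ ⟨r, t, ht, rfl⟩
    exact ⟨_, (hG_eq_tor r (Units.mk0 t ht)).symm⟩
  · rintro _ ⟨c, rfl⟩
    rw [← Finset.univ_prod_mulSingle c]
    induction (Finset.univ : Finset (Nd D)) using Finset.induction_on with
    | empty => simp
    | insert i s hi ih =>
      rw [Finset.prod_insert hi, map_mul, tor_single]
      exact Subgroup.mul_mem _ ((sys F h).h_mem _ (c i).ne_zero) ih

theorem sys_BV : ∀ g ∈ (sys F h).rgd0.Bor, g ∈ (sys F h).rgd0.V → g = 1 := by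
  intro g hg hv
  obtain ⟨u, hu, k, hk, rfl⟩ := RGD0.mem_Bor.1 hg
  change k ∈ (sys F h).H at hk
  rw [sys_H] at hk
  obtain ⟨c, rfl⟩ := hk
  have h1 := up_XS (φ := ordVec D) (m := 1) one_pos.le
    (fun r hr => (pos_iff_ord r).1 ((rs_pos h r).1 hr)) hu
  have h2 := up_XS (φ := -ordVec D) (m := 1) one_pos.le (fun r hr => by
    have := (not_pos_iff_ord r).1 (fun e => hr ((rs_pos h r).2 e))
    rw [neg_dotProduct]; unfold ord at this; omega) hv
  apply mat_inj
  ext a b
  by_contra hne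
  have h3 := h2 a b (by rw [Matrix.sub_apply, sub_ne_zero]; exact hne)
  have hab : a ≠ b := by rintro rfl; omega
  have h4 := h1 a b (by
    intro e
    apply hne
    rw [Matrix.sub_apply, Matrix.one_apply_ne hab, sub_zero] at e
    simp only [mat, Subgroup.coe_mul, Units.val_mul, tor_coe, dg_val, mul_diagonal] at e ⊢
    simp [e, hab])
  simp only [neg_dotProduct] at h3
  omega

variable (F) in
/-- The root group data of the Chevalley group. -/
noncomputable def gam : RGD (rs h) (D.group F) := (sys F h).rgd (sys_BV h)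

theorem gam_X : (gam F h).X = rtX xg := rfl
theorem gam_H : (gam F h).H = (tor D F).range := sys_H h

theorem rep_nG (i : Nd D) {t : F} (ht : t ≠ 0) :
    (gam F h).Rep (nG xg (Chev.simple i) t) ((rs h).cs.simple i) := (sys F h).rep_n ht

/-! ### The standard subgroups -/

theorem map_X (r : Rt D) : ((gam F h).X r).map (D.group F).subtype = D.rootSubgroup F r := by
  rw [gam_X, rtX, MonoidHom.map_closure, rootSubgroup]
  congr 1
  ext g
  exact ⟨by rintro ⟨_, ⟨t, rfl⟩, rfl⟩; exact ⟨t, rfl⟩,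
    fun ⟨t, e⟩ => ⟨_, ⟨t, rfl⟩, (Units.ext e).symm⟩⟩

theorem map_U : (gam F h).U.map (D.group F).subtype = D.posUnipotent F :=
  map_XS (rs_pos h) fun _ hr => hr.1

theorem map_V : (gam F h).V.map (D.group F).subtype = D.negUnipotent F :=
  map_XS (fun r => by rw [rs_pos, isNegRoot_iff]) fun _ hr => hr.1

theorem map_H : (gam F h).H.map (D.group F).subtype = D.diagonalSubgroup F := by
  change (sys F h).H.map _ = _
  rw [ChevSys.H, MonoidHom.map_closure, diagonalSubgroup]
  congr 1
  ext g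
  exact ⟨by rintro ⟨_, ⟨r, t, ht, rfl⟩, rfl⟩; exact ⟨r, t, r.2, ht, mat_hG r t⟩,
    fun ⟨r, t, hr, ht, e⟩ => ⟨_, ⟨⟨r, hr⟩, t, ht, rfl⟩, Units.ext ((mat_hG ⟨r, hr⟩ t).trans e.symm)⟩⟩

theorem map_N : (gam F h).N.map (D.group F).subtype = D.monomialSubgroup F := by
  change (sys F h).N.map _ = _
  rw [ChevSys.N, Subgroup.map_sup, monomialSubgroup, ← map_H h, MonoidHom.map_closure]
  congr 2
  ext g
  exact ⟨by rintro ⟨_, ⟨r, rfl⟩, rfl⟩; exact ⟨r, r.2, mat_nG r 1⟩,
    fun ⟨r, hr, e⟩ => ⟨_, ⟨⟨r, hr⟩, rfl⟩, Units.ext ((mat_nG ⟨r, hr⟩ 1).trans e.symm)⟩⟩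

theorem map_Bor : (gam F h).Bor.map (D.group F).subtype = D.borelSubgroup F := by
  rw [RGD0.Bor, Subgroup.map_sup, map_U, map_H]; rfl

theorem map_Rad (J : Set ℕ) :
    ((gam F h).Rad {i | (i : ℕ) ∈ J}).map (D.group F).subtype = D.unipotentRadical F J := by
  rw [unipotentRadical]
  simp only [← and_assoc]
  exact map_XS (fun r => by rw [rs_pos, rs_inSub]; rfl) fun _ hr => hr.1.1

theorem map_L (J : Set ℕ) :
    ((gam F h).L {i | (i : ℕ) ∈ J}).map (D.group F).subtype = D.leviSubgroup F J := by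
  rw [RGD0.L, Subgroup.map_sup, map_H, sup_comm, leviSubgroup]
  congr 1
  exact map_XS (rs_inSub h J) fun _ hr => hr.1

omit hD hM hE in
theorem map_top' : (⊤ : Subgroup (D.group F)).map (D.group F).subtype = D.group F := by
  rw [← MonoidHom.range_eq_map, Subgroup.range_subtype]

end CA.CG
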