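import Cfsg.Agent.Lib.CG.Tw3
import Cfsg.Agent.Lib.Chev.InstD4
import Cfsg.Prelude.Def_LieTwisted

/-! The twisted groups of type `³D₄`. -/

set_option autoImplicit false
set_option linter.unusedSectionVars false
set_option maxHeartbeats 400000
set_option backward.isDefEq.respectTransparency false

namespace CA.CG

open Cfsg.Lie Cfsg.Lie.ChevalleyDatum CA.Chev CA.Weyl CA.BN Matrix

/-- The fundamental roots of `D₄`. -/
abbrev pD4 (i : Fin 4) : Rt chevD4 := Chev.simple (D := chevD4) i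

theorem lD4_1 : ListOK (D := chevD4) [(1 : Fin 4)] [pD4 1] (lat _ [0, 1]) := by decide +kernel
theorem lD4_023 : ListOK (D := chevD4) [(0 : Fin 4), (2 : Fin 4), (3 : Fin 4)] [pD4 0, pD4 2, pD4 3]
    (lat _ [1, 0, 2, 3]) := by decide +kernel
theorem oD4_02 : Orth chevD4 (pD4 0) (pD4 2) := by decide +kernel
theorem oD4_03 : Orth chevD4 (pD4 0) (pD4 3) := by decide +kernel
theorem oD4_23 : Orth chevD4 (pD4 2) (pD4 3) := by decide +kernel

variable {K : Type*} [Field K] {q : ℕ} {φ : K →+* K} {σ : chevD4.group K →* chevD4.group K}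

/-- The data defining `³D₄`. -/
structure D4Data (q : ℕ) (φ : K →+* K) (σ : chevD4.group K →* chevD4.group K) : Prop where
  pow : ∀ t, φ t = t ^ q
  inv : ∀ t, φ (φ (φ t)) = t
  gend : GEnd (D := chevD4) rhoD4 (fun _ => φ) σ

namespace D4Data

variable (E : D4Data q φ σ)
include E

section

variable {y : Rt chevD4 → K → chevD4.group K} {Z : Set (Nd chevD4) → Subgroup (chevD4.group K)}
  (hy : Side y Z) (hL : ∀ r t, y r t ∈ L2 K r)
include hy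

theorem fx0 (u : chevD4.group K) : u ∈ Z {i | i ∈ (orbD4 0).1} ∧ σ u = u ↔
    ∃ t, φ t = t ∧ u = y (pD4 1) t := hy.fx1 E.gend lD4_1 rfl u

include hL

theorem fx1 (u : chevD4.group K) : u ∈ Z {i | i ∈ (orbD4 1).1} ∧ σ u = u ↔
    ∃ t, u = y (pD4 0) t * (y (pD4 2) (φ t) * y (pD4 3) (φ (φ t))) :=
  hy.fx3 E.gend lD4_023 rfl rfl rfl (fun _ _ => oD4_02.commute (hL _ _) (hL _ _))
    (fun _ _ => oD4_03.commute (hL _ _) (hL _ _)) E.inv u

end

theorem genOK : GenOK hD4 σ (fun o => {i | i ∈ (orbD4 o).1}) (d4Words K q) := by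
  intro g
  have w1 : ∀ (i : Fin 4) (t : K) r, r = chevD4.simple i → wordG xg [(r, t)] = xg (pD4 i) t :=
    fun i t r h => by rw [wordG_single, xN_simple _ i h]
  have w2 : ∀ (i : Fin 4) (t : K) r, r = chevD4.neg (chevD4.simple i) →
      wordG xg [(r, t)] = yg (pD4 i) (-t) :=
    fun i t r h => by rw [wordG_single, xN_neg_simple _ i h, yg, _root_.neg_neg]
  have e : ∀ t : K, t ^ q ^ 2 = φ (φ t) := fun t => by rw [E.pow, E.pow, ← pow_mul, pow_two]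
  have w3 : ∀ t : K, wordG xg [(d4p1, t), (d4p3, t ^ q), (d4p4, t ^ q ^ 2)] =
      xg (pD4 0) t * (xg (pD4 2) (φ t) * xg (pD4 3) (φ (φ t))) := fun t => by
    rw [wordG_cons, wordG_cons, w1 3 _ d4p4 rfl, xN_simple (r := d4p1) _ (0 : Fin 4) rfl,
      xN_simple (r := d4p3) _ (2 : Fin 4) rfl, e, ← E.pow]
  have w4 : ∀ t : K, wordG xg [(d4m1, t), (d4m3, t ^ q), (d4m4, t ^ q ^ 2)] =
      yg (pD4 0) (-t) * (yg (pD4 2) (φ (-t)) * yg (pD4 3) (φ (φ (-t)))) := fun t => by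
    rw [wordG_cons, wordG_cons, w2 3 _ d4m4 rfl, xN_neg_simple (r := d4m1) _ (0 : Fin 4) rfl,
      xN_neg_simple (r := d4m3) _ (2 : Fin 4) rfl, e, ← E.pow]
    simp [yg]
  constructor
  · rintro ⟨w, (⟨t, ht, r, hr, rfl⟩ | ⟨t, r, hr, rfl⟩), rfl⟩ <;>
      simp only [List.mem_cons, List.not_mem_nil, or_false] at hr
    · rw [← E.pow] at ht
      rcases hr with rfl | rfl
      · exact ⟨0, Or.inl ((E.fx0 (side_pos hD4) _).2 ⟨t, ht, w1 1 _ _ rfl⟩)⟩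
      · exact ⟨0, Or.inr ((E.fx0 (side_neg hD4) _).2 ⟨-t, by simp [ht], w2 1 _ _ rfl⟩)⟩
    · rcases hr with rfl | rfl
      · exact ⟨1, Or.inl ((E.fx1 (side_pos hD4) x_mem_L2 _).2 ⟨t, w3 t⟩)⟩
      · exact ⟨1, Or.inr ((E.fx1 (side_neg hD4) y_mem_L2 _).2 ⟨-t, w4 t⟩)⟩
  · rintro ⟨o, ho⟩
    fin_cases o <;> rcases ho with ho | ho
    · obtain ⟨t, ht, rfl⟩ := (E.fx0 (side_pos hD4) _).1 ho
      exact ⟨_, Or.inl ⟨t, by rw [← E.pow, ht], d4p2, by simp, rfl⟩, w1 1 _ _ rfl⟩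
    · obtain ⟨t, ht, rfl⟩ := (E.fx0 (side_neg hD4) _).1 ho
      exact ⟨_, Or.inl ⟨-t, by rw [← E.pow, map_neg, ht], d4m2, by simp, rfl⟩,
        (w2 1 _ _ rfl).trans (by rw [_root_.neg_neg])⟩
    · obtain ⟨t, rfl⟩ := (E.fx1 (side_pos hD4) x_mem_L2 _).1 ho
      exact ⟨_, Or.inr ⟨t, (d4p1, d4p3, d4p4), by simp, rfl⟩, w3 t⟩
    · obtain ⟨t, rfl⟩ := (E.fx1 (side_neg hD4) y_mem_L2 _).1 ho
      exact ⟨_, Or.inr ⟨-t, (d4m1, d4m3, d4m4), by simp, rfl⟩, (w4 _).trans (by rw [_root_.neg_neg])⟩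

theorem nontriv : ∀ o, ∃ u ∈ (gam K hD4).VJ {i | i ∈ (orbD4 o).1}, σ u = u ∧ u ≠ 1 := by
  have hy := side_neg (F := K) hD4
  intro o
  fin_cases o
  · obtain ⟨h1, h2⟩ := (E.fx0 hy _).2 ⟨1, map_one _, rfl⟩
    exact ⟨_, h1, h2, fun e => one_ne_zero (hy.inj_nil (lD4_1.2.2 _ (by simp)) (e.trans (hy.zero _).symm))⟩
  · obtain ⟨h1, h2⟩ := (E.fx1 hy y_mem_L2 _).2 ⟨1, rfl⟩
    exact ⟨_, h1, h2, fun e => one_ne_zero (hy.inj3 lD4_023.2.1 lD4_023.2.2 (b' := 0) (c' := 0)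
      (e.trans (by rw [hy.zero, hy.zero, hy.zero, mul_one, mul_one]))).1⟩

/-- The twisted group. -/
noncomputable def tw : Tw (gam K hD4) (Fin 2) :=
  E.gend.tw' hD4 (by decide) cartanCoxD4 colsD4_spec orbD4_ok E.genOK E.nontriv

theorem map_G1 : E.tw.G1.map (chevD4.group K).subtype = twistedD4 K q := map_gen _

theorem mem1 (t : K) (ht : φ t = t) :
    xg (pD4 1) t ∈ E.tw.G1 ∧ xg (Chev.neg (pD4 1)) t ∈ E.tw.G1 := by
  have h1 := (E.fx0 (side_pos hD4) _).2 ⟨t, ht, rfl⟩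
  have h2 := (E.fx0 (side_neg hD4) _).2 ⟨-t, by simp [ht], rfl⟩
  exact ⟨E.tw.U_le 0 _ h1.1 h1.2, by simpa [yg] using E.tw.V_le 0 _ h2.1 h2.2⟩

theorem mem023 (t : K) : xg (pD4 0) t * (xg (pD4 2) (φ t) * xg (pD4 3) (φ.comp φ t)) ∈ E.tw.G1 ∧
    xg (Chev.neg (pD4 0)) t * (xg (Chev.neg (pD4 2)) (φ t) * xg (Chev.neg (pD4 3)) (φ.comp φ t)) ∈
      E.tw.G1 := by
  have h1 := (E.fx1 (side_pos hD4) x_mem_L2 _).2 ⟨t, rfl⟩
  have h2 := (E.fx1 (side_neg hD4) y_mem_L2 _).2 ⟨-t, rfl⟩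
  exact ⟨E.tw.U_le 1 _ h1.1 h1.2, by simpa [yg] using E.tw.V_le 1 _ h2.1 h2.2⟩

theorem tor_mem (c : Fin 4 → Kˣ) (hc : twc (D := chevD4) rhoD4 (fun _ => φ) c = c) :
    tor chevD4 K c ∈ E.tw.G1 := by
  have h := (twc_eq_iff _ _ _ _).1 hc
  have e : c = Pi.mulSingle 1 (c 1) *
      (Pi.mulSingle 0 (c 0) * (Pi.mulSingle 2 (c 2) * Pi.mulSingle 3 (c 3))) := by
    funext i; fin_cases i <;> simp
  rw [e, map_mul, map_mul, map_mul, tor_single, tor_single, tor_single, tor_single]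
  refine Subgroup.mul_mem _ (n1_mem E.mem1 (h (1 : Fin 4))).2 ?_
  have := (n3_mem oD4_02 oD4_03 oD4_23 E.mem023 (c 0)).2
  have h2 : φ (c 0) = c 2 := h (0 : Fin 4)
  have h3 : φ (c 2) = c 3 := h (2 : Fin 4)
  rwa [RingHom.comp_apply, h2, h3] at this

omit E in
theorem ker_iff (c : Fin 4 → Kˣ) : tor chevD4 K c = 1 ↔
    (c 0 ^ 2 = 1 ∧ c 2 ^ 2 = 1) ∧ c = ![c 0, 1, c 2, c 0 * c 2] := by
  rw [kerD4.mem_ker_iff]
  simp only [Fin.forall_fin_two, Fin.prod_univ_two]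
  refine and_congr Iff.rfl ⟨fun h => funext fun i => (h i).trans ?_, fun h i => (congrFun h i).trans ?_⟩ <;>
  fin_cases i <;> simp [lf]

theorem H_inf : (gam K hD4).H ⊓ E.tw.G1 =
    ((twc (D := chevD4) rhoD4 fun _ => φ).eqLocus (MonoidHom.id _)).map (tor chevD4 K) := by
  refine H_inf_eq E.tw E.gend E.tor_mem
    (lift_fixed_three E.gend (twc_three (by decide) fun _ => E.inv) fun z hz => ?_)
  obtain ⟨h1, h2⟩ := (ker_iff z).1 hz
  rw [h2]
  funext i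
  fin_cases i <;> simp [h1, mul_pow]

theorem card_C [Fintype K] (hq : 1 < q) (hK : Fintype.card K = q ^ 3) :
    Nat.card ((twc (D := chevD4) rhoD4 fun _ => φ).eqLocus (MonoidHom.id _)) = (q - 1) * (q ^ 3 - 1) := by
  refine (card_of_param (P := {z : Kˣ // (z : K) ^ q = z} × Kˣ)
    (p := fun a => ![a.2, a.1, Units.map φ.toMonoidHom a.2,
      Units.map φ.toMonoidHom (Units.map φ.toMonoidHom a.2)]) ?_ ?_).trans ?_
  rotate_left 2
  · simp only [Nat.card_prod, card_fixed_units hq hK, Nat.card_units, Nat.card_eq_fintype_card, hK]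
  · rintro ⟨a, b⟩ ⟨a', b'⟩ e
    exact Prod.ext (Subtype.ext (congrFun e (1 : Fin 4))) (congrFun e (0 : Fin 4))
  · intro c
    refine (twc_eq_iff _ _ _ _).trans ⟨fun h => ⟨(⟨c (1 : Fin 4), by rw [← E.pow]; exact h (1 : Fin 4)⟩,
      c (0 : Fin 4)), ?_⟩, ?_⟩
    · funext i
      fin_cases i
      exacts [rfl, rfl, Units.ext (h (0 : Fin 4)).symm,
        Units.ext ((congrArg φ (h (0 : Fin 4))).trans (h (2 : Fin 4))).symm]
    · rintro ⟨⟨a, b⟩, rfl⟩ i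
      fin_cases i
      exacts [rfl, (E.pow _).trans a.2, rfl, E.inv _]

omit E in
theorem ker_inf :
    (tor chevD4 K).ker ⊓ (twc (D := chevD4) rhoD4 fun _ => φ).eqLocus (MonoidHom.id _) = ⊥ := by
  rw [eq_bot_iff]
  rintro c ⟨h1, h2⟩
  obtain ⟨⟨h3, h4⟩, h5⟩ := (ker_iff c).1 h1
  have h6 : φ (c (2 : Fin 4)) = c (3 : Fin 4) := (twc_eq_iff _ _ _ _).1 h2 (2 : Fin 4)
  have h7 : φ (c (0 : Fin 4)) = c (2 : Fin 4) := (twc_eq_iff _ _ _ _).1 h2 (0 : Fin 4)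
  have h8 : c (3 : Fin 4) = c (0 : Fin 4) * c (2 : Fin 4) := congrFun h5 (3 : Fin 4)
  have h9 : φ (c (2 : Fin 4)) = c (2 : Fin 4) := by
    rcases sq_eq_one_iff.1 (congrArg Units.val h4 : (c (2 : Fin 4) : K) ^ 2 = 1) with e | e <;>
    simp [e]
  have h10 : c (0 : Fin 4) = 1 := by
    rw [h9, h8, Units.val_inj] at h6
    exact (mul_eq_right.1 h6.symm)
  have h11 : c (2 : Fin 4) = 1 := by
    rw [h10] at h7
    exact Units.ext (by simpa using h7.symm)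
  rw [Subgroup.mem_bot, h5, h10, h11]
  funext i
  fin_cases i <;> simp

theorem card_H [Fintype K] (hq : 1 < q) (hK : Fintype.card K = q ^ 3) :
    Nat.card ↥(chevD4.diagonalSubgroup K ⊓ twistedD4 K q) = (q - 1) ^ 2 * (q ^ 2 + q + 1) := by
  have := card_H_inf hD4 E.H_inf
  rw [ker_inf, Subgroup.card_bot, one_mul, E.card_C hq hK] at this
  rw [← E.map_G1, tw_card_H, this]
  obtain ⟨n, rfl⟩ : ∃ n, q = n + 1 := ⟨q - 1, by omega⟩
  rw [show (n + 1) ^ 3 = n * ((n + 1) ^ 2 + (n + 1) + 1) + 1 by ring]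
  simp only [Nat.add_sub_cancel]
  ring

theorem hx [Fintype K] (hq : 1 < q) (hK : Fintype.card K = q ^ 3) (o : Fin 2) :
    (Nat.card (E.tw.Fx ((gam K hD4).UJ (E.tw.I o))) : ℝ) = (q : ℝ) ^ (rs hD4).cs.length (E.tw.wI o) := by
  have hy := side_pos (F := K) hD4
  rw [show (rs hD4).cs.length (E.tw.wI o) = (orbD4 o).2.length from
    (cartanCoxD4.isLongest_of_longb _ colsD4_spec _ (orbD4_ok.2 o).2.2).2.1]
  fin_cases o
  · rw [card_of_param (P := {t : K // t ^ q = t}) (p := fun t => xg (pD4 1) t.1)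
      (fun _ _ e => Subtype.ext (xg_injective _ e)) fun u => (E.fx0 hy u).trans (by simp [E.pow]),
      card_fixed hq hK]
    simp [orbD4]
  · rw [card_of_param (fun _ _ e => (hy.inj3 lD4_023.2.1 lD4_023.2.2 e).1) (E.fx1 hy x_mem_L2),
      Nat.card_eq_fintype_card, hK]
    simp [orbD4]

theorem card_U [Fintype K] (hq : 1 < q) (hK : Fintype.card K = q ^ 3) :
    Nat.card ↥(chevD4.posUnipotent K ⊓ twistedD4 K q) = q ^ 12 := by
  have := tw_card_U E.tw (E.hx hq hK)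
  rw [E.map_G1] at this
  exact_mod_cast this

theorem card [Fintype K] (hq : 1 < q) (hK : Fintype.card K = q ^ 3) :
    Nat.card (twistedD4 K q) = q ^ 12 * (q ^ 2 - 1) * (q ^ 6 - 1) * (q ^ 8 + q ^ 4 + 1) := by
  have h1 := tw_card E.tw (E.hx hq hK) (poinTwD4 _ _ E.tw.hτ)
  have h0 : 0 < q := by omega
  rw [E.map_G1, show chevD4.nroots / 2 = 12 from rfl, E.card_H hq hK] at h1
  apply Nat.cast_injective (R := ℝ)
  simp only [Nat.cast_mul, cast_pow_sub h0, Nat.cast_pow, Nat.cast_sub h0, Nat.cast_one, Nat.cast_add,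
    Nat.cast_ofNat] at h1 ⊢
  rw [h1]
  simp [geo, Finset.sum_range_succ]
  ring

theorem core : ((gam K hD4).Bor.subgroupOf E.tw.G1).normalCore = ⊥ := by
  refine tw_core_of E.tw fun i => ?_
  have h1 : oprod xg [pD4 0, pD4 2, pD4 3] (fun _ => 1) ∈ E.tw.G1 := by simpa using (E.mem023 1).1
  fin_cases i
  · exact ⟨_, _, _, lD4_023, by decide, _, one_ne_zero, h1⟩
  · exact ⟨_, _, _, lD4_1, by decide, fun _ => 1, one_ne_zero, by simpa using (E.mem1 1 (map_one _)).1⟩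
  · exact ⟨_, _, _, lD4_023, by decide, _, one_ne_zero, h1⟩
  · exact ⟨_, _, _, lD4_023, by decide, _, one_ne_zero, h1⟩

theorem perfect (hb : ∃ b : Kˣ, b ^ 2 ≠ 1) : commutator E.tw.G1 = ⊤ := by
  have hy := side_pos (F := K) hD4
  obtain ⟨b, hb⟩ := hb
  have hb' : (b : K) ^ 2 ≠ 1 := fun e => hb (Units.ext e)
  have n1 : nG xg (pD4 1) 1 ∈ E.tw.G1 := (n1_mem E.mem1 (map_one φ)).1
  have n2 : nG xg (pD4 0) 1 * (nG xg (pD4 2) 1 * nG xg (pD4 3) 1) ∈ E.tw.G1 := by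
    simpa using (n3_mem oD4_02 oD4_03 oD4_23 E.mem023 1).1
  obtain ⟨β, hβ⟩ : ∃ β, β = sRefl (D := chevD4) (0 : Fin 4) (sRefl (2 : Fin 4) (sRefl (3 : Fin 4) (pD4 1))) :=
    ⟨_, rfl⟩
  obtain ⟨ε, h1, h2⟩ : ∃ ε : K, ε * ε = 1 ∧ ∀ t, nG xg (pD4 0) 1 * (nG xg (pD4 2) 1 * nG xg (pD4 3) 1) *
      xg (pD4 1) t * (nG xg (pD4 0) 1 * (nG xg (pD4 2) 1 * nG xg (pD4 3) 1))⁻¹ = xg β (ε * t) := by
    refine ⟨_ * (_ * _), ?_, fun t => by
      rw [hβ, mul_assoc _ _ t, mul_assoc _ _ t, ← n_conj, ← n_conj, ← n_conj]; group⟩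
    rw [mul_mul_mul_comm, eta_mul_self', one_mul, mul_mul_mul_comm, eta_mul_self', eta_mul_self', one_mul]
  refine tw_perfect' E.tw rfl E.genOK fun o u hu hu' => ?_
  fin_cases o
  · obtain ⟨t, ht, rfl⟩ := (E.fx0 hy u).1 ⟨hu, hu'⟩
    refine (mem_of_conj_sign (le_normalizer_commutator _) n2 h1 h2 t).2 (mem_comm_of_sRefl n1 ?_)
    have h3 := (mem_of_conj_sign Subgroup.le_normalizer n2 h1 h2 1).1 (E.mem1 1 (map_one _)).1
    subst hβ
    simpa [stRel_xg.neg_arg] using comm_single (k := sRefl (1 : Fin 4) (sRefl (D := chevD4) (0 : Fin 4)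
      (sRefl (2 : Fin 4) (sRefl (3 : Fin 4) (pD4 1))))) (ε := 1)
      (by decide +kernel) (by decide +kernel) (by decide +kernel) (E.mem1 t ht).1 h3
  · obtain ⟨t, rfl⟩ := (E.fx1 hy x_mem_L2 u).1 ⟨hu, hu'⟩
    refine mem_comm_of_tor (g := fun t => xg (pD4 0) t * (xg (pD4 2) (φ t) * xg (pD4 3) (φ (φ t))))
      (n3_mem oD4_02 oD4_03 oD4_23 E.mem023 b).2 (fun t => (E.mem023 t).1) (fun s t => ?_) hb'
      (fun t => ?_) t
    · rw [map_add, map_add, hy.add, hy.add, hy.add,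
        ((oD4_02.commute (x_mem_L2 _ _) (x_mem_L2 _ _)).mul_right
          (oD4_03.commute (x_mem_L2 _ _) (x_mem_L2 _ _))).symm.mul_mul_mul_comm,
        (oD4_23.commute (x_mem_L2 _ _) (x_mem_L2 _ _)).symm.mul_mul_mul_comm]
    · rw [← conj_mul, ← conj_mul, hconj3 _ _ _ _ (by simp) (by simp) (by simp),
        hconj3 _ _ _ _ (by simp) (by simp) (by simp), hconj3 _ _ _ _ (by simp) (by simp) (by simp),
        show pr (pD4 0) (pD4 2) = 0 by decide +kernel, show pr (pD4 0) (pD4 3) = 0 by decide +kernel,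
        show pr (pD4 2) (pD4 0) = 0 by decide +kernel, show pr (pD4 2) (pD4 3) = 0 by decide +kernel,
        show pr (pD4 3) (pD4 0) = 0 by decide +kernel, show pr (pD4 3) (pD4 2) = 0 by decide +kernel]
      simp [zpow_ofNat]

omit E in
theorem exists_sq [Fintype K] (hq : 1 < q) (hK : Fintype.card K = q ^ 3) : ∃ b : Kˣ, b ^ 2 ≠ 1 :=
  exists_sq_ne_one (by
    rw [hK]
    calc 3 < 2 ^ 3 := by norm_num
      _ ≤ q ^ 3 := Nat.pow_le_pow_left hq 3)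

theorem perfect' [Fintype K] (hq : 1 < q) (hK : Fintype.card K = q ^ 3) :
    commutator (twistedD4 K q) = ⊤ := by
  rw [← E.map_G1]
  exact perfect_of_equiv (upEquiv _) (E.perfect (exists_sq hq hK))

theorem simple [Fintype K] (hq : 1 < q) (hK : Fintype.card K = q ^ 3) :
    IsSimpleGroup (twistedD4 K q) ∧ ¬ IsMulCommutative (twistedD4 K q) := by
  rw [← E.map_G1]
  exact tw_simple E.tw (irrD4 _) (E.perfect (exists_sq hq hK)) E.core

theorem bn : ∃ P : Cfsg.BNPair ↥(twistedD4 K q),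
    P.B = (chevD4.borelSubgroup K ⊓ twistedD4 K q).subgroupOf (twistedD4 K q) ∧
    P.N = (chevD4.monomialSubgroup K ⊓ twistedD4 K q).subgroupOf (twistedD4 K q) := by
  rw [← E.map_G1]
  exact tw_bn E.tw

theorem hom : ∃ φ : ↥(chevD4.monomialSubgroup K ⊓ twistedD4 K q) →* (CoxeterMatrix.G₂).Group,
    Function.Surjective φ ∧ φ.ker = (chevD4.diagonalSubgroup K ⊓ twistedD4 K q).subgroupOf
      (chevD4.monomialSubgroup K ⊓ twistedD4 K q) := by
  rw [← E.map_G1]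
  exact tw_hom E.tw (fixedD4 _ _ E.tw.hτ)

theorem core' : ((chevD4.borelSubgroup K ⊓ twistedD4 K q).subgroupOf (twistedD4 K q)).normalCore = ⊥ := by
  rw [← E.map_G1]
  exact tw_core' E.tw E.core

end D4Data

end CA.CG
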