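import Cfsg.Agent.Lib.CG.Tw3
import Cfsg.Agent.Lib.Chev.InstF4
import Cfsg.Prelude.Def_LieTwisted

/-! The twisted groups of type `²F₄`. -/

set_option autoImplicit false
set_option linter.unusedSectionVars false
set_option maxHeartbeats 400000
set_option backward.isDefEq.respectTransparency false

namespace CA.CG

open Cfsg.Lie Cfsg.Lie.ChevalleyDatum CA.Chev CA.Weyl CA.BN Matrix

/-- The fundamental roots of `F₄`. -/
abbrev pF4 (i : Fin 4) : Rt chevF4 := Chev.simple (D := chevF4) i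
/-- The root `p₂ + p₃`. -/
def abF4 : Rt chevF4 := sRefl (D := chevF4) (2 : Fin 4) (pF4 1)
/-- The root `2 p₂ + p₃`. -/
def aabF4 : Rt chevF4 := sRefl (D := chevF4) (1 : Fin 4) (pF4 2)

theorem lF4_03 : ListOK (D := chevF4) [(0 : Fin 4), (3 : Fin 4)] [pF4 0, pF4 3]
    (lat _ [1, 0, 0, 2]) := by decide +kernel
theorem lF4_12 : ListOK (D := chevF4) [(1 : Fin 4), (2 : Fin 4)] [pF4 1, pF4 2, abF4, aabF4]
    (lat _ [0, 2, 3, 0]) := by decide +kernel
theorem oF4_03 : Orth chevF4 (pF4 0) (pF4 3) := by decide +kernel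

variable {K : Type*} [Field K]

/-- The normal form in the unipotent subgroup of type `B₂`. -/
def NB (y : Rt chevF4 → K → chevF4.group K) (s t u v : K) : chevF4.group K :=
  y (pF4 1) s * (y (pF4 2) t * (y abF4 u * y aabF4 v))

section

variable {y : Rt chevF4 → K → chevF4.group K} {Z : Set (Nd chevF4) → Subgroup (chevF4.group K)}
  (hy : Side y Z)
include hy

theorem NB_mul (h2 : (2 : K) = 0) (s t u v s' t' u' v' : K) : NB y s t u v * NB y s' t' u' v' =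
    NB y (s + s') (t + t') (s' * t + u + u') (s' ^ 2 * t + v + v') := by
  have c0 : ∀ r t u g, y r t * (y r u * g) = y r (t + u) * g := fun r t u g => by rw [hy.add, mul_assoc]
  have c1 : ∀ s t g, y (pF4 2) t * (y (pF4 1) s * g) =
      y (pF4 1) s * (y (pF4 2) t * (y abF4 (s * t) * (y aabF4 (s ^ 2 * t) * g))) := fun s t g => by
    rw [← mul_assoc, hy.comm' (L := [(abF4, -1, 1, 1), (aabF4, -1, 2, 1)]) (by decide +kernel),
      show s ^ 2 * t = -(s ^ 2 * t) by linear_combination s ^ 2 * t * h2]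
    simp [mul_assoc]
  have c2 : ∀ s t g, y abF4 t * (y (pF4 1) s * g) = y (pF4 1) s * (y abF4 t * g) := fun s t g => by
    rw [← mul_assoc, hy.comm' (L := [(aabF4, 2, 1, 1)]) (by decide +kernel)]
    simp [mul_assoc, h2, hy.zero]
  have c3 : ∀ r r', CT r r' [] → ∀ s t g, y r' t * (y r s * g) = y r s * (y r' t * g) :=
    fun r r' h s t g => by rw [← mul_assoc, hy.comm' h]; simp [mul_assoc]
  refine mul_right_cancel (b := 1) ?_
  simp only [NB, mul_assoc, c0, c1, c2, c3 (pF4 2) abF4 (by decide +kernel),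
    c3 (pF4 1) aabF4 (by decide +kernel), c3 (pF4 2) aabF4 (by decide +kernel),
    c3 abF4 aabF4 (by decide +kernel), add_assoc]

theorem NB_inj {s t u v s' t' u' v' : K} (e : NB y s t u v = NB y s' t' u' v') :
    s = s' ∧ t = t' ∧ u = u' ∧ v = v' := hy.inj4 lF4_12.2.1 lF4_12.2.2 e

theorem NB_mem (g : chevF4.group K) : g ∈ Z {i | i ∈ (orbF4 1).1} ↔ ∃ s t u v, g = NB y s t u v := by
  refine (hy.ex lF4_12 g).trans ⟨?_, ?_⟩
  · rintro ⟨t, rfl⟩
    exact ⟨_, _, _, _, by simp only [oprod_cons, oprod_nil, mul_one]; rfl⟩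
  · rintro ⟨s, t, u, v, rfl⟩
    refine ⟨fun r => if r = pF4 1 then s else if r = pF4 2 then t else if r = abF4 then u else v, ?_⟩
    simp only [oprod_cons, oprod_nil, mul_one, if_true, show pF4 2 ≠ pF4 1 by decide +kernel,
      show abF4 ≠ pF4 1 by decide +kernel, show abF4 ≠ pF4 2 by decide +kernel,
      show aabF4 ≠ pF4 1 by decide +kernel, show aabF4 ≠ pF4 2 by decide +kernel,
      show aabF4 ≠ abF4 by decide +kernel, if_false]
    rfl

theorem NB_a (s : K) : NB y s 0 0 0 = y (pF4 1) s := by simp [NB, hy.zero]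
theorem NB_b (s : K) : NB y 0 s 0 0 = y (pF4 2) s := by simp [NB, hy.zero]
theorem NB_ab (s : K) : NB y 0 0 s 0 = y abF4 s := by simp [NB, hy.zero]
theorem NB_aab (s : K) : NB y 0 0 0 s = y aabF4 s := by simp [NB, hy.zero]

end

variable {e : ℕ} {θ ψ : K →+* K} {σ : chevF4.group K →* chevF4.group K}

/-- The data defining `²F₄`. -/
structure F4Data (e : ℕ) (θ ψ : K →+* K) (σ : chevF4.group K →* chevF4.group K) : Prop where
  pow : ∀ t, θ t = t ^ e
  sq : ∀ t, ψ t = θ t ^ 2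
  inv : ∀ t, ψ (θ t) = t
  gend : GEnd (D := chevF4) rhoF4 ![ψ, ψ, θ, θ] σ

namespace F4Data

variable (E : F4Data e θ ψ σ)
include E

theorem two : (2 : K) = 0 := by
  have := E.sq 2
  rw [map_ofNat, map_ofNat] at this
  linear_combination -this

theorem inv' (t : K) : θ (ψ t) = t := by rw [E.sq, map_pow, ← E.sq, E.inv]

theorem neg_eq (t : K) : -t = t := by linear_combination -t * E.two

theorem yg_eq (r : Rt chevF4) (t : K) : yg r t = xg (Chev.neg r) t := by rw [yg, E.neg_eq]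

section

variable {y : Rt chevF4 → K → chevF4.group K} {Z : Set (Nd chevF4) → Subgroup (chevF4.group K)}
  (hy : Side y Z) (hL : ∀ r t, y r t ∈ L2 K r)
include hy

theorem map_NB (s t u v : K) : σ (NB y s t u v) =
    NB y (θ t) (ψ s) (θ t * ψ s + θ v) (θ t ^ 2 * ψ s + ψ u) := by
  have key : ∀ {r r' φ}, Sx σ r r' φ → ∀ t, σ (y r t) = y r' (φ t) := fun h t => by
    obtain ⟨ε, h1, h2⟩ := hy.sx h
    rcases mul_self_eq_one_iff.1 h1 with rfl | rfl
    · rw [h2, one_mul]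
    · rw [h2, neg_one_mul, E.neg_eq]
  have h1 : ∀ t, σ (y (pF4 1) t) = y (pF4 2) (ψ t) := hy.gend E.gend (1 : Fin 4)
  have h2 : ∀ t, σ (y (pF4 2) t) = y (pF4 1) (θ t) := hy.gend E.gend (2 : Fin 4)
  have h3 : ∀ t, σ (y abF4 t) = y aabF4 (ψ t) :=
    key (E.gend.sx_refl (E.gend.sx_simple (1 : Fin 4)) (2 : Fin 4))
  have h4 : ∀ t, σ (y aabF4 t) = y abF4 (θ t) :=
    key (E.gend.sx_refl (E.gend.sx_simple (2 : Fin 4)) (1 : Fin 4))
  rw [NB, map_mul, map_mul, map_mul, h1, h2, h3, h4, ← NB_a hy, ← NB_b hy, ← NB_ab hy, ← NB_aab hy,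
    NB_mul hy E.two, NB_mul hy E.two, NB_mul hy E.two]
  simp

theorem fx1 (g : chevF4.group K) : g ∈ Z {i | i ∈ (orbF4 1).1} ∧ σ g = g ↔
    ∃ p : K × K, g = NB y (θ p.1) p.1 (θ p.1 * p.1 + p.2) (ψ p.2) := by
  rw [NB_mem hy]
  constructor
  · rintro ⟨⟨s, t, u, v, rfl⟩, h⟩
    rw [E.map_NB hy] at h
    obtain ⟨rfl, h2, h3, -⟩ := NB_inj hy h
    exact ⟨(t, θ v), by rw [← h3, E.inv, E.inv]⟩
  · rintro ⟨⟨t, u⟩, rfl⟩
    refine ⟨⟨_, _, _, _, rfl⟩, ?_⟩
    rw [E.map_NB hy, E.inv, E.inv', map_add, map_mul, E.inv, E.sq t]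
    congr 1
    linear_combination θ t ^ 2 * t * E.two

include hL

theorem fx0 (u : chevF4.group K) : u ∈ Z {i | i ∈ (orbF4 0).1} ∧ σ u = u ↔
    ∃ t, u = y (pF4 0) (θ t) * y (pF4 3) t := by
  refine (hy.fx2 E.gend lF4_03 rfl rfl (fun _ _ => oF4_03.commute (hL _ _) (hL _ _)) E.inv' u).trans ?_
  exact ⟨fun ⟨t, h⟩ => ⟨ψ t, by rw [E.inv']; exact h⟩, fun ⟨t, h⟩ => ⟨θ t, by rw [h, ← E.inv t, E.inv']; rfl⟩⟩

end

theorem genOK : GenOK hF4 σ (fun o => {i | i ∈ (orbF4 o).1}) (f4Words K e) := by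
  intro g
  have w1 : ∀ t : K, wordG xg (f4PairWord e f4p1 f4p4 t) = xg (pF4 0) (θ t) * xg (pF4 3) t := fun t => by
    rw [f4PairWord, wordG_cons, wordG_single, E.pow]; rfl
  have w2 : ∀ t : K, wordG xg (f4PairWord e f4m1 f4m4 t) = yg (pF4 0) (θ t) * yg (pF4 3) t := fun t => by
    rw [f4PairWord, wordG_cons, wordG_single, E.pow, E.yg_eq, E.yg_eq]; rfl
  have w3 : ∀ t u : K, wordG xg (b2ClassWord e f4a f4b f4ab f4aab t u) =
      NB xg (θ t) t (θ t * t + u) (ψ u) := fun t u => by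
    rw [b2ClassWord, wordG_cons, wordG_cons, wordG_cons, wordG_single, E.sq, E.pow, E.pow, ← pow_succ,
      ← pow_mul, mul_comm e]
    rfl
  have w4 : ∀ t u : K, wordG xg (b2ClassWord e f4ma f4mb f4mab f4maab t u) =
      NB yg (θ t) t (θ t * t + u) (ψ u) := fun t u => by
    rw [b2ClassWord, wordG_cons, wordG_cons, wordG_cons, wordG_single, E.sq, E.pow, E.pow, ← pow_succ,
      ← pow_mul, mul_comm e, NB, E.yg_eq, E.yg_eq, E.yg_eq, E.yg_eq]
    rfl
  constructor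
  · rintro ⟨w, (⟨t, rfl | rfl⟩ | ⟨t, u, rfl | rfl⟩), rfl⟩
    · exact ⟨0, Or.inl ((E.fx0 (side_pos hF4) x_mem_L2 _).2 ⟨t, w1 t⟩)⟩
    · exact ⟨0, Or.inr ((E.fx0 (side_neg hF4) y_mem_L2 _).2 ⟨t, w2 t⟩)⟩
    · exact ⟨1, Or.inl ((E.fx1 (side_pos hF4) _).2 ⟨(t, u), w3 t u⟩)⟩
    · exact ⟨1, Or.inr ((E.fx1 (side_neg hF4) _).2 ⟨(t, u), w4 t u⟩)⟩
  · rintro ⟨o, ho⟩
    fin_cases o <;> rcases ho with ho | ho
    · obtain ⟨t, rfl⟩ := (E.fx0 (side_pos hF4) x_mem_L2 _).1 ho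
      exact ⟨_, Or.inl ⟨t, Or.inl rfl⟩, w1 t⟩
    · obtain ⟨t, rfl⟩ := (E.fx0 (side_neg hF4) y_mem_L2 _).1 ho
      exact ⟨_, Or.inl ⟨t, Or.inr rfl⟩, w2 t⟩
    · obtain ⟨t, rfl⟩ := (E.fx1 (side_pos hF4) _).1 ho
      exact ⟨_, Or.inr ⟨t.1, t.2, Or.inl rfl⟩, w3 _ _⟩
    · obtain ⟨t, rfl⟩ := (E.fx1 (side_neg hF4) _).1 ho
      exact ⟨_, Or.inr ⟨t.1, t.2, Or.inr rfl⟩, w4 _ _⟩

theorem nontriv : ∀ o, ∃ u ∈ (gam K hF4).VJ {i | i ∈ (orbF4 o).1}, σ u = u ∧ u ≠ 1 := by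
  have hy := side_neg (F := K) hF4
  intro o
  fin_cases o
  · obtain ⟨h1, h2⟩ := (E.fx0 hy y_mem_L2 _).2 ⟨1, rfl⟩
    exact ⟨_, h1, h2, fun e => one_ne_zero (hy.inj2 lF4_03.2.1 lF4_03.2.2 (a' := 0)
      (e.trans (by rw [hy.zero, hy.zero, mul_one]))).2⟩
  · obtain ⟨h1, h2⟩ := (E.fx1 hy _).2 ⟨(1, 0), rfl⟩
    exact ⟨_, h1, h2, fun e => one_ne_zero
      (NB_inj hy (e.trans ((NB_a hy 0).trans (hy.zero _)).symm)).2.1⟩

/-- The twisted group. -/
noncomputable def tw : Tw (gam K hF4) (Fin 2) :=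
  E.gend.tw' hF4 (by decide) cartanCoxF4 colsF4_spec orbF4_ok E.genOK E.nontriv

theorem map_G1 : E.tw.G1.map (chevF4.group K).subtype = twistedF4 K e := map_gen _

theorem mem0 (t : K) : xg (pF4 0) (θ t) * xg (pF4 3) t ∈ E.tw.G1 :=
  have h1 := (E.fx0 (side_pos hF4) x_mem_L2 _).2 ⟨t, rfl⟩
  E.tw.U_le 0 _ h1.1 h1.2

theorem mem1 (t u : K) : NB xg (θ t) t (θ t * t + u) (ψ u) ∈ E.tw.G1 :=
  have h1 := (E.fx1 (side_pos hF4) _).2 ⟨(t, u), rfl⟩
  E.tw.U_le 1 _ h1.1 h1.2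

theorem tor_mem [Fintype K] (c : Fin 4 → Kˣ) (hc : twc (D := chevF4) rhoF4 ![ψ, ψ, θ, θ] c = c) :
    tor chevF4 K c ∈ E.tw.G1 := by
  have h1 : E.tw.τ ((E.tw.wI 0 * E.tw.wI 1) ^ 4) = (E.tw.wI 0 * E.tw.wI 1) ^ 4 := by
    rw [map_pow, map_mul, E.tw.τ_wI, E.tw.τ_wI]
  have h2 : (E.tw.wI 0 * E.tw.wI 1) ^ 4 = (rs hF4).cs.wordProd
      (List.replicate 4 ((orbF4 0).2 ++ (orbF4 1).2)).flatten := by
    simp only [List.replicate, List.flatten_cons, List.flatten_nil, CoxeterSystem.wordProd_append,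
      CoxeterSystem.wordProd_nil, pow_succ', pow_zero]
    rfl
  have h3 : Even (Fintype.card K) := by
    haveI : CharP K 2 := (CharP.charP_iff_prime_eq_zero Nat.prime_two).2 E.two
    obtain ⟨n, -, hn⟩ := FiniteField.card K 2
    rw [hn]
    exact (Nat.even_pow' n.ne_zero).2 even_two
  obtain ⟨k, hk⟩ := h3
  have h4 : (c ^ k) ^ 2 = c := by
    funext i
    apply Units.ext
    simp only [Pi.pow_apply, Units.val_pow_eq_pow_val]
    rw [← pow_mul, mul_two, ← hk, FiniteField.pow_card]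
  rw [← h4]
  refine tor_sq_mem E.tw rfl E.genOK h1 (fun i => ?_) ?_
  · rw [h2, act_wordProd]
    revert i
    decide +kernel
  · exact (E.gend.map_tor _).trans (by rw [map_pow, hc])

omit E in
theorem ker_eq : (tor chevF4 K).ker = ⊥ := by
  rw [eq_bot_iff]
  intro c hc
  exact funext fun i => by simpa using ((kerF4.mem_ker_iff c).1 hc).2 i

theorem H_inf [Fintype K] : (gam K hF4).H ⊓ E.tw.G1 =
    ((twc (D := chevF4) rhoF4 ![ψ, ψ, θ, θ]).eqLocus (MonoidHom.id _)).map (tor chevF4 K) :=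
  H_inf_eq E.tw E.gend E.tor_mem fun c hc => ⟨c, (MonoidHom.ker_eq_bot_iff _).1 ker_eq hc, rfl⟩

theorem mem_C (a b : Kˣ) : twc (D := chevF4) rhoF4 ![ψ, ψ, θ, θ]
    ![Units.map θ.toMonoidHom a, Units.map θ.toMonoidHom b, b, a] =
    ![Units.map θ.toMonoidHom a, Units.map θ.toMonoidHom b, b, a] := by
  refine (twc_eq_iff _ _ _ _).2 fun i => ?_
  fin_cases i
  exacts [E.inv _, E.inv _, rfl, rfl]

theorem card_H [Fintype K] :
    Nat.card ↥(chevF4.diagonalSubgroup K ⊓ twistedF4 K e) = (Fintype.card K - 1) ^ 2 := by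
  have := card_H_inf hF4 E.H_inf
  rw [ker_eq, bot_inf_eq, Subgroup.card_bot, one_mul] at this
  rw [← E.map_G1, tw_card_H, this]
  refine (card_of_param (P := Kˣ × Kˣ) (p := fun a => ![Units.map θ.toMonoidHom a.1,
    Units.map θ.toMonoidHom a.2, a.2, a.1]) ?_ ?_).trans ?_
  · rintro ⟨a, b⟩ ⟨a', b'⟩ e
    exact Prod.ext (congrFun e (3 : Fin 4)) (congrFun e (2 : Fin 4))
  · intro c
    refine ⟨fun h => ⟨(c (3 : Fin 4), c (2 : Fin 4)), ?_⟩, ?_⟩
    · replace h := (twc_eq_iff _ _ _ _).1 h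
      funext i
      fin_cases i
      exacts [Units.ext (h (3 : Fin 4)).symm, Units.ext (h (2 : Fin 4)).symm, rfl, rfl]
    · rintro ⟨⟨a, b⟩, rfl⟩
      exact E.mem_C a b
  · simp only [Nat.card_prod, Nat.card_units, Nat.card_eq_fintype_card, pow_two]

theorem hx [Fintype K] {x : ℝ} (hx : x ^ 2 = Fintype.card K) (o : Fin 2) :
    (Nat.card (E.tw.Fx ((gam K hF4).UJ (E.tw.I o))) : ℝ) = x ^ (rs hF4).cs.length (E.tw.wI o) := by
  have hy := side_pos (F := K) hF4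
  rw [show (rs hF4).cs.length (E.tw.wI o) = (orbF4 o).2.length from
    (cartanCoxF4.isLongest_of_longb _ colsF4_spec _ (orbF4_ok.2 o).2.2).2.1]
  fin_cases o
  · rw [card_of_param (fun _ _ e => (hy.inj2 lF4_03.2.1 lF4_03.2.2 e).2) (E.fx0 hy x_mem_L2),
      Nat.card_eq_fintype_card, ← hx]
    simp [orbF4]
  · rw [card_of_param (fun p p' e => ?_) (E.fx1 hy), Nat.card_prod, Nat.card_eq_fintype_card,
      Nat.cast_mul, ← hx, ← pow_add]
    · simp [orbF4]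
    · obtain ⟨-, h1, -, h2⟩ := NB_inj hy e
      exact Prod.ext h1 (ψ.injective h2)

theorem card_U [Fintype K] :
    Nat.card ↥(chevF4.posUnipotent K ⊓ twistedF4 K e) = Fintype.card K ^ 12 := by
  have hx : √(Fintype.card K : ℝ) ^ 2 = Fintype.card K := Real.sq_sqrt (by positivity)
  have := tw_card_U E.tw (E.hx hx)
  rw [E.map_G1, show chevF4.nroots / 2 = 2 * 12 from rfl, pow_mul, hx] at this
  exact_mod_cast this

theorem card [Fintype K] {q : ℕ} (hq : Fintype.card K = q) : Nat.card (twistedF4 K e) =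
    q ^ 12 * (q - 1) * (q ^ 3 + 1) * (q ^ 4 - 1) * (q ^ 6 + 1) := by
  have hx : √(Fintype.card K : ℝ) ^ 2 = Fintype.card K := Real.sq_sqrt (by positivity)
  have h1 := tw_card E.tw (E.hx hx) (poinTwF4 _ _ E.tw.hτ)
  have h0 : 0 < q := hq ▸ Fintype.card_pos
  rw [E.map_G1, show chevF4.nroots / 2 = 24 from rfl, E.card_H, hq] at h1
  rw [hq] at hx
  apply Nat.cast_injective (R := ℝ)
  simp only [Nat.cast_mul, cast_pow_sub h0, Nat.cast_pow, Nat.cast_sub h0, Nat.cast_one, Nat.cast_add,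
    Nat.cast_ofNat] at h1 ⊢
  rw [h1]
  generalize √(q : ℝ) = x at hx
  rw [← hx]
  simp [geo, Finset.sum_range_succ]
  ring

theorem core : ((gam K hF4).Bor.subgroupOf E.tw.G1).normalCore = ⊥ := by
  refine tw_core_of E.tw fun i => ?_
  have h1 : oprod xg [pF4 0, pF4 3] (fun _ => 1) ∈ E.tw.G1 := by simpa using E.mem0 1
  have h2 : oprod xg [pF4 1, pF4 2, abF4, aabF4] (fun r => if r = abF4 then 0 else 1) ∈ E.tw.G1 := by
    have := E.mem1 1 1
    simp only [map_one, mul_one, one_add_one_eq_two, E.two] at this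
    simpa [NB, show pF4 1 ≠ abF4 by decide +kernel, show pF4 2 ≠ abF4 by decide +kernel,
      show aabF4 ≠ abF4 by decide +kernel] using this
  fin_cases i
  · exact ⟨_, _, _, lF4_03, by decide, _, one_ne_zero, h1⟩
  · exact ⟨_, _, _, lF4_12, by decide, _, by rw [if_neg (by decide +kernel)]; exact one_ne_zero, h2⟩
  · exact ⟨_, _, _, lF4_12, by decide, _, by rw [if_neg (by decide +kernel)]; exact one_ne_zero, h2⟩
  · exact ⟨_, _, _, lF4_03, by decide, _, one_ne_zero, h1⟩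

omit E in
theorem chi_eq (c : Fin 4 → Kˣ) (a : Lat chevF4) : chi (D := chevF4) c a =
    c 0 ^ a (0 : Fin 4) * c 1 ^ a (1 : Fin 4) * c 2 ^ a (2 : Fin 4) * c 3 ^ a (3 : Fin 4) :=
  Fin.prod_univ_four _

theorem perfect [Fintype K] (hb : ∃ b : Kˣ, b ≠ 1) : commutator E.tw.G1 = ⊤ := by
  have hy := side_pos (F := K) hF4
  obtain ⟨b, hb⟩ := hb
  have hb' : ((b⁻¹ : Kˣ) : K) ≠ 1 := by simpa using hb
  refine tw_perfect' E.tw rfl E.genOK fun o u hu hu' => ?_
  fin_cases o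
  · obtain ⟨t, rfl⟩ := (E.fx0 hy x_mem_L2 u).1 ⟨hu, hu'⟩
    refine mem_comm_of_tor (g := fun t => xg (pF4 0) (θ t) * xg (pF4 3) t) (E.tor_mem _ (E.mem_C 1 b))
      E.mem0 (fun s t => ?_) hb' (fun t => ?_) t
    · rw [map_add, hy.add, hy.add, (oF4_03.commute (x_mem_L2 _ _) (x_mem_L2 _ _)).symm.mul_mul_mul_comm]
    · rw [← conj_mul, tor_conj, tor_conj, chi_eq, chi_eq,
        show wt (pF4 0) = ![2, -1, 0, 0] by decide +kernel,
        show wt (pF4 3) = ![0, 0, -1, 2] by decide +kernel]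
      simp
  · obtain ⟨⟨t, u⟩, rfl⟩ := (E.fx1 hy u).1 ⟨hu, hu'⟩
    obtain ⟨k, hk, h1⟩ : ∃ k ∈ E.tw.G1, ∀ s t u v : K, k * NB xg s t u v * k⁻¹ =
        NB xg (θ b * s) (b * t) (θ b * b * u) (θ b ^ 2 * b * v) := by
      refine ⟨_, E.tor_mem _ (E.mem_C b⁻¹ 1), fun s t u v => ?_⟩
      rw [NB, ← conj_mul, ← conj_mul, ← conj_mul, tor_conj, tor_conj, tor_conj, tor_conj,
        chi_eq, chi_eq, chi_eq, chi_eq, show wt (pF4 1) = ![-1, 2, -1, 0] by decide +kernel,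
        show wt (pF4 2) = ![0, -2, 2, -1] by decide +kernel,
        show wt abF4 = ![-1, 0, 1, -1] by decide +kernel,
        show wt aabF4 = ![-2, 2, 0, -1] by decide +kernel]
      simp [NB, zpow_ofNat]
    have hb1 : (b : K) ≠ 1 := by simpa using hb
    have h2 : ∀ u, NB xg 0 0 u (ψ u) ∈ ⁅E.tw.G1, E.tw.G1⁆ := by
      refine mem_comm_of_tor (g := fun u => NB xg 0 0 u (ψ u)) hk (fun u => by simpa using E.mem1 0 u)
        (fun s t => by simp [NB_mul hy E.two]) (a := θ b * b) (fun h => hb1 ?_) fun u => ?_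
      · have := congrArg ψ h
        rw [map_mul, E.inv, map_one, E.sq] at this
        linear_combination h - b * (this - θ b * h)
      · rw [h1, map_mul, map_mul, E.inv, E.sq b, mul_zero, mul_zero, mul_comm (b : K)]
    obtain ⟨s, rfl⟩ : ∃ s, t = b * s + s := ⟨t / (b + 1), by
      have : (b : K) + 1 ≠ 0 := fun h => hb1 (by linear_combination h - E.two)
      field_simp⟩
    have h3 := Subgroup.mul_mem _ (h2 (u + θ (b * s + s) * s))
      (Subgroup.commutator_mem_commutator hk (E.mem1 s 0))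
    rw [commutatorElement_def, h1, ← mul_assoc] at h3
    convert h3 using 1
    rw [eq_mul_inv_iff_mul_eq, NB_mul hy E.two, NB_mul hy E.two]
    simp only [map_add, map_mul, map_zero, E.inv, E.sq s]
    congr 1
    · linear_combination θ s * E.two
    · linear_combination s * E.two
    · linear_combination (θ s * s + θ s * b * s) * E.two
    · ring

theorem perfect' [Fintype K] (hb : ∃ b : Kˣ, b ≠ 1) : commutator (twistedF4 K e) = ⊤ := by
  rw [← E.map_G1]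
  exact perfect_of_equiv (upEquiv _) (E.perfect hb)

theorem simple [Fintype K] (hb : ∃ b : Kˣ, b ≠ 1) :
    IsSimpleGroup (twistedF4 K e) ∧ ¬ IsMulCommutative (twistedF4 K e) := by
  rw [← E.map_G1]
  exact tw_simple E.tw (irrF4 _) (E.perfect hb) E.core

theorem bn : ∃ P : Cfsg.BNPair ↥(twistedF4 K e),
    P.B = (chevF4.borelSubgroup K ⊓ twistedF4 K e).subgroupOf (twistedF4 K e) ∧
    P.N = (chevF4.monomialSubgroup K ⊓ twistedF4 K e).subgroupOf (twistedF4 K e) := by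
  rw [← E.map_G1]
  exact tw_bn E.tw

theorem hom : ∃ φ : ↥(chevF4.monomialSubgroup K ⊓ twistedF4 K e) →* DihedralGroup 8,
    Function.Surjective φ ∧ φ.ker = (chevF4.diagonalSubgroup K ⊓ twistedF4 K e).subgroupOf
      (chevF4.monomialSubgroup K ⊓ twistedF4 K e) := by
  rw [← E.map_G1]
  exact tw_hom E.tw (fixedF4 _ _ E.tw.hτ)

theorem core' : ((chevF4.borelSubgroup K ⊓ twistedF4 K e).subgroupOf (twistedF4 K e)).normalCore = ⊥ := by
  rw [← E.map_G1]
  exact tw_core' E.tw E.core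

end F4Data

end CA.CG
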