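import Cfsg.Agent.Lib.CG.TwE6
import Cfsg.Agent.Lib.CG.TwD4
import Cfsg.Agent.Lib.CG.TwF4
import Cfsg.Agent.Lib.Chev.AutE6
import Cfsg.Agent.Lib.Chev.AutD4
import Cfsg.Agent.Lib.Chev.AutF4

/-! The endomorphisms defining the twisted groups over finite fields. -/

set_option autoImplicit false

namespace CA.CG

open Cfsg.Lie CA.Chev

variable {K : Type*} [Field K] [Fintype K]

theorem e6Data {q : ℕ} (hq : IsPrimePow q) (hK : Fintype.card K = q ^ 2) :
    ∃ (φ : K →+* K) (σ : chevE6.group K →* chevE6.group K), E6Data q φ σ := by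
  obtain ⟨φ, hφ⟩ := exists_pow_hom hq two_pos hK
  obtain ⟨σ, -, h1, h2⟩ := graphE6 φ Weyl.rhoE6 (by decide)
  exact ⟨φ, σ, hφ, fun t => by rw [hφ, hφ, ← pow_mul, ← pow_two, ← hK, FiniteField.pow_card], h1, h2⟩

theorem d4Data {q : ℕ} (hq : IsPrimePow q) (hK : Fintype.card K = q ^ 3) :
    ∃ (φ : K →+* K) (σ : chevD4.group K →* chevD4.group K), D4Data q φ σ := by
  obtain ⟨φ, hφ⟩ := exists_pow_hom hq three_pos hK
  obtain ⟨σ, -, h1, h2⟩ := graphD4a φ Weyl.rhoD4 (by decide)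
  exact ⟨φ, σ, hφ, fun t => by
    rw [hφ, hφ, hφ, ← pow_mul, ← pow_mul, ← pow_three, ← hK, FiniteField.pow_card], h1, h2⟩

theorem charP_of_card_pow {p n : ℕ} (hp : p.Prime) (hK : Fintype.card K = p ^ (n + 1)) : CharP K p := by
  refine (CharP.charP_iff_prime_eq_zero hp).2 ?_
  have := FiniteField.cast_card_eq_zero K
  rw [hK, Nat.cast_pow] at this
  exact (pow_eq_zero_iff (Nat.succ_ne_zero n)).1 this

theorem f4Data {m : ℕ} (hK : Fintype.card K = 2 ^ (2 * m + 1)) :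
    ∃ (θ ψ : K →+* K) (σ : chevF4.group K →* chevF4.group K), F4Data (2 ^ m) θ ψ σ := by
  haveI := charP_of_card_pow Nat.prime_two hK
  have hθ : ∀ t : K, iterateFrobenius K 2 m t = t ^ 2 ^ m := fun t => iterateFrobenius_def ..
  obtain ⟨σ, -, h1, h2⟩ := graphF4 (iterateFrobenius K 2 m) Weyl.rhoF4 (by decide)
  refine ⟨_, (frobenius K 2).comp (iterateFrobenius K 2 m), σ, hθ, fun _ => rfl, fun t => ?_,
    fun i t => (h1 i t).trans ?_, fun i t => (h2 i t).trans ?_⟩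
  · rw [RingHom.comp_apply, hθ, hθ, frobenius_def, ← pow_mul, ← pow_mul, ← pow_succ, ← pow_add,
      ← add_assoc, ← two_mul, ← hK, FiniteField.pow_card]
  · fin_cases i <;> rfl
  · fin_cases i <;> rfl

theorem exists_unit_ne_one {p m : ℕ} (hp : 2 ≤ p) (hm : 1 ≤ m) (hK : Fintype.card K = p ^ (2 * m + 1)) :
    ∃ b : Kˣ, b ≠ 1 := by
  obtain ⟨c, hc⟩ := exists_sq_ne_one (K := K) (by
    rw [hK]
    calc 3 < 2 ^ 3 := by norm_num
      _ ≤ p ^ 3 := Nat.pow_le_pow_left hp 3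
      _ ≤ _ := Nat.pow_le_pow_right (by omega) (by omega))
  exact ⟨_, hc⟩

end CA.CG
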