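import Cfsg.Agent.Lib.CG.TitsData
import Cfsg.Agent.Lib.CG.TwInst

/-! The Tits group. -/

set_option autoImplicit false
set_option maxHeartbeats 400000
set_option backward.isDefEq.respectTransparency false

namespace CA.CG

open Cfsg.Lie Cfsg.Lie.ChevalleyDatum CA.Chev CA.BN Matrix

theorem simple_of_index_two {G : Type*} [Group G] [Finite G] (T : Subgroup G) (hT : T.index = 2)
    (hn : ∀ K : Subgroup G, K.Normal → K ≠ ⊥ → T ≤ K) (hsq : ¬ IsSquare (Nat.card T))
    (hp : ¬ (Nat.card T).Prime) : commutator G = T ∧ IsSimpleGroup T ∧ ¬ IsMulCommutative T := by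
  haveI hN : T.Normal := Subgroup.normal_of_index_eq_two hT
  obtain ⟨g, hg⟩ : ∃ g, g ∉ T := by
    by_contra h
    push Not at h
    rw [(Subgroup.eq_top_iff' T).2 h, Subgroup.index_top] at hT
    omega
  let α : T ≃* T := MulAut.conjNormal g
  have key : ∀ N : Subgroup T, N.Normal → N.map α.toMonoidHom ≤ N → N ≠ ⊥ → N = ⊤ := by
    intro N h1 h2 h3
    have h4 : ∀ x ∈ T, ∀ n ∈ N.map T.subtype, x * n * x⁻¹ ∈ N.map T.subtype := by
      rintro x hx _ ⟨n, hn, rfl⟩
      exact ⟨_, h1.conj_mem n hn ⟨x, hx⟩, rfl⟩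
    have h5 : (N.map T.subtype).Normal := ⟨fun n hn x => by
      by_cases hx : x ∈ T
      · exact h4 x hx n hn
      · have hx' : g⁻¹ * x ∈ T := by
          rw [Subgroup.mul_mem_iff_of_index_two hT]; simp [hg, hx]
        obtain ⟨m, hm, e⟩ := h4 _ hx' n hn
        refine ⟨α m, h2 ⟨m, hm, rfl⟩, ?_⟩
        change g * (T.subtype m) * g⁻¹ = _
        rw [e]; group⟩
    have h6 := hn _ h5 (by rwa [Ne, Subgroup.map_eq_bot_iff_of_injective _ T.subtype_injective])
    rw [eq_top_iff]
    intro t _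
    exact (Subgroup.mem_map_iff_mem T.subtype_injective).1 (h6 t.2)
  have hs : IsSimpleGroup T := by
    haveI : Nontrivial T := by
      rw [← not_subsingleton_iff_nontrivial]
      intro h
      exact hsq (by rw [Nat.card_unique]; exact IsSquare.one)
    refine ⟨fun M hM => or_iff_not_imp_left.2 fun h0 => ?_⟩
    haveI h1 : (M.map α.toMonoidHom).Normal := hM.map _ α.surjective
    have h2 : (M.map α.toMonoidHom).map α.toMonoidHom ≤ M := by
      rintro _ ⟨_, ⟨m, hm, rfl⟩, rfl⟩
      convert hM.conj_mem m hm ⟨g * g, Subgroup.mul_self_mem_of_index_two hT g⟩ using 1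
      apply Subtype.ext
      change g * (g * m * g⁻¹) * g⁻¹ = g * g * m * (g * g)⁻¹
      group
    by_cases h3 : M ⊓ M.map α.toMonoidHom = ⊥
    · have h4 := key (M ⊔ M.map α.toMonoidHom) inferInstance (by
        rw [Subgroup.map_sup]
        exact sup_le le_sup_right (h2.trans le_sup_left)) fun h => h0 (eq_bot_iff.2 (le_sup_left.trans h.le))
      have h5 : M.IsComplement' (M.map α.toMonoidHom) :=
        Subgroup.isComplement'_of_disjoint_and_mul_eq_univ (disjoint_iff.2 h3) (by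
          rw [← Subgroup.normal_mul, h4]; rfl)
      have h6 := h5.card_mul_card
      rw [Subgroup.card_map_of_injective (f := α.toMonoidHom) α.injective] at h6
      exact (hsq ⟨_, h6.symm⟩).elim
    · exact eq_top_iff.2 ((key _ inferInstance (le_inf ((Subgroup.map_mono inf_le_right).trans h2)
        (Subgroup.map_mono inf_le_left)) h3).ge.trans inf_le_left)
  have hc : ¬ IsMulCommutative T := fun h => hp (Group.is_simple_iff_prime_card.1 hs)
  refine ⟨le_antisymm ?_ (hn _ inferInstance fun h => hc ?_), hs, hc⟩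
  · haveI : IsCyclic (G ⧸ T) := isCyclic_of_prime_card (p := 2) hT
    exact Subgroup.Normal.quotient_commutative_iff_commutator_le.1 inferInstance
  · haveI : IsMulCommutative G := (commutator_eq_bot_iff _).1 h
    infer_instance

/-- The extension of `T` by an element normalising it with square in `T`. -/
def extTwo {G : Type*} [Group G] (T : Subgroup G) {g : G} (h2 : g * g ∈ T)
    (h : ∀ t ∈ T, g * t * g⁻¹ ∈ T) : Subgroup G :=
  have h3 : ∀ t ∈ T, g⁻¹ * t * g ∈ T := fun t ht => by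
    convert T.mul_mem (T.mul_mem (T.inv_mem h2) (h t ht)) h2 using 1
    group
  { carrier := {x | x ∈ T ∨ x * g ∈ T}
    one_mem' := Or.inl T.one_mem
    mul_mem' := by
      rintro x y (hx | hx) (hy | hy)
      · exact Or.inl (T.mul_mem hx hy)
      · exact Or.inr (mul_assoc x y _ ▸ T.mul_mem hx hy)
      · right
        convert T.mul_mem hx (h3 _ hy) using 1
        group
      · left
        convert T.mul_mem (T.mul_mem hx (h3 _ hy)) (T.inv_mem h2) using 1
        group
    inv_mem' := by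
      rintro x (hx | hx)
      · exact Or.inl (T.inv_mem hx)
      · right
        convert T.mul_mem (h _ (T.inv_mem hx)) h2 using 1
        group }

theorem conj_mem_closure {G : Type*} [Group G] {S : Set G} {g : G}
    (h : ∀ s ∈ S, ∃ t ∈ Subgroup.closure S, g * s = t * g) {t : G} (ht : t ∈ Subgroup.closure S) :
    g * t * g⁻¹ ∈ Subgroup.closure S := by
  refine (Subgroup.closure_le ((Subgroup.closure S).comap (MulAut.conj g).toMonoidHom)).2 (fun s hs => ?_) ht
  obtain ⟨t, ht, e⟩ := h s hs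
  change g * s * g⁻¹ ∈ Subgroup.closure S
  rwa [e, mul_inv_cancel_right]

theorem inv_eq_pow {G : Type*} [Group G] {x : G} {n : ℕ} (h : x ^ (n + 1) = 1) : x⁻¹ = x ^ n :=
  inv_eq_of_mul_eq_one_left ((pow_succ x n).symm.trans h)

namespace Tits

/-- The ambient group. -/
abbrev Γ : Type := chevF4.group (ZMod 2)

/-- The value of a word in the root elements. -/
noncomputable def wd (w : List ℕ) : Γ := wordG xg (w.map fun r => (r, (1 : ZMod 2)))

/-- The value of a word in the generators. -/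
noncomputable def ev (w : List ℕ) : Γ := (w.map fun i => (gW.map wd).getD i 1).prod

theorem rep_ev (w : List ℕ) : RepB (ev w) (evalB 52 gM w) := by
  refine RepB.eval ?_ w
  rw [← gM_eq.2, List.forall₂_map_left_iff, List.forall₂_map_right_iff, List.forall₂_same]
  exact fun w hw => RepB.word agreeF4 (gM_eq.1 w hw)

theorem ev_cons (i : ℕ) (w : List ℕ) : ev (i :: w) = ev [i] * ev w := by
  simp only [ev, List.map_cons, List.prod_cons, List.map_nil, List.prod_nil, mul_one]

theorem ev_single (i : ℕ) : ev [i] = (gW.map wd).getD i 1 := mul_one _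

attribute [irreducible] ev

/-- An element of order thirteen. -/
noncomputable def ea : Γ := ev [0, 1, 2, 2, 3, 3]

/-- An element of order three. -/
noncomputable def eb : Γ := ev [0, 1]

theorem rep_pow (k : ℕ) : RepB (ea ^ k) (aM.getD (k % 13) []) := by
  induction k with
  | zero => exact aM_eq.1 ▸ RepB.one
  | succ k ih =>
    have := (aM_eq.2.1 ▸ rep_ev _).mul ih
    rwa [aM_eq.2.2 _ (Nat.mod_lt _ (by decide)), Nat.mod_add_mod, ← ea, ← pow_succ'] at this

theorem ea_pow : ea ^ 13 = 1 := (rep_pow 13).eq RepB.one aM_eq.1.symm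

theorem rep_b : RepB eb bM := bM_eq.1 ▸ rep_ev _

theorem rep_b2 : RepB (eb * eb) b2M := bM_eq.2.1 ▸ rep_b.mul rep_b

theorem eb_pow : eb ^ 3 = 1 := by
  rw [pow_three]
  exact (rep_b.mul rep_b2).eq RepB.one bM_eq.2.2.1

/-- The Tits group. -/
noncomputable def T0 : Subgroup Γ := Subgroup.closure {ea, eb}

theorem ea_mem : ea ∈ T0 := Subgroup.subset_closure (by simp)

theorem eb_mem : eb ∈ T0 := Subgroup.subset_closure (by simp)

theorem exists_mem (w : List ℕ) : ∃ t ∈ T0, RepB t (evalB 52 lM w) := by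
  refine ⟨_, Subgroup.list_prod_mem _ fun g hg => ?_, RepB.eval
    (L := (List.range 13).map (ea ^ ·) ++ [eb, eb * eb]) ?_ w⟩
  · obtain ⟨i, -, rfl⟩ := List.mem_map.1 hg
    rw [List.getD_eq_getElem?_getD]
    cases h : ((List.range 13).map (ea ^ ·) ++ [eb, eb * eb])[i]? with
    | none => exact T0.one_mem
    | some x =>
      have := List.mem_of_getElem? h
      simp only [List.mem_append, List.mem_map, List.mem_cons, List.not_mem_nil, or_false] at this
      rcases this with ⟨k, -, rfl⟩ | rfl | rfl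
      exacts [T0.pow_mem ea_mem k, eb_mem, T0.mul_mem eb_mem eb_mem]
  · refine List.rel_append ?_ (.cons rep_b (.cons rep_b2 .nil))
    rw [show aM = (List.range 13).map fun k => aM.getD (k % 13) [] from rfl, List.forall₂_map_left_iff,
      List.forall₂_map_right_iff, List.forall₂_same]
    exact fun k _ => rep_pow k

theorem mem_of_eq {w w' : List ℕ} (h : evalB 52 gM w = evalB 52 lM w') : ev w ∈ T0 := by
  obtain ⟨t, ht, h1⟩ := exists_mem w'
  exact (rep_ev w).eq h1 h ▸ ht

theorem conj_mem_of_eq {w w' : List ℕ}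
    (h : evalB 52 gM (2 :: w) = mulB (evalB 52 lM w') (evalB 52 gM [2])) :
    ∃ t ∈ T0, ev [2] * ev w = t * ev [2] := by
  obtain ⟨t, ht, h1⟩ := exists_mem w'
  exact ⟨t, ht, (ev_cons 2 w).symm.trans ((rep_ev _).eq (h1.mul (rep_ev _)) h)⟩

theorem conj_mem {t : Γ} (ht : t ∈ T0) : ev [2] * t * (ev [2])⁻¹ ∈ T0 := by
  refine conj_mem_closure ?_ ht
  rintro _ (rfl | rfl)
  exacts [conj_mem_of_eq words_eq.2.2.2.2.1, conj_mem_of_eq words_eq.2.2.2.2.2]

theorem chk_all {i k : ℕ} (hi : i < 960) (hk : k < 13) : ∃ j < 960, ∃ l,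
    appB (baM.getD k []) (rep i) = appB (aM.getD (l % 13) []) (rep j) := by
  have key : ∀ o, chk o 120 = true → o ≤ i → i < o + 120 → ∃ d, chk1 i k d = true := fun o h h1 h2 => by
    have := allLt_iff.1 (allLt_iff.1 h (i - o) (by omega)) k hk
    rw [show Nat.add o (i - o) = i from Nat.add_sub_cancel' h1] at this
    exact ⟨_, this⟩
  obtain ⟨d, hd⟩ : ∃ d, chk1 i k d = true := by
    by_cases h : i < 480
    · by_cases h : i < 240
      · by_cases h : i < 120
        exacts [key _ chk_0 (by omega) (by omega), key _ chk_1 (by omega) (by omega)]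
      · by_cases h : i < 360
        exacts [key _ chk_2 (by omega) (by omega), key _ chk_3 (by omega) (by omega)]
    · by_cases h : i < 720
      · by_cases h : i < 600
        exacts [key _ chk_4 (by omega) (by omega), key _ chk_5 (by omega) (by omega)]
      · by_cases h : i < 840
        exacts [key _ chk_6 (by omega) (by omega), key _ chk_7 (by omega) (by omega)]
  simp only [chk1, bAnd_eq, Bool.and_eq_true, Nat.ble_eq, Nat.beq_eq] at hd
  exact ⟨_, Nat.lt_succ_of_le hd.1, d, hd.2⟩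

/-- The orbit. -/
def Orb (v : chevF4.Idx → ZMod 2) : Prop := ∃ i < 960, ∃ k, v = mat (ea ^ k) *ᵥ bv _ _ (rep i)

theorem mat_mul (g h : Γ) (v : chevF4.Idx → ZMod 2) : mat (g * h) *ᵥ v = mat g *ᵥ (mat h *ᵥ v) :=
  (mulVec_mulVec _ _ _).symm

theorem orb_pow {g : Γ} (h : ∀ v, Orb v → Orb (mat g *ᵥ v)) (n : ℕ) :
    ∀ v, Orb v → Orb (mat (g ^ n) *ᵥ v) := by
  induction n with
  | zero => exact fun v hv => (one_mulVec v).symm ▸ hv
  | succ n ih => exact fun v hv => by rw [pow_succ, mat_mul]; exact ih _ (h v hv)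

theorem orb_a (v) : Orb v → Orb (mat ea *ᵥ v) := by
  rintro ⟨i, hi, k, rfl⟩
  exact ⟨i, hi, k + 1, by rw [pow_succ', mat_mul]⟩

theorem orb_b (v) : Orb v → Orb (mat eb *ᵥ v) := by
  rintro ⟨i, hi, k, rfl⟩
  obtain ⟨j, hj, l, e⟩ := chk_all hi (Nat.mod_lt k (by decide))
  refine ⟨j, hj, l, ?_⟩
  rw [← mat_mul, (rep_b.mul (rep_pow k)).app, bM_eq.2.2.2 _ (Nat.mod_lt k (by decide)), e, (rep_pow l).app]

theorem orb_T0 {t : Γ} (ht : t ∈ T0) : ∀ v, Orb v → Orb (mat t *ᵥ v) := by
  induction ht using Subgroup.closure_induction'' with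
  | mem x hx =>
    rcases hx with rfl | rfl
    exacts [orb_a, orb_b]
  | inv_mem x hx =>
    rcases hx with rfl | rfl
    · rw [inv_eq_pow ea_pow]
      exact orb_pow orb_a _
    · rw [inv_eq_pow eb_pow]
      exact orb_pow orb_b _
  | one => exact fun v hv => (one_mulVec v).symm ▸ hv
  | mul x y _ _ hx hy => exact fun v hv => by rw [mat_mul]; exact hx _ (hy v hv)

theorem g_not_mem : ev [2] ∉ T0 := fun h => by
  obtain ⟨i, hi, k, e⟩ := orb_T0 h (bv _ _ (rep 0)) ⟨0, by decide, 0, (one_mulVec _).symm⟩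
  have h1 := congrArg (mulVec (mat (ea ^ (12 * k)))) e
  rw [← mat_mul _ (ea ^ k), ← pow_add, show 12 * k + k = 13 * k by ring, pow_mul ea 13, ea_pow, one_pow,
    (rep_ev _).app, (rep_pow _).app, show mat (1 : Γ) = 1 from rfl, one_mulVec] at h1
  have h2 := allLt_iff.1 (allLt_iff.1 not_orb _ (Nat.mod_lt (12 * k) (by decide))) i hi
  simp only [Bool.not_eq_true', ← Bool.not_eq_true, Nat.beq_eq] at h2
  exact h2 (bv_inj h1).symm

variable {θ ψ : ZMod 2 →+* ZMod 2} {σ : Γ →* Γ} (E : F4Data 1 θ ψ σ)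

theorem wd_mem {w : List ℕ} (h : (w.map fun r => (r, (1 : ZMod 2))) ∈ f4Words (ZMod 2) 1) :
    wd w ∈ E.tw.G1 := Subgroup.subset_closure ⟨_, h, rfl⟩

theorem x_zero (r : ℕ) : xN (xg (D := chevF4) (F := ZMod 2)) r 0 = 1 := by
  unfold xN
  split_ifs
  exacts [(side_pos hF4).zero _, rfl]

theorem ev_mem (w : List ℕ) : ev w ∈ E.tw.G1 := by
  induction w with
  | nil => unfold ev; exact Subgroup.one_mem _
  | cons i w ih =>
    rw [ev_cons, ev_single]
    refine Subgroup.mul_mem _ ?_ ih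
    have h2 : wd [27, 25, 28] = wordG xg (b2ClassWord 1 f4a f4b f4ab f4aab (1 : ZMod 2) 0) := by
      simp only [wd, b2ClassWord, List.map_cons, List.map_nil, wordG_cons, one_pow, add_zero, mul_one,
        zero_pow two_ne_zero, x_zero, one_mul]
      rfl
    have h3 : wd [20, 22, 19] = wordG xg (b2ClassWord 1 f4ma f4mb f4mab f4maab (1 : ZMod 2) 0) := by
      simp only [wd, b2ClassWord, List.map_cons, List.map_nil, wordG_cons, one_pow, add_zero, mul_one,
        zero_pow two_ne_zero, x_zero, one_mul]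
      rfl
    match i with
    | 0 => exact Subgroup.subset_closure ⟨_, Or.inl ⟨1, Or.inl rfl⟩, rfl⟩
    | 1 => exact Subgroup.subset_closure ⟨_, Or.inl ⟨1, Or.inr rfl⟩, rfl⟩
    | 2 => exact Subgroup.subset_closure ⟨_, Or.inr ⟨1, 0, Or.inl rfl⟩, h2.symm⟩
    | 3 => exact Subgroup.subset_closure ⟨_, Or.inr ⟨1, 0, Or.inr rfl⟩, h3.symm⟩
    | _ + 4 => exact Subgroup.one_mem _

theorem G1_le {K : Subgroup Γ} (h : ∀ i < 4, ev [i] ∈ K) : E.tw.G1 ≤ K := by
  have h0 : wd [33, 24] ∈ K := by have := h 0 (by decide); rwa [ev_single] at this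
  have h1 : wd [14, 23] ∈ K := by have := h 1 (by decide); rwa [ev_single] at this
  have h2 : wd [27, 25, 28] ∈ K := by have := h 2 (by decide); rwa [ev_single] at this
  have h3 : wd [20, 22, 19] ∈ K := by have := h 3 (by decide); rwa [ev_single] at this
  have key : ∀ (w : List ℕ) (i n : ℕ), (∀ r ∈ w, r < 48) → i < 4 →
      wordB tabF4 48 4 w = evalB 52 gM (List.replicate n i) → wd w ∈ K := fun w i n hw hi e => by
    rw [wd, (RepB.word agreeF4 hw).eq (rep_ev _) e]
    clear e
    induction n with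
    | zero => unfold ev; exact K.one_mem
    | succ n ih => rw [List.replicate_succ, ev_cons]; exact K.mul_mem (h i hi) ih
  have h4 := key _ 2 2 (by decide) (by decide) gens_eq.1
  have h5 := key _ 2 3 (by decide) (by decide) gens_eq.2.1
  have h6 := key _ 3 2 (by decide) (by decide) gens_eq.2.2.1
  have h7 := key _ 3 3 (by decide) (by decide) gens_eq.2.2.2
  have hz : ∀ t : ZMod 2, t = 0 ∨ t = 1 := by decide
  have h11 : (1 + 1 : ZMod 2) = 0 := rfl
  have hf : f4a = 27 ∧ f4b = 25 ∧ f4ab = 28 ∧ f4aab = 30 ∧ f4ma = 20 ∧ f4mb = 22 ∧ f4mab = 19 ∧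
    f4maab = 17 := by decide
  refine (Subgroup.closure_le _).2 ?_
  rintro _ ⟨w, ⟨t, rfl | rfl⟩ | ⟨t, u, rfl | rfl⟩, rfl⟩
  · rcases hz t with rfl | rfl
    · simp [f4PairWord, x_zero]
    · exact h0
  · rcases hz t with rfl | rfl
    · simp [f4PairWord, x_zero]
    · exact h1
  · rcases hz t with rfl | rfl <;> rcases hz u with rfl | rfl
    · simp [b2ClassWord, x_zero]
    · simpa [b2ClassWord, x_zero, wd, hf] using h4
    · simpa [b2ClassWord, x_zero, wd, hf] using h2
    · simpa [b2ClassWord, x_zero, wd, hf, h11] using h5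
  · rcases hz t with rfl | rfl <;> rcases hz u with rfl | rfl
    · simp [b2ClassWord, x_zero]
    · simpa [b2ClassWord, x_zero, wd, hf] using h6
    · simpa [b2ClassWord, x_zero, wd, hf] using h3
    · simpa [b2ClassWord, x_zero, wd, hf, h11] using h7

theorem T0_le : T0 ≤ E.tw.G1 := (Subgroup.closure_le _).2 (by
  rintro _ (rfl | rfl) <;> exact ev_mem E _)

theorem mem_or {x : Γ} (hx : x ∈ E.tw.G1) : x ∈ T0 ∨ x * ev [2] ∈ T0 := by
  have h2 : ev [2] * ev [2] ∈ T0 := ev_cons 2 [2] ▸ mem_of_eq words_eq.2.2.1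
  refine G1_le E (K := extTwo T0 h2 fun _ => conj_mem) (fun i hi => ?_) hx
  interval_cases i
  exacts [Or.inl (mem_of_eq words_eq.1), Or.inl (mem_of_eq words_eq.2.1), Or.inr h2,
    Or.inr (ev_cons 3 [2] ▸ mem_of_eq words_eq.2.2.2.1)]

theorem index_eq : (T0.subgroupOf E.tw.G1).index = 2 := by
  refine Subgroup.index_eq_two_iff.2 ⟨⟨_, ev_mem E [2]⟩, fun x => ?_⟩
  simp only [Subgroup.mem_subgroupOf, Subgroup.coe_mul]
  by_cases h : (x : Γ) ∈ T0
  · exact Or.inr ⟨h, fun h' => g_not_mem ((T0.mul_mem_cancel_left h).1 h')⟩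
  · exact Or.inl ⟨(mem_or E x.2).resolve_left h, h⟩

theorem isPGroup_B : IsPGroup 2 E.tw.toBN.B := by
  have h1 : (gam (ZMod 2) hF4).Bor = (gam (ZMod 2) hF4).U := by
    rw [RGD0.Bor, sup_eq_left]
    erw [gam_H]
    rintro _ ⟨c, rfl⟩
    rw [Subsingleton.elim c 1, map_one]
    exact Subgroup.one_mem _
  have h2 := E.card_U
  rw [← E.map_G1, ← map_U hF4, up_card, ← h1] at h2
  refine IsPGroup.of_card (n := 12) ?_
  rw [← show _ = 2 ^ 12 from h2]
  change Nat.card ((gam (ZMod 2) hF4).Bor.subgroupOf E.tw.G1) = _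
  rw [← Subgroup.inf_subgroupOf_right]
  exact Nat.card_congr (Subgroup.subgroupOfEquivOfLe inf_le_right).toEquiv

theorem le_normal (K : Subgroup E.tw.G1) (hK : K.Normal) (h : K ≠ ⊥) : T0.subgroupOf E.tw.G1 ≤ K := by
  have h1 := (normal_eq_bot_or_sup (P := E.tw.toBN) (E.tw.irreducible (Weyl.irrF4 _)) E.core K).resolve_left h
  have h2 : IsPGroup 2 (E.tw.G1 ⧸ K) := (isPGroup_B E).of_surjective _ (surj_of_sup h1)
  have h3 : ∀ (x : E.tw.G1) (n : ℕ), Odd n → (x : Γ) ^ n = 1 → x ∈ K := fun x n hn hx => by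
    obtain ⟨k, hk⟩ := h2 (x : E.tw.G1 ⧸ K)
    rw [← QuotientGroup.eq_one_iff, ← orderOf_eq_one_iff]
    refine Nat.eq_one_of_dvd_coprimes (Nat.Coprime.pow_left k hn.coprime_two_left)
      (orderOf_dvd_of_pow_eq_one hk) (orderOf_dvd_of_pow_eq_one ?_)
    rw [← QuotientGroup.mk_pow, show x ^ n = 1 from Subtype.ext hx, QuotientGroup.mk_one]
  have h4 : T0 ≤ K.map E.tw.G1.subtype := (Subgroup.closure_le _).2 (by
    rintro _ (rfl | rfl)
    exacts [⟨⟨_, ev_mem E _⟩, h3 _ 13 (by decide) ea_pow, rfl⟩,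
      ⟨⟨_, ev_mem E _⟩, h3 _ 3 (by decide) eb_pow, rfl⟩])
  exact fun x hx => (Subgroup.mem_map_iff_mem E.tw.G1.subtype_injective).1 (h4 hx)

theorem main : (commutator (twistedF4 (ZMod 2) 1)).index = 2 ∧ IsSimpleGroup TitsGroup ∧
    ¬ IsMulCommutative TitsGroup ∧ Nat.card TitsGroup = 2 ^ 11 * 3 ^ 3 * 5 ^ 2 * 13 := by
  obtain ⟨θ, ψ, σ, E⟩ := f4Data (K := ZMod 2) (m := 0) rfl
  have hc := E.card (q := 2) rfl
  change F4Data 1 θ ψ σ at E
  change Nat.card (twistedF4 (ZMod 2) 1) = 35942400 at hc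
  unfold TitsGroup
  rw [← E.map_G1] at hc ⊢
  let e := (upEquiv E.tw.G1).toMonoidHom
  have he : Function.Surjective e := (upEquiv E.tw.G1).surjective
  haveI : Finite (E.tw.G1.map (chevF4.group (ZMod 2)).subtype) := Nat.finite_of_card_ne_zero (by omega)
  have h1 : ((T0.subgroupOf E.tw.G1).comap e).index = 2 := by
    rw [Subgroup.index_comap_of_surjective _ he, index_eq]
  have h2 := ((T0.subgroupOf E.tw.G1).comap e).card_mul_index
  rw [h1, hc] at h2
  have h3 : Nat.card ((T0.subgroupOf E.tw.G1).comap e) = 17971200 := by omega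
  obtain ⟨h4, h5, h6⟩ := simple_of_index_two _ h1 (fun K hK h => by
    have := le_normal E (K.map e) (hK.map e he) (by
      rwa [Ne, Subgroup.map_eq_bot_iff_of_injective _ (upEquiv E.tw.G1).injective])
    rw [← Subgroup.comap_map_eq_self_of_injective (f := e) (upEquiv E.tw.G1).injective K]
    exact Subgroup.comap_mono this) (by rw [h3]; norm_num) (by rw [h3]; norm_num)
  rw [h4]
  exact ⟨h1, h5, h6, h3⟩

end Tits

end CA.CG
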