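import Cfsg.Agent.Lib.CG.Types

/-! Twisted subgroups of a Chevalley group: transport to `GL`, graph endomorphisms, the two sides. -/

set_option autoImplicit false
set_option linter.unusedSectionVars false
set_option maxHeartbeats 400000

namespace CA.BN

/-- Transport of a (B, N)-pair along an isomorphism. -/
def bnComap {G G' : Type*} [Group G] [Group G'] (P : Cfsg.BNPair G) (e : G' ≃* G) : Cfsg.BNPair G' where
  B := P.B.comap e.toMonoidHom
  N := P.N.comap e.toMonoidHom
  S := e ⁻¹' P.S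
  sup_eq_top := by
    rw [Subgroup.comap_sup_eq (f := e.toMonoidHom) _ _ e.surjective, P.sup_eq_top, Subgroup.comap_top]
  conj_mem := fun n hn t ht => by simpa using P.conj_mem (e n) hn (e t) ht
  subset := fun s hs => P.subset hs
  sq_mem := fun s hs => by simpa using P.sq_mem (e s) hs
  inj := fun s hs s' hs' h => e.injective (P.inj _ hs _ hs' (by simpa using h))
  closure_sup := by
    have : Subgroup.closure (e ⁻¹' P.S) = (Subgroup.closure P.S).comap e.toMonoidHom := by
      rw [← Subgroup.comap_map_eq_self_of_injective (f := e.toMonoidHom) e.injective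
        (Subgroup.closure _), MonoidHom.map_closure]
      congr 2
      exact Set.image_preimage_eq _ e.surjective
    rw [← Subgroup.comap_inf, this, Subgroup.comap_sup_eq (f := e.toMonoidHom) _ _ e.surjective,
      P.closure_sup]
  mul_mem_union := fun s hs n hn b hb => by
    have key : ∀ g m : G', e g ∈ DoubleCoset.doubleCoset (e m) (P.B : Set G) P.B →
        g ∈ DoubleCoset.doubleCoset m (P.B.comap e.toMonoidHom : Set G') (P.B.comap e.toMonoidHom) := by
      intro g m h
      obtain ⟨a, ha, c, hc, e'⟩ := DoubleCoset.mem_doubleCoset.1 h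
      exact DoubleCoset.mem_doubleCoset.2 ⟨e.symm a, by simpa using ha, e.symm c, by simpa using hc,
        e.injective (by simpa using e')⟩
    have := P.mul_mem_union (e s) hs (e n) hn (e b) hb
    rw [← map_mul, ← map_mul, ← map_mul] at this
    exact this.imp (key _ _) (key _ _)
  conj_ne := fun s hs h => P.conj_ne (e s) hs (by
    ext g
    obtain ⟨g, rfl⟩ := e.surjective g
    change _ ↔ g ∈ (P.B.comap e.toMonoidHom : Set G')
    rw [← h]
    constructor
    · rintro ⟨b, hb, e'⟩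
      exact ⟨e.symm b, by simpa using hb, e.injective (by simpa using e')⟩
    · rintro ⟨b, hb, rfl⟩
      exact ⟨e b, hb, by simp⟩)

section Transport

variable {G : Type*} [Group G] {G0 : Subgroup G} (G1 : Subgroup G0)

/-- A subgroup of a subgroup as a subgroup of the ambient group. -/
noncomputable def upEquiv : G1.map G0.subtype ≃* G1 :=
  (Subgroup.equivMapOfInjective G1 _ G0.subtype_injective).symm

theorem upEquiv_coe (g : G1.map G0.subtype) : ((upEquiv G1 g : G0) : G) = g := by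
  obtain ⟨g, rfl⟩ := (Subgroup.equivMapOfInjective G1 _ G0.subtype_injective).surjective g
  rw [upEquiv, MulEquiv.symm_apply_apply]; rfl

theorem up_subgroupOf (K : Subgroup G0) :
    (K.map G0.subtype ⊓ G1.map G0.subtype).subgroupOf (G1.map G0.subtype) =
      (K.subgroupOf G1).comap (upEquiv G1).toMonoidHom := by
  ext g
  rw [Subgroup.inf_subgroupOf_right, Subgroup.mem_subgroupOf, ← upEquiv_coe]
  exact Subgroup.mem_map_iff_mem G0.subtype_injective

theorem up_card (K : Subgroup G0) :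
    Nat.card ↥(K.map G0.subtype ⊓ G1.map G0.subtype) = Nat.card ↥(K ⊓ G1) := by
  rw [← Subgroup.map_inf _ _ _ G0.subtype_injective, Subgroup.card_map_of_injective G0.subtype_injective]

theorem up_core {K : Subgroup G0} (h : (K.subgroupOf G1).normalCore = ⊥) :
    ((K.map G0.subtype ⊓ G1.map G0.subtype).subgroupOf (G1.map G0.subtype)).normalCore = ⊥ := by
  rw [up_subgroupOf, eq_bot_iff]
  intro g hg
  have : upEquiv G1 g ∈ (K.subgroupOf G1).normalCore := fun b => by
    simpa using hg ((upEquiv G1).symm b)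
  rw [h, Subgroup.mem_bot] at this
  simpa using this

theorem perfect_of_equiv {A B : Type*} [Group A] [Group B] (e : A ≃* B) (h : commutator B = ⊤) :
    commutator A = ⊤ := by
  rw [commutator_def, ← Subgroup.map_top_of_surjective e.symm.toMonoidHom e.symm.surjective,
    ← Subgroup.map_commutator, ← commutator_def, h]

theorem up_hom {W' : Type*} [Group W'] {N H : Subgroup G0} (φ : ↥(N ⊓ G1) →* W')
    (h1 : Function.Surjective φ) (h2 : φ.ker = (H ⊓ G1).subgroupOf (N ⊓ G1)) :
    ∃ φ : ↥(N.map G0.subtype ⊓ G1.map G0.subtype) →* W', Function.Surjective φ ∧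
      φ.ker = (H.map G0.subtype ⊓ G1.map G0.subtype).subgroupOf
        (N.map G0.subtype ⊓ G1.map G0.subtype) := by
  rw [← Subgroup.map_inf _ _ _ G0.subtype_injective, ← Subgroup.map_inf _ _ _ G0.subtype_injective]
  refine ⟨φ.comp (upEquiv (N ⊓ G1)).toMonoidHom, h1.comp (upEquiv _).surjective, ?_⟩
  ext g
  rw [← MonoidHom.comap_ker, h2, Subgroup.mem_subgroupOf, ← upEquiv_coe]
  exact (Subgroup.mem_map_iff_mem (K := H ⊓ G1) G0.subtype_injective).symm

end Transport

open CA.Weyl RGD0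

variable {B R W : Type*} [Fintype B] [DecidableEq B] [Group W] [Fintype R]
variable {Φ : RS B R W} {G : Type*} [Group G]

theorem ChevSys.rep_conj {F : Type*} [Field F] (C : ChevSys Φ F G) {n : G} {w : W}
    (hn : C.rgd0.Rep n w) (r : R) : ∃ k : F, k ≠ 0 ∧ ∀ t, n * C.x r t * n⁻¹ = C.x (Φ.act w r) (k * t) := by
  obtain ⟨ω, rfl⟩ := Φ.cs.wordProd_surjective w
  obtain ⟨k, hk, h1⟩ := C.sc_of_mem_H (C.rep_iff.1 hn) (Φ.act (Φ.cs.wordProd ω) r)
  obtain ⟨η, h2, h3, -⟩ := C.cj_nw ω r
  refine ⟨k * η, mul_ne_zero hk (ChevSys.ne_zero_of_sq h2), fun t => ?_⟩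
  rw [mul_assoc k, ← h1, ← h3]; group

namespace Tw

variable {Γ : RGD Φ G} {O : Type*} (T : Tw Γ O)

/-- A subgroup of `G¹` normalised by `G¹` which contains the fixed points of the `U_I` contains those of
the `V_I`. -/
theorem V_mem_of_U {K : Subgroup G} (hK : T.G1 ≤ Subgroup.normalizer (K : Set G)) (o : O)
    (h : ∀ u ∈ Γ.UJ (T.I o), T.σ u = u → u ∈ K) {v : G} (hv : v ∈ Γ.VJ (T.I o)) (hv' : T.σ v = v) :
    v ∈ K := by
  have hs := T.rep_sO o
  have h1 : T.sO o * v * (T.sO o : G)⁻¹ ∈ Γ.UJ (T.I o) := hs.conj_XS (fun r hr => ⟨by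
    have := (Φ.longest_iff (T.long o) ((Φ.pos_neg_iff r).2 hr.1)).2 (Φ.inSub_neg_iff.2 hr.2)
    rwa [Φ.act_neg, Φ.not_pos_neg_iff] at this, (Φ.inSub_act_iff (T.long o).1).2 hr.2⟩) hv
  exact (Subgroup.mem_normalizer_iff.1 (hK (T.sO o).2) v).2
    (h _ h1 (by simp [T.fix _ (T.sO o).2, hv']))

theorem isSolvable_Bor (h : Group.IsSolvable Γ.Bor) : Group.IsSolvable (Γ.Bor.subgroupOf T.G1) :=
  Group.isSolvable_of_isSolvable_injective (f := (T.G1.subtype.comp (Subgroup.subtype _)).codRestrict Γ.Bor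
    fun g => g.2) fun _ _ e => Subtype.ext (Subtype.ext (congrArg (fun z : Γ.Bor => (z : G)) e))

end Tw

/-- The derived group of a subgroup, in the ambient group. -/
theorem perfect_of_le {G : Type*} [Group G] {G1 : Subgroup G} (h : G1 ≤ ⁅G1, G1⁆) :
    commutator G1 = ⊤ := by
  apply Subgroup.map_injective G1.subtype_injective
  rw [commutator_def, Subgroup.map_commutator, ← MonoidHom.range_eq_map, Subgroup.range_subtype]
  exact le_antisymm (Subgroup.commutator_le_self _) h

theorem le_normalizer_commutator {G : Type*} [Group G] (G1 : Subgroup G) :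
    G1 ≤ Subgroup.normalizer ((⁅G1, G1⁆ : Subgroup G) : Set G) :=
  Subgroup.normalizer_commutator_ge_left _ _

end CA.BN

namespace CA.CG

open Cfsg.Lie Cfsg.Lie.ChevalleyDatum CA.Chev CA.Weyl CA.BN Matrix

variable {D : ChevalleyDatum} [hD : IsRoot D] {F : Type*} [Field F] [hM : MatFacts D F]

theorem map_gen (S : Set (List (ℕ × F))) :
    (Subgroup.closure (wordG (xg (D := D)) '' S)).map (D.group F).subtype = D.genSubgroup F S := by
  rw [MonoidHom.map_closure, genSubgroup]
  congr 1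
  ext g
  exact ⟨by rintro ⟨_, ⟨w, hw, rfl⟩, rfl⟩; exact ⟨w, hw, mat_wordG w⟩,
    fun ⟨w, hw, e⟩ => ⟨_, ⟨w, hw, rfl⟩, Units.ext ((mat_wordG w).trans e.symm)⟩⟩

/-! ### Graph endomorphisms -/

/-- An endomorphism permuting the fundamental root subgroups. -/
structure GEnd (ρ : Equiv.Perm (Nd D)) (f : Nd D → F →+* F) (σ : D.group F →* D.group F) : Prop where
  pos : ∀ i t, σ (xg (Chev.simple i) t) = xg (Chev.simple (ρ i)) (f i t)
  neg : ∀ i t, σ (xg (Chev.neg (Chev.simple i)) t) = xg (Chev.neg (Chev.simple (ρ i))) (f i t)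

/-- The action of a graph endomorphism on the parameters of the torus. -/
def twc (ρ : Equiv.Perm (Nd D)) (f : Nd D → F →+* F) : (Nd D → Fˣ) →* (Nd D → Fˣ) where
  toFun c j := Units.map (f (ρ.symm j)).toMonoidHom (c (ρ.symm j))
  map_one' := by funext j; simp
  map_mul' c d := by funext j; simp

omit hD hM in
theorem twc_apply (ρ : Equiv.Perm (Nd D)) (f : Nd D → F →+* F) (c : Nd D → Fˣ) (i : Nd D) :
    (twc ρ f c (ρ i) : F) = f i (c i) := by simp [twc]

omit hD hM in
theorem twc_eq_iff (ρ : Equiv.Perm (Nd D)) (f : Nd D → F →+* F) (c d : Nd D → Fˣ) :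
    twc ρ f c = d ↔ ∀ i, f i (c i) = d (ρ i) := by
  constructor
  · rintro rfl i; exact (twc_apply ρ f c i).symm
  · intro h
    funext j
    obtain ⟨i, rfl⟩ := ρ.surjective j
    exact Units.ext (by rw [twc_apply, h])

/-- `σ` maps the root subgroups of `±r` to those of `±r'`, by `φ` up to a sign. -/
def Sx (σ : D.group F →* D.group F) (r r' : Rt D) (φ : F →+* F) : Prop := ∃ ε : F, ε * ε = 1 ∧
  (∀ t, σ (xg r t) = xg r' (ε * φ t)) ∧ ∀ t, σ (xg (Chev.neg r) t) = xg (Chev.neg r') (ε * φ t)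

omit hM in
theorem map_eta (φ : F →+* F) (r s : Rt D) : φ (eta r s) = eta r s := map_intCast φ _

variable [hE : IsEta D]

theorem n_conj (i : Nd D) (r : Rt D) (t : F) : nG xg (Chev.simple i) 1 * xg r t *
    (nG xg (Chev.simple i) 1)⁻¹ = xg (sRefl i r) (eta (Chev.simple i) r * t) := by
  simpa using (stFam_xg (F := F)).nconj (Chev.simple i) r 1 t one_ne_zero

namespace GEnd

variable {ρ : Equiv.Perm (Nd D)} {f : Nd D → F →+* F} {σ : D.group F →* D.group F} (hσ : GEnd ρ f σ)
include hσ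

theorem map_n (i : Nd D) (t : F) : σ (nG xg (Chev.simple i) t) = nG xg (Chev.simple (ρ i)) (f i t) := by
  simp [nG, hσ.pos, hσ.neg]

theorem map_h (i : Nd D) (t : F) : σ (hG xg (Chev.simple i) t) = hG xg (Chev.simple (ρ i)) (f i t) := by
  simp [hG, hσ.map_n]

theorem map_tor (c : Nd D → Fˣ) : σ (tor D F c) = tor D F (twc ρ f c) := by
  rw [← Finset.univ_prod_mulSingle c]
  induction (Finset.univ : Finset (Nd D)) using Finset.induction_on with
  | empty => simp
  | insert i s hi ih =>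
    rw [Finset.prod_insert hi, map_mul, map_mul, map_mul, map_mul, ih, tor_single, hσ.map_h]
    congr 1
    rw [(twc_eq_iff ρ f _ (Pi.mulSingle (ρ i) (Units.map (f i).toMonoidHom (c i)))).2, tor_single]
    · rfl
    · intro j
      by_cases hj : j = i
      · subst hj; simp
      · simp [hj]

theorem sx_simple (i : Nd D) : Sx σ (Chev.simple i) (Chev.simple (ρ i)) (f i) :=
  ⟨1, by simp, fun t => by rw [hσ.pos, one_mul], fun t => by rw [hσ.neg, one_mul]⟩

theorem sx_refl {r r' : Rt D} {φ : F →+* F} (h : Sx σ r r' φ) (i : Nd D) :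
    Sx σ (sRefl i r) (sRefl (ρ i) r') φ := by
  obtain ⟨ε, h1, h2, h3⟩ := h
  have e1 := eta_mul_self' (F := F) (Chev.simple i) r
  have e2 := eta_mul_self' (F := F) (Chev.simple (ρ i)) r'
  refine ⟨eta (Chev.simple (ρ i)) r' * ε * eta (Chev.simple i) r, by
    linear_combination (ε * ε * eta (Chev.simple i) r * eta (Chev.simple i) r) * e2 +
      (eta (Chev.simple i) r * eta (Chev.simple i) r) * h1 + e1, fun t => ?_, fun t => ?_⟩
  · have := n_conj i r (eta (Chev.simple i) r * t)
    rw [← mul_assoc (eta _ _ : F), e1, one_mul] at this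
    rw [← this, map_mul, map_mul, map_inv, hσ.map_n, map_one, h2, n_conj, map_mul, map_eta]
    congr 1; ring
  · have := n_conj i (Chev.neg r) (eta (Chev.simple i) r * t)
    rw [hE.eta_neg, ← mul_assoc (eta _ _ : F), e1, one_mul, sRefl_neg] at this
    rw [← this, map_mul, map_mul, map_inv, hσ.map_n, map_one, h3, n_conj, map_mul, map_eta,
      hE.eta_neg, sRefl_neg]
    congr 1; ring

variable {M : CoxeterMatrix (Nd D)} (h : CartanCox (cartA D) M) (hρ : ∀ i j, M (ρ i) (ρ j) = M i j)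

/-- The twist of the root group data defined by a graph endomorphism. -/
noncomputable def tw0 : Tw0 (gam F h) where
  σ := σ
  ρ := ρ
  τ := (exists_aut (rs h).cs ρ hρ).choose
  hτ := (exists_aut (rs h).cs ρ hρ).choose_spec
  hX := fun i x hx => by
    obtain ⟨t, rfl⟩ := mem_rtX.1 hx
    rw [rs_simple, rs_simple, hσ.pos]
    exact x_mem_rtX _ _
  hH := fun k hk => by
    rw [gam_H] at hk ⊢
    obtain ⟨c, rfl⟩ := hk
    exact ⟨_, (hσ.map_tor c).symm⟩
  hn := fun i => ⟨_, rep_nG h i one_ne_zero, by rw [hσ.map_n, map_one]; exact rep_nG h _ one_ne_zero⟩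

/-- The twisted group generated by a set of words. -/
noncomputable def tw {A : Nd D → Nd D → ℤ} (hA : CartanCox A M) {cols : List (List ℤ)}
    (hc : ∀ i : Nd D, cols.getD i.val [] = List.ofFn fun k => A k i) {k : ℕ}
    {Os : Fin k → List (Nd D) × List (Nd D)} (hO : OrbOK cols ρ Os) (S : Set (List (ℕ × F)))
    (fix : ∀ w ∈ S, σ (wordG xg w) = wordG xg w)
    (hU : ∀ o, ∀ u ∈ (gam F h).UJ {i | i ∈ (Os o).1}, σ u = u → u ∈ Subgroup.closure (wordG xg '' S))
    (hV : ∀ o, ∀ u ∈ (gam F h).VJ {i | i ∈ (Os o).1}, σ u = u → u ∈ Subgroup.closure (wordG xg '' S))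
    (hn : ∀ o, ∃ u ∈ (gam F h).VJ {i | i ∈ (Os o).1}, σ u = u ∧ u ≠ 1) : Tw (gam F h) (Fin k) where
  toTw0 := hσ.tw0 h hρ
  I := fun o => {i | i ∈ (Os o).1}
  wI := fun o => (rs h).cs.wordProd (Os o).2
  long := fun o => (hA.isLongest_of_longb (rs h).cs hc _ (hO.2 o).2.2).1
  cov := hO.1
  orb := hO.orb
  stab := fun o => (hO.2 o).1
  G1 := Subgroup.closure (wordG xg '' S)
  fix := fun g hg => (Subgroup.closure_le (σ.eqLocus (MonoidHom.id _))).2 (by
    rintro _ ⟨w, hw, rfl⟩
    exact fix w hw) hg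
  U_le := hU
  V_le := hV
  nontriv := hn

end GEnd

/-! ### The two sides -/

/-- `l` lists the positive roots of the subsystem on `L`, in increasing order for `φ`. -/
def ListOK (L : List (Nd D)) (l : List (Rt D)) (φ : Lat D) : Prop :=
  (∀ r, r ∈ l ↔ Pos r ∧ ∀ k, k ∉ L → cor r k = 0) ∧
    (l.Pairwise fun a b => φ ⬝ᵥ wt a < φ ⬝ᵥ wt b) ∧ ∀ r ∈ l, 0 < φ ⬝ᵥ wt r

instance decListOK (L : List (Nd D)) (l : List (Rt D)) (φ : Lat D) : Decidable (ListOK L l φ) := by
  unfold ListOK; infer_instance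

/-- The commutator formula for `-r`, `-s` mirrors that for `r`, `s`. -/
def NegOK (D : ChevalleyDatum) (r s : ℕ) : Prop := D.commTerms (D.neg r) (D.neg s) =
  (D.commTerms r s).map fun c => (D.neg c.1, (-1) ^ (c.2.2.1 + c.2.2.2 + 1) * c.2.1, c.2.2)

instance decNegOK (D : ChevalleyDatum) (r s : ℕ) : Decidable (NegOK D r s) := by
  unfold NegOK; infer_instance

/-- The mirrored family `x_{-r}(-t)`. -/
def yg (r : Rt D) (t : F) : D.group F := xg (Chev.neg r) (-t)

/-- The positive or the negative unipotent subgroup with its family of root elements. -/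
structure Side (y : Rt D → F → D.group F) (Z : Set (Nd D) → Subgroup (D.group F)) : Prop where
  add : ∀ r t u, y r (t + u) = y r t * y r u
  comm : ∀ r s : Rt D, s ≠ r → s ≠ Chev.neg r → NegOK D r s → ∀ t u,
    y s u * y r t = y r t * y s u * wordG y (D.commWord F r s t u)
  ex : ∀ {L l φ}, ListOK L l φ → ∀ u, u ∈ Z {i | i ∈ L} ↔ ∃ t, u = oprod y l t
  inj : ∀ {φ : Lat D} {l : List (Rt D)}, (l.Pairwise fun a b => φ ⬝ᵥ wt a < φ ⬝ᵥ wt b) →
    (∀ r ∈ l, 0 < φ ⬝ᵥ wt r) → ∀ {t t'}, oprod y l t = oprod y l t' → ∀ r ∈ l, t r = t' r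
  sx : ∀ {σ r r' φ}, Sx σ r r' φ → ∃ ε : F, ε * ε = 1 ∧ ∀ t, σ (y r t) = y r' (ε * φ t)
  gend : ∀ {ρ f σ}, GEnd ρ f σ → ∀ i t, σ (y (Chev.simple i) t) = y (Chev.simple (ρ i)) (f i t)

omit hM hE in
theorem cor_eq_zero {r s k : Rt D} {i j : ℤ} (e : wt k = i • wt r + j • wt s) {a : Nd D}
    (hr : cor r a = 0) (hs : cor s a = 0) : cor k a = 0 := by
  have := congrFun (len_cor_of_wt_eq e) a
  simpa [hr, hs, (len_pos k).ne'] using this

variable {M : CoxeterMatrix (Nd D)} (h : CartanCox (cartA D) M)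

theorem side_pos : Side xg (gam F h).UJ where
  add := stRel_xg.add
  comm := fun r s h1 h2 _ => stRel_xg.comm r s h1 h2
  ex := fun {L l φ} hl u => by
    have e : (gam F h).UJ {i | i ∈ L} = XS (rtX xg) (· ∈ l) :=
      XS_congr fun r => by rw [hl.1, rs_pos]; rfl
    rw [e]
    refine ⟨exists_oprod stRel_xg φ hl.2.1 hl.2.2 fun r s k i j hr hs hi _ e => ?_, ?_⟩
    · simp only [hl.1] at hr hs ⊢
      exact ⟨pos_of_wt_eq_add hr.1 hs.1 (by omega) e, fun a ha => cor_eq_zero e (hr.2 a ha) (hs.2 a ha)⟩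
    · rintro ⟨t, rfl⟩
      exact oprod_mem (fun _ h => h) t
  inj := fun h1 h2 => oprod_inj _ h1 fun r hr => (h2 r hr).le
  sx := fun ⟨ε, h1, h2, _⟩ => ⟨ε, h1, h2⟩
  gend := fun hσ => hσ.pos

theorem oprod_yg (l : List (Rt D)) (t : Rt D → F) :
    oprod yg l t = oprod xg (l.map Chev.neg) fun r => - t (Chev.neg r) := by
  induction l with
  | nil => rfl
  | cons r l ih => simp [ih, yg]

theorem side_neg : Side yg (gam F h).VJ where
  add := fun r t u => by rw [yg, neg_add, stRel_xg.add]; rfl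
  comm := fun r s h1 h2 hn t u => by
    rw [yg, yg, stRel_xg.comm (Chev.neg r) (Chev.neg s) (by simpa using h1)
      (fun e => h2 (neg_injective e)) (-t) (-u)]
    congr 1
    rw [commWord, commWord, neg_val, neg_val, hn, List.map_map]
    have hc := fun c (hc : c ∈ D.commTerms r s) => (Chev.commTerms_spec hc).2.2.1
    generalize D.commTerms r s = l at hc
    induction l with
    | nil => rfl
    | cons c l ih =>
      simp only [List.map_cons, wordG_cons, Function.comp_apply]
      rw [ih fun c hc' => hc c (by simp [hc']), xN_of_lt _ (hc c (by simp)), yg,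
        show D.neg c.1 = (Chev.neg (⟨c.1, hc c (by simp)⟩ : Rt D) : ℕ) from rfl, xN_val]
      congr 2
      push_cast
      rw [_root_.neg_neg, neg_pow t, neg_pow u, pow_succ, pow_add]
      rcases neg_one_pow_eq_or F c.2.2.2 with e | e <;> rw [e] <;> ring
  ex := fun {L l φ} hl u => by
    have e : (gam F h).VJ {i | i ∈ L} = XS (rtX xg) (· ∈ l.map Chev.neg) := XS_congr fun r => by
      rw [rs_pos, ← pos_neg_iff, ← (rs h).inSub_neg_iff]
      refine Iff.trans (hl.1 _).symm ⟨fun h => List.mem_map.2 ⟨_, h, by simp⟩, fun h => ?_⟩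
      obtain ⟨s, hs, rfl⟩ := List.mem_map.1 h
      simpa using hs
    rw [e]
    constructor
    · intro hu
      obtain ⟨t, rfl⟩ := exists_oprod stRel_xg (-φ) (by simpa [List.pairwise_map] using hl.2.1)
        (by simpa using hl.2.2) (fun r s k i j hr hs hi _ e => by
          replace hr := List.mem_map.1 hr
          replace hs := List.mem_map.1 hs
          obtain ⟨r, hr, rfl⟩ := hr
          obtain ⟨s, hs, rfl⟩ := hs
          have e' : wt (Chev.neg k) = (i : ℤ) • wt r + (j : ℤ) • wt s := by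
            rw [wt_neg, e, wt_neg, wt_neg]; module
          refine List.mem_map.2 ⟨Chev.neg k, ?_, by simp⟩
          rw [hl.1] at hr hs ⊢
          exact ⟨pos_of_wt_eq_add hr.1 hs.1 (by omega) e',
            fun a ha => cor_eq_zero e' (hr.2 a ha) (hs.2 a ha)⟩) hu
      exact ⟨fun r => - t (Chev.neg r), by simp [oprod_yg]⟩
    · rintro ⟨t, rfl⟩
      rw [oprod_yg]
      exact oprod_mem (fun _ h => h) _
  inj := fun {φ l} h1 h2 t t' e r hr => by
    rw [oprod_yg, oprod_yg] at e
    simpa using oprod_inj (-φ) (by simpa [List.pairwise_map] using h1)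
      (by simpa using fun r hr => (h2 r hr).le) e (Chev.neg r) (List.mem_map.2 ⟨r, hr, rfl⟩)
  sx := fun ⟨ε, h1, _, h3⟩ => ⟨ε, h1, fun t => by rw [yg, h3, yg, map_neg, mul_neg]⟩
  gend := fun hσ i t => by rw [yg, hσ.neg, yg, map_neg]

namespace Side

variable {y : Rt D → F → D.group F} {Z : Set (Nd D) → Subgroup (D.group F)} (hy : Side y Z)
include hy

theorem zero (r : Rt D) : y r 0 = 1 := by simpa using hy.add r 0 0

theorem neg_arg (r : Rt D) (t : F) : y r (-t) = (y r t)⁻¹ := by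
  rw [eq_inv_iff_mul_eq_one, ← hy.add, neg_add_cancel, hy.zero]

theorem commute {r s : Rt D} (h1 : s ≠ r) (h2 : (s : ℕ) ≠ D.neg r) (h3 : NegOK D r s)
    (h4 : D.commTerms r s = []) (t u : F) : y s u * y r t = y r t * y s u := by
  rw [hy.comm r s h1 (fun e => h2 (congrArg Fin.val e)) h3, commWord, h4]; simp

end Side

/-! ### The torus of a twisted group -/

theorem tor_conj_oprod (c : Nd D → Fˣ) (l : List (Rt D)) (t : Rt D → F) :
    tor D F c * oprod xg l t * (tor D F c)⁻¹ = oprod xg l fun r => chi c (wt r) * t r := by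
  induction l with
  | nil => simp
  | cons r l ih => rw [oprod_cons, oprod_cons, ← ih, ← tor_conj]; group

theorem rep_conj_tor {n : D.group F} {w : W D} (hn : (gam F h).Rep n w)
    (hw : ∀ i, (rs h).act w (Chev.simple i) = Chev.neg (Chev.simple i)) (c : Nd D → Fˣ) :
    n * tor D F c * n⁻¹ = (tor D F c)⁻¹ := by
  have h1 : n * tor D F c * n⁻¹ * tor D F c ∈ (gam F h).H := by
    have : tor D F c ∈ (gam F h).H := by rw [gam_H]; exact ⟨c, rfl⟩
    exact Subgroup.mul_mem _ (hn.conj_H this) this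
  refine eq_inv_of_mul_eq_one_left (eq_one_of_H h h1 fun i => ⟨1, one_ne_zero, ?_⟩)
  obtain ⟨k, hk, e⟩ := (sys F h).rep_conj hn (Chev.neg (Chev.simple i))
  change ∀ t, n * xg _ t * n⁻¹ = xg ((rs h).act w ((rs h).neg _)) _ at e
  rw [RS.act_neg, hw, rs_neg, Chev.neg_neg] at e
  calc _ = n * (tor D F c * (n⁻¹ * (tor D F c * xg (Chev.simple i) 1 * (tor D F c)⁻¹) * n) *
      (tor D F c)⁻¹) * n⁻¹ := by group
    _ = _ := by
      have e1 : n⁻¹ * xg (Chev.simple i) ((chi c (wt (Chev.simple i)) : F) * 1) * n =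
          xg (Chev.neg (Chev.simple i)) (k⁻¹ * (chi c (wt (Chev.simple i)) : F)) := by
        have := e (k⁻¹ * (chi c (wt (Chev.simple i)) : F))
        rw [mul_inv_cancel_left₀ hk] at this
        rw [mul_one, ← this]; group
      rw [tor_conj, e1, tor_conj, e, wt_neg, chi_neg]
      congr 1
      field_simp
      simp

theorem card_H_inf {G1 : Subgroup (D.group F)} {C : Subgroup (Nd D → Fˣ)}
    (hC : (gam F h).H ⊓ G1 = C.map (tor D F)) :
    Nat.card ↥((tor D F).ker ⊓ C) * Nat.card ↥((gam F h).H ⊓ G1) = Nat.card C := by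
  rw [hC, ← Subgroup.card_mul_index ((tor D F).domRestrict C).ker, Subgroup.index_ker,
    MonoidHom.domRestrict_range, MonoidHom.ker_domRestrict, ← Subgroup.inf_subgroupOf_right,
    Nat.card_congr (Subgroup.subgroupOfEquivOfLe inf_le_right).toEquiv]

variable {h} in
theorem tw_core {O : Type*} (T : Tw (gam F h) O)
    (hc : ∀ i, ∃ (φ : Lat D) (l : List (Rt D)) (t : Rt D → F), (l.Pairwise fun a b => φ ⬝ᵥ wt a < φ ⬝ᵥ wt b) ∧
      (∀ r ∈ l, 0 < φ ⬝ᵥ wt r) ∧ (∀ r ∈ l, Pos r) ∧ Chev.simple i ∈ l ∧ t (Chev.simple i) ≠ 0 ∧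
      oprod xg l t ∈ T.G1) : ((gam F h).Bor.subgroupOf T.G1).normalCore = ⊥ := by
  refine T.normalCore_eq_bot fun k hk hk' => ?_
  rw [gam_H] at hk
  obtain ⟨c, rfl⟩ := hk
  rw [tor_eq_one_iff]
  intro i
  obtain ⟨φ, l, t, h1, h2, h3, h4, h5, h6⟩ := hc i
  have := hk' (oprod xg l t) (oprod_mem (fun r hr => (rs_pos h r).2 (h3 r hr)) t) h6
  rw [tor_conj_oprod] at this
  exact Units.ext ((mul_eq_right₀ h5).1 (oprod_inj φ h1 (fun r hr => (h2 r hr).le) this _ h4))

variable {h} in
theorem tw_simple {O : Type*} [Nonempty O] (T : Tw (gam F h) O)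
    (hirr : ∀ J : Set O, J.Nonempty → Jᶜ.Nonempty →
      ∃ o ∈ J, ∃ o' ∉ J, T.wI o * T.wI o' ≠ T.wI o' * T.wI o)
    (hp : commutator T.G1 = ⊤) (hc : ((gam F h).Bor.subgroupOf T.G1).normalCore = ⊥) :
    IsSimpleGroup (T.G1.map (D.group F).subtype) ∧
      ¬ IsMulCommutative (T.G1.map (D.group F).subtype) := by
  obtain ⟨x, -, hx, h1⟩ := T.exists_U_ne_one (Classical.arbitrary O)
  haveI : Nontrivial T.G1 := ⟨⟨x, hx⟩, 1, fun e => h1 (congrArg Subtype.val e)⟩
  haveI := isSimpleGroup (P := T.toBN) (T.irreducible hirr) (T.isSolvable_Bor (isSolvable_Bor h)) hp hc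
  haveI := (upEquiv T.G1).isSimpleGroup
  exact ⟨this, not_isMulCommutative (perfect_of_equiv (upEquiv T.G1) hp)⟩

variable {h} in
theorem tw_bn {O : Type*} (T : Tw (gam F h) O) : ∃ P : Cfsg.BNPair ↥(T.G1.map (D.group F).subtype),
    P.B = (D.borelSubgroup F ⊓ T.G1.map (D.group F).subtype).subgroupOf (T.G1.map (D.group F).subtype) ∧
    P.N = (D.monomialSubgroup F ⊓ T.G1.map (D.group F).subtype).subgroupOf
      (T.G1.map (D.group F).subtype) := by
  rw [← map_Bor h, ← map_N h, up_subgroupOf, up_subgroupOf]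
  exact ⟨bnComap T.toBN (upEquiv T.G1), rfl, rfl⟩

/-! ### Finite fields -/

omit hD hM hE in
theorem exists_pow_hom {K : Type*} [Field K] [Fintype K] {q n : ℕ} (hq : IsPrimePow q) (hn : 0 < n)
    (hK : Fintype.card K = q ^ n) : ∃ φ : K →+* K, ∀ t, φ t = t ^ q := by
  obtain ⟨p, k, hp, hk, rfl⟩ := (isPrimePow_nat_iff q).1 hq
  obtain ⟨m, hp', hm⟩ := FiniteField.card K (ringChar K)
  have : p = ringChar K := by
    have h1 : p ∣ ringChar K ^ (m : ℕ) := by
      rw [← hm, hK, ← pow_mul]; exact dvd_pow_self _ (by positivity)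
    exact (Nat.prime_dvd_prime_iff_eq hp hp').1 (hp.dvd_of_dvd_pow h1)
  subst this
  haveI : ExpChar K (ringChar K) := ExpChar.prime hp
  exact ⟨iterateFrobenius K (ringChar K) k, fun t => iterateFrobenius_def ..⟩

omit hD hM hE in
theorem card_pow_eq_one {K : Type*} [Field K] [Fintype K] (d : ℕ) :
    Nat.card {z : Kˣ // z ^ d = 1} = Nat.gcd d (Fintype.card K - 1) := by
  rw [Nat.gcd_comm, ← Nat.card_eq_fintype_card, ← Nat.card_units, ← IsCyclic.card_powMonoidHom_ker]
  rfl

omit hD hM hE in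
theorem card_fixed {K : Type*} [Field K] [Fintype K] {q n : ℕ} (hq : 1 < q)
    (hK : Fintype.card K = q ^ n) : Nat.card {t : K // t ^ q = t} = q := by
  have h1 : Nat.card (Option {z : Kˣ // z ^ (q - 1) = 1}) = Nat.card {t : K // t ^ q = t} := by
    have e : ∀ t : K, t ^ q = t ^ (q - 1) * t := fun t => by rw [← pow_succ]; congr 1; omega
    refine Nat.card_eq_of_bijective (fun z => z.elim ⟨0, zero_pow (by omega)⟩ fun z =>
      ⟨z.1, by rw [e, ← Units.val_pow_eq_pow_val, z.2]; simp⟩) ⟨?_, ?_⟩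
    · rintro (_ | a) (_ | b) hab
      · rfl
      · exact absurd (congrArg Subtype.val hab).symm b.1.ne_zero
      · exact absurd (congrArg Subtype.val hab) a.1.ne_zero
      · exact congrArg some (Subtype.ext (Units.ext (congrArg Subtype.val hab)))
    · rintro ⟨t, ht⟩
      by_cases h0 : t = 0
      · exact ⟨none, Subtype.ext h0.symm⟩
      · exact ⟨some ⟨Units.mk0 t h0, Units.ext (by simpa [e, h0] using ht)⟩, rfl⟩
  rw [← h1, Finite.card_option, card_pow_eq_one, hK, Nat.gcd_eq_left (Nat.sub_one_dvd_pow_sub_one q n)]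
  omega

end CA.CG
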