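import Cfsg.Agent.Lib.CG.Tw

/-! Orbits of pairwise orthogonal fundamental roots; twisted groups generated by the fixed points in the
`U_I` and `V_I`. -/

set_option autoImplicit false
set_option linter.unusedSectionVars false
set_option maxHeartbeats 400000

namespace CA.CG

open Cfsg.Lie Cfsg.Lie.ChevalleyDatum CA.Chev CA.Weyl CA.BN Matrix

theorem card_of_param {G P : Type*} [Group G] {p : P → G} (hp : Function.Injective p) {K : Subgroup G}
    (h : ∀ u, u ∈ K ↔ ∃ a, u = p a) : Nat.card K = Nat.card P :=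
  (Nat.card_eq_of_bijective (fun a => (⟨p a, (h _).2 ⟨a, rfl⟩⟩ : K))
    ⟨fun _ _ e => hp (congrArg Subtype.val e), fun g => by
      obtain ⟨a, e⟩ := (h _).1 g.2
      exact ⟨a, Subtype.ext e.symm⟩⟩).symm

variable {D : ChevalleyDatum} [hD : IsRoot D] {F : Type*} [Field F] [hM : MatFacts D F]

/-- A vector given by a list. -/
def lat (D : ChevalleyDatum) (L : List ℤ) : Lat D := fun i => L.getD i 0

theorem xN_simple {G : Type*} [Group G] (x : Rt D → F → G) (i : Nd D) {r : ℕ} (h : r = D.simple i)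
    (t : F) : xN x r t = x (Chev.simple i) t := by rw [h, ← simple_val, xN_val]

theorem xN_neg_simple {G : Type*} [Group G] (x : Rt D → F → G) (i : Nd D) {r : ℕ}
    (h : r = D.neg (D.simple i)) (t : F) : xN x r t = x (Chev.neg (Chev.simple i)) t := by
  rw [h, ← simple_val, ← neg_val, xN_val]

/-- The rank one subgroup of a node. -/
def L2 (F : Type*) [Field F] [MatFacts D F] (r : Rt D) : Subgroup (D.group F) :=
  XS (rtX xg) fun s => s = r ∨ s = Chev.neg r

theorem x_mem_L2 (r : Rt D) (t : F) : xg r t ∈ L2 F r :=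
  le_XS (S := fun s => s = r ∨ s = Chev.neg r) (Or.inl rfl) (x_mem_rtX _ _)
theorem xneg_mem_L2 (r : Rt D) (t : F) : xg (Chev.neg r) t ∈ L2 F r :=
  le_XS (S := fun s => s = r ∨ s = Chev.neg r) (Or.inr rfl) (x_mem_rtX _ _)
theorem y_mem_L2 (r : Rt D) (t : F) : yg r t ∈ L2 F r := xneg_mem_L2 _ _
theorem n_mem_L2 (r : Rt D) (t : F) : nG xg r t ∈ L2 F r :=
  Subgroup.mul_mem _ (Subgroup.mul_mem _ (x_mem_L2 _ _) (xneg_mem_L2 _ _)) (x_mem_L2 _ _)
theorem h_mem_L2 (r : Rt D) (t : F) : hG xg r t ∈ L2 F r :=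
  Subgroup.mul_mem _ (n_mem_L2 _ _) (n_mem_L2 _ _)

/-- Strongly orthogonal roots. -/
def Orth (D : ChevalleyDatum) (a b : ℕ) : Prop := ∀ r ∈ [a, D.neg a], ∀ s ∈ [b, D.neg b],
  D.commTerms r s = [] ∧ s ≠ r ∧ s ≠ D.neg r

instance decOrth (D : ChevalleyDatum) (a b : ℕ) : Decidable (Orth D a b) := by
  unfold Orth; infer_instance

theorem comm_nil {r s : Rt D} (h : D.commTerms r s = [] ∧ (s : ℕ) ≠ r ∧ (s : ℕ) ≠ D.neg r) (t u : F) :
    xg s u * xg r t = xg r t * xg s u := by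
  rw [stRel_xg.comm r s (fun e => h.2.1 (congrArg Fin.val e)) (fun e => h.2.2 (congrArg Fin.val e)),
    commWord, h.1]
  simp

theorem Orth.commute {r s : Rt D} (h : Orth D r s) {a b : D.group F} (ha : a ∈ L2 F r)
    (hb : b ∈ L2 F s) : Commute a b := by
  refine XS_induction (C := fun a => Commute a b) ha (fun r' hr x hx => ?_) (Commute.one_left _)
    fun _ _ => Commute.mul_left
  refine XS_induction (C := fun b => Commute x b) hb (fun s' hs y hy => ?_) (Commute.one_right _)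
    fun _ _ => Commute.mul_right
  obtain ⟨t, rfl⟩ := mem_rtX.1 hx
  obtain ⟨u, rfl⟩ := mem_rtX.1 hy
  refine (comm_nil (h _ ?_ _ ?_) t u).symm
  · rcases hr with rfl | rfl <;> simp
  · rcases hs with rfl | rfl <;> simp

theorem n1_mem {K : Subgroup (D.group F)} {r : Rt D} {φ : F →+* F}
    (h : ∀ t, φ t = t → xg r t ∈ K ∧ xg (Chev.neg r) t ∈ K) {t : F} (ht : φ t = t) :
    nG xg r t ∈ K ∧ hG xg r t ∈ K := by
  have : ∀ t, φ t = t → nG xg r t ∈ K := fun t ht =>
    K.mul_mem (K.mul_mem (h t ht).1 (h _ (by simp [ht])).2) (h t ht).1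
  exact ⟨this t ht, K.mul_mem (this t ht) (this _ (by simp))⟩

theorem n2_mem {K : Subgroup (D.group F)} {r s : Rt D} (ho : Orth D r s) {φ ψ : F →+* F}
    (h : ∀ t, xg r (φ t) * xg s (ψ t) ∈ K ∧ xg (Chev.neg r) (φ t) * xg (Chev.neg s) (ψ t) ∈ K) (t : F) :
    nG xg r (φ t) * nG xg s (ψ t) ∈ K ∧ hG xg r (φ t) * hG xg s (ψ t) ∈ K := by
  have : ∀ t, nG xg r (φ t) * nG xg s (ψ t) ∈ K := fun t => by
    have := K.mul_mem (K.mul_mem (h t).1 (h (-t⁻¹)).2) (h t).1
    rwa [(ho.commute (xneg_mem_L2 _ _) (x_mem_L2 _ _)).symm.mul_mul_mul_comm,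
      (ho.commute (x_mem_L2 _ _) (Subgroup.mul_mem _ (x_mem_L2 _ _)
        (xneg_mem_L2 _ _))).symm.mul_mul_mul_comm, map_neg, map_neg, map_inv₀, map_inv₀] at this
  refine ⟨this t, ?_⟩
  have := K.mul_mem (this t) (this (-1))
  rwa [(ho.commute (n_mem_L2 _ _) (n_mem_L2 _ _)).symm.mul_mul_mul_comm, map_neg, map_neg, map_one,
    map_one] at this

theorem n3_mem {K : Subgroup (D.group F)} {r s k : Rt D} (h1 : Orth D r s) (h2 : Orth D r k)
    (h3 : Orth D s k) {φ ψ : F →+* F}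
    (h : ∀ t, xg r t * (xg s (φ t) * xg k (ψ t)) ∈ K ∧
      xg (Chev.neg r) t * (xg (Chev.neg s) (φ t) * xg (Chev.neg k) (ψ t)) ∈ K) (t : F) :
    nG xg r t * (nG xg s (φ t) * nG xg k (ψ t)) ∈ K ∧ hG xg r t * (hG xg s (φ t) * hG xg k (ψ t)) ∈ K := by
  have key : ∀ {a b c a' b' c' : D.group F}, b ∈ L2 F s → c ∈ L2 F k → a' ∈ L2 F r → b' ∈ L2 F s →
      a * (b * c) * (a' * (b' * c')) = a * a' * (b * b' * (c * c')) := by
    intro a b c a' b' c' hb hc ha' hb'
    rw [((h1.commute ha' hb).mul_right (h2.commute ha' hc)).symm.mul_mul_mul_comm,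
      (h3.commute hb' hc).symm.mul_mul_mul_comm]
  have : ∀ t, nG xg r t * (nG xg s (φ t) * nG xg k (ψ t)) ∈ K := fun t => by
    have := K.mul_mem (K.mul_mem (h t).1 (h (-t⁻¹)).2) (h t).1
    rwa [key (x_mem_L2 _ _) (x_mem_L2 _ _) (xneg_mem_L2 _ _) (xneg_mem_L2 _ _),
      key (Subgroup.mul_mem _ (x_mem_L2 _ _) (xneg_mem_L2 _ _))
        (Subgroup.mul_mem _ (x_mem_L2 _ _) (xneg_mem_L2 _ _)) (x_mem_L2 _ _) (x_mem_L2 _ _),
      map_neg, map_neg, map_inv₀, map_inv₀] at this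
  refine ⟨this t, ?_⟩
  have := K.mul_mem (this t) (this (-1))
  rwa [key (n_mem_L2 _ _) (n_mem_L2 _ _) (n_mem_L2 _ _) (n_mem_L2 _ _), map_neg, map_neg, map_one,
    map_one] at this

variable [hE : IsEta D]

namespace Side

variable {y : Rt D → F → D.group F} {Z : Set (Nd D) → Subgroup (D.group F)} (hy : Side y Z)
  {ρ : Equiv.Perm (Nd D)} {f : Nd D → F →+* F} {σ : D.group F →* D.group F}
include hy

theorem inj_nil {φ : Lat D} {t t' : F} {r : Rt D} (h : 0 < φ ⬝ᵥ wt r) (e : y r t = y r t') : t = t' := by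
  simpa using hy.inj (φ := φ) (l := [r]) (by simp) (by simpa using h) (t := fun _ => t)
    (t' := fun _ => t') (by simpa using e)

/-- Uniqueness of ordered products, one step. -/
theorem inj_cons {φ : Lat D} {r : Rt D} {l : List (Rt D)}
    (h1 : (r :: l).Pairwise fun a b => φ ⬝ᵥ wt a < φ ⬝ᵥ wt b) (h2 : ∀ s ∈ r :: l, 0 < φ ⬝ᵥ wt s)
    {a a' : F} {t t' : Rt D → F} (e : y r a * oprod y l t = y r a' * oprod y l t') :
    a = a' ∧ oprod y l t = oprod y l t' := by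
  classical
  have hr : ∀ s ∈ l, s ≠ r := by
    rintro s hs rfl
    exact lt_irrefl _ ((List.pairwise_cons.1 h1).1 s hs)
  have key : ∀ (a : F) (t : Rt D → F), y r a * oprod y l t = oprod y (r :: l) (Function.update t r a) :=
    fun a t => by
      rw [oprod_cons, Function.update_self, oprod_congr (t := Function.update t r a) (t' := t)
        fun s hs => Function.update_of_ne (hr s hs) _ _]
  have := hy.inj h1 h2 (((key a t).symm.trans e).trans (key a' t')) r (by simp)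
  simp only [Function.update_self] at this
  subst this
  exact ⟨rfl, mul_left_cancel e⟩

theorem inj2 {φ : Lat D} {r s : Rt D} (h1 : [r, s].Pairwise fun a b => φ ⬝ᵥ wt a < φ ⬝ᵥ wt b)
    (h2 : ∀ k ∈ [r, s], 0 < φ ⬝ᵥ wt k) {a b a' b' : F} (e : y r a * y s b = y r a' * y s b') :
    a = a' ∧ b = b' := by
  have := hy.inj_cons h1 h2 (a := a) (a' := a') (t := fun _ => b) (t' := fun _ => b') (by simpa using e)
  exact ⟨this.1, hy.inj_nil (h2 s (by simp)) (by simpa using this.2)⟩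

theorem inj3 {φ : Lat D} {r s k : Rt D} (h1 : [r, s, k].Pairwise fun a b => φ ⬝ᵥ wt a < φ ⬝ᵥ wt b)
    (h2 : ∀ j ∈ [r, s, k], 0 < φ ⬝ᵥ wt j) {a b c a' b' c' : F}
    (e : y r a * (y s b * y k c) = y r a' * (y s b' * y k c')) : a = a' ∧ b = b' ∧ c = c' := by
  classical
  have hsk : k ≠ s := by
    rintro rfl
    simp at h1
  have := hy.inj_cons h1 h2 (a := a) (a' := a') (t := fun j => if j = s then b else c)
    (t' := fun j => if j = s then b' else c') (by simpa [hsk] using e)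
  exact ⟨this.1, hy.inj2 (List.pairwise_cons.1 h1).2 (fun j hj => h2 j (by simp [hj]))
    (by simpa [hsk] using this.2)⟩

theorem inj4 {φ : Lat D} {r s k m : Rt D} (h1 : [r, s, k, m].Pairwise fun a b => φ ⬝ᵥ wt a < φ ⬝ᵥ wt b)
    (h2 : ∀ j ∈ [r, s, k, m], 0 < φ ⬝ᵥ wt j) {a b c d a' b' c' d' : F}
    (e : y r a * (y s b * (y k c * y m d)) = y r a' * (y s b' * (y k c' * y m d'))) :
    a = a' ∧ b = b' ∧ c = c' ∧ d = d' := by
  classical
  have hks : k ≠ s := by rintro rfl; simp at h1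
  have hms : m ≠ s := by rintro rfl; simp at h1
  have hmk : m ≠ k := by rintro rfl; simp at h1
  have := hy.inj_cons h1 h2 (a := a) (a' := a') (t := fun j => if j = s then b else if j = k then c else d)
    (t' := fun j => if j = s then b' else if j = k then c' else d') (by simpa [hks, hms, hmk] using e)
  exact ⟨this.1, hy.inj3 (List.pairwise_cons.1 h1).2 (fun j hj => h2 j (by simp [hj]))
    (by simpa [hks, hms, hmk] using this.2)⟩

theorem fx1 (hσ : GEnd ρ f σ) {i : Nd D} {φ : Lat D} (hl : ListOK [i] [Chev.simple i] φ) (hi : ρ i = i)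
    (u : D.group F) : u ∈ Z {k | k ∈ [i]} ∧ σ u = u ↔ ∃ t, f i t = t ∧ u = y (Chev.simple i) t := by
  rw [hy.ex hl]
  constructor
  · rintro ⟨⟨t, rfl⟩, h⟩
    simp only [oprod_cons, oprod_nil, mul_one, hy.gend hσ, hi] at h ⊢
    exact ⟨_, hy.inj_nil (hl.2.2 _ (by simp)) h, rfl⟩
  · rintro ⟨t, ht, rfl⟩
    exact ⟨⟨fun _ => t, by simp⟩, by rw [hy.gend hσ, hi, ht]⟩

theorem fx2 (hσ : GEnd ρ f σ) {i j : Nd D} {φ : Lat D}
    (hl : ListOK [i, j] [Chev.simple i, Chev.simple j] φ) (hi : ρ i = j) (hj : ρ j = i)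
    (hc : ∀ t u, Commute (y (Chev.simple i) t) (y (Chev.simple j) u)) (hf : ∀ t, f j (f i t) = t)
    (u : D.group F) : u ∈ Z {k | k ∈ [i, j]} ∧ σ u = u ↔
      ∃ t, u = y (Chev.simple i) t * y (Chev.simple j) (f i t) := by
  classical
  rw [hy.ex hl]
  constructor
  · rintro ⟨⟨t, rfl⟩, h⟩
    simp only [oprod_cons, oprod_nil, mul_one, map_mul, hy.gend hσ, hi, hj] at h ⊢
    rw [← (hc _ _).eq] at h
    exact ⟨_, by rw [(hy.inj2 hl.2.1 hl.2.2 h).2]⟩
  · rintro ⟨t, rfl⟩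
    have hij : Chev.simple j ≠ Chev.simple i := by
      intro e
      have := hl.2.1
      simp [e] at this
    exact ⟨⟨fun r => if r = Chev.simple i then t else f i t, by simp [hij]⟩,
      by rw [map_mul, hy.gend hσ, hy.gend hσ, hi, hj, hf, (hc _ _).eq]⟩

theorem fx3 (hσ : GEnd ρ f σ) {i j k : Nd D} {φ : Lat D}
    (hl : ListOK [i, j, k] [Chev.simple i, Chev.simple j, Chev.simple k] φ) (hi : ρ i = j) (hj : ρ j = k)
    (hk : ρ k = i) (hc : ∀ t u, Commute (y (Chev.simple i) t) (y (Chev.simple j) u))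
    (hc' : ∀ t u, Commute (y (Chev.simple i) t) (y (Chev.simple k) u))
    (hf : ∀ t, f k (f j (f i t)) = t) (u : D.group F) : u ∈ Z {m | m ∈ [i, j, k]} ∧ σ u = u ↔
      ∃ t, u = y (Chev.simple i) t * (y (Chev.simple j) (f i t) * y (Chev.simple k) (f j (f i t))) := by
  classical
  rw [hy.ex hl]
  constructor
  · rintro ⟨⟨t, rfl⟩, h⟩
    simp only [oprod_cons, oprod_nil, mul_one, map_mul, hy.gend hσ, hi, hj, hk] at h ⊢
    rw [← mul_assoc, ← ((hc _ _).mul_right (hc' _ _)).eq] at h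
    obtain ⟨-, h2, h3⟩ := hy.inj3 hl.2.1 hl.2.2 h
    exact ⟨_, by rw [h2, h3]⟩
  · rintro ⟨t, rfl⟩
    have h0 := hl.2.1
    have hji : Chev.simple j ≠ Chev.simple i := fun e => by simp [e] at h0
    have hki : Chev.simple k ≠ Chev.simple i := fun e => by simp [e] at h0
    have hkj : Chev.simple k ≠ Chev.simple j := fun e => by simp [e] at h0
    exact ⟨⟨fun r => if r = Chev.simple i then t else if r = Chev.simple j then f i t else f j (f i t),
      by simp only [oprod_cons, oprod_nil, mul_one, hji, hki, hkj, if_true, if_false]⟩, by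
      rw [map_mul, map_mul, hy.gend hσ, hy.gend hσ, hy.gend hσ, hi, hj, hk, hf, ← mul_assoc,
        ← ((hc _ _).mul_right (hc' _ _)).eq]⟩

end Side

variable {M : CoxeterMatrix (Nd D)} {h : CartanCox (cartA D) M}

theorem tw_perfect {O : Type*} (T : Tw (gam F h) O) {S : Set (D.group F)} (h1 : T.G1 = Subgroup.closure S)
    (h2 : ∀ g ∈ S, ∃ o, (g ∈ (gam F h).UJ (T.I o) ∨ g ∈ (gam F h).VJ (T.I o)) ∧ T.σ g = g)
    (h3 : ∀ o, ∀ u ∈ (gam F h).UJ (T.I o), T.σ u = u → u ∈ ⁅T.G1, T.G1⁆) : commutator T.G1 = ⊤ := by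
  refine perfect_of_le ?_
  conv_lhs => rw [h1]
  refine (Subgroup.closure_le _).2 fun g hg => ?_
  obtain ⟨o, h4 | h4, h5⟩ := h2 g hg
  · exact h3 o g h4 h5
  · exact T.V_mem_of_U (le_normalizer_commutator _) o (h3 o) h4 h5

theorem comm_tor {K : Subgroup (D.group F)} {c : Nd D → Fˣ} (hc : tor D F c ∈ K) {g : D.group F}
    (hg : g ∈ K) : tor D F c * g * (tor D F c)⁻¹ * g⁻¹ ∈ ⁅K, K⁆ :=
  Subgroup.commutator_mem_commutator hc hg

theorem comm_single {K : Subgroup (D.group F)} {r s k : Rt D} {ε : ℤ} (h1 : s ≠ r)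
    (h2 : (s : ℕ) ≠ D.neg r) (e : D.commTerms r s = [((k : ℕ), ε, 1, 1)]) {t u : F} (ht : xg r t ∈ K)
    (hu : xg s u ∈ K) : xg k (ε * -t * u) ∈ ⁅K, K⁆ := by
  have := Subgroup.commutator_mem_commutator (K.inv_mem hu) (K.inv_mem ht)
  rw [commutatorElement_def, inv_inv, inv_inv, mul_assoc,
    stRel_xg.comm r s h1 (fun e => h2 (congrArg Fin.val e)), commWord, e] at this
  simpa [mul_assoc] using this

/-- Transport of `x_r(t) ∈ K` along a conjugation with a sign. -/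
theorem mem_of_conj_sign {K L : Subgroup (D.group F)} (hK : K ≤ Subgroup.normalizer (L : Set (D.group F)))
    {n : D.group F} (hn : n ∈ K) {r s : Rt D} {ε : F} (hε : ε * ε = 1)
    (e : ∀ t, n * xg r t * n⁻¹ = xg s (ε * t)) (t : F) : xg r t ∈ L ↔ xg s t ∈ L := by
  rw [Subgroup.mem_normalizer_iff.1 (hK hn), e]
  rcases mul_self_eq_one_iff.1 hε with rfl | rfl
  · rw [one_mul]
  · rw [neg_one_mul, stRel_xg.neg_arg, inv_mem_iff]

theorem H_inf_eq {O : Type*} (T : Tw (gam F h) O) {ρ : Equiv.Perm (Nd D)} {f : Nd D → F →+* F}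
    (hσ : GEnd ρ f T.σ) (h1 : ∀ c, twc ρ f c = c → tor D F c ∈ T.G1)
    (h2 : ∀ c, tor D F (twc ρ f c) = tor D F c → ∃ d, twc ρ f d = d ∧ tor D F d = tor D F c) :
    (gam F h).H ⊓ T.G1 = ((twc ρ f).eqLocus (MonoidHom.id _)).map (tor D F) := by
  rw [gam_H]
  apply le_antisymm
  · rintro _ ⟨⟨c, rfl⟩, hc⟩
    exact h2 c (by rw [← hσ.map_tor, T.fix _ hc])
  · rintro _ ⟨c, hc, rfl⟩
    exact ⟨⟨c, rfl⟩, h1 c hc⟩

omit hD hM hE in
theorem card_fixed_units {K : Type*} [Field K] [Fintype K] {q n : ℕ} (hq : 1 < q)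
    (hK : Fintype.card K = q ^ n) : Nat.card {z : Kˣ // (z : K) ^ q = z} = q - 1 := by
  rw [← Nat.gcd_eq_left (Nat.sub_one_dvd_pow_sub_one q n), ← hK, ← card_pow_eq_one]
  refine Nat.card_congr (Equiv.subtypeEquivRight fun z => ?_)
  rw [← Units.val_pow_eq_pow_val, Units.val_inj]
  conv_lhs => rw [show q = q - 1 + 1 by omega, pow_succ, mul_eq_right]

omit hD hM hE in
theorem exists_sq_ne_one {K : Type*} [Field K] [Fintype K] (hK : 3 < Fintype.card K) :
    ∃ c : Kˣ, c ^ 2 ≠ 1 := by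
  by_contra hc
  push Not at hc
  have h1 := card_pow_eq_one (K := K) 2
  rw [Nat.card_congr (Equiv.subtypeUnivEquiv hc), Nat.card_units, Nat.card_eq_fintype_card] at h1
  have := Nat.gcd_le_left (Fintype.card K - 1) two_pos
  omega

end CA.CG
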