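import Cfsg.Agent.Lib.CG.Tw2

/-! Twisted groups generated by the fixed points in the `U_I`, `V_I`: packaging of the results. -/

set_option autoImplicit false
set_option linter.unusedSectionVars false
set_option maxHeartbeats 400000

namespace CA.CG

open Cfsg.Lie Cfsg.Lie.ChevalleyDatum CA.Chev CA.Weyl CA.BN Matrix

variable {D : ChevalleyDatum} [hD : IsRoot D] {F : Type*} [Field F] [hM : MatFacts D F] [hE : IsEta D]
variable {M : CoxeterMatrix (Nd D)} {h : CartanCox (cartA D) M}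

local notation "ι" => Subgroup.subtype (D.group F)

/-- The generating set consists of the fixed points in the `U_I` and `V_I`. -/
def GenOK {O : Type*} (h : CartanCox (cartA D) M) (σ : D.group F →* D.group F) (I : O → Set (Nd D))
    (S : Set (List (ℕ × F))) : Prop :=
  ∀ g, g ∈ wordG xg '' S ↔ ∃ o, (g ∈ (gam F h).UJ (I o) ∧ σ g = g) ∨ (g ∈ (gam F h).VJ (I o) ∧ σ g = g)

/-- The twisted group generated by the fixed points in the `U_I` and `V_I`. -/
noncomputable def GEnd.tw' {ρ : Equiv.Perm (Nd D)} {f : Nd D → F →+* F} {σ : D.group F →* D.group F}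
    (hσ : GEnd ρ f σ) (h : CartanCox (cartA D) M) (hρ : ∀ i j, M (ρ i) (ρ j) = M i j)
    {A : Nd D → Nd D → ℤ} (hA : CartanCox A M) {cols : List (List ℤ)}
    (hc : ∀ i : Nd D, cols.getD i.val [] = List.ofFn fun k => A k i) {k : ℕ}
    {Os : Fin k → List (Nd D) × List (Nd D)} (hO : OrbOK cols ρ Os) {S : Set (List (ℕ × F))}
    (hS : GenOK h σ (fun o => {i | i ∈ (Os o).1}) S)
    (hn : ∀ o, ∃ u ∈ (gam F h).VJ {i | i ∈ (Os o).1}, σ u = u ∧ u ≠ 1) : Tw (gam F h) (Fin k) :=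
  hσ.tw h hρ hA hc hO S (fun w hw => ((hS _).1 ⟨w, hw, rfl⟩).elim fun _ h => h.elim And.right And.right)
    (fun o _ hu hu' => Subgroup.subset_closure ((hS _).2 ⟨o, Or.inl ⟨hu, hu'⟩⟩))
    (fun o _ hu hu' => Subgroup.subset_closure ((hS _).2 ⟨o, Or.inr ⟨hu, hu'⟩⟩)) hn

theorem tw_perfect' {O : Type*} (T : Tw (gam F h) O) {S : Set (List (ℕ × F))}
    (h1 : T.G1 = Subgroup.closure (wordG xg '' S)) (h2 : GenOK h T.σ T.I S)
    (h3 : ∀ o, ∀ u ∈ (gam F h).UJ (T.I o), T.σ u = u → u ∈ ⁅T.G1, T.G1⁆) : commutator T.G1 = ⊤ :=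
  tw_perfect T h1 (fun g hg => ((h2 g).1 hg).imp fun _ h => or_and_right.2 h) h3

theorem tw_card_U {O : Type*} (T : Tw (gam F h) O) {x : ℝ}
    (hx : ∀ o, (Nat.card (T.Fx ((gam F h).UJ (T.I o))) : ℝ) = x ^ (rs h).cs.length (T.wI o)) :
    (Nat.card ↥(D.posUnipotent F ⊓ T.G1.map ι) : ℝ) = x ^ (D.nroots / 2) := by
  rw [← map_U h, up_card, T.card_U hx, card_pos]

theorem tw_card_H {O : Type*} (T : Tw (gam F h) O) :
    Nat.card ↥(D.diagonalSubgroup F ⊓ T.G1.map ι) = Nat.card ↥((gam F h).H ⊓ T.G1) := by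
  rw [← map_H h, up_card]

theorem tw_card [Finite F] {O : Type*} (T : Tw (gam F h) O) {x : ℝ}
    (hx : ∀ o, (Nat.card (T.Fx ((gam F h).UJ (T.I o))) : ℝ) = x ^ (rs h).cs.length (T.wI o))
    {f : ℝ → ℝ} (hf : HasPoin (rs h).cs {w | T.τ w = w} f) : (Nat.card (T.G1.map ι) : ℝ) =
      x ^ (D.nroots / 2) * Nat.card ↥(D.diagonalSubgroup F ⊓ T.G1.map ι) * f x := by
  rw [Subgroup.card_map_of_injective (D.group F).subtype_injective, T.card_G1 hx hf, T.card_U hx,
    card_pos, tw_card_H]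

theorem tw_hom {O : Type*} (T : Tw (gam F h) O) {W' : Type*} [Group W']
    (hW : ∃ ψ : W' →* W D, Function.Injective ψ ∧ ∀ w, w ∈ ψ.range ↔ T.τ w = w) :
    ∃ φ : ↥(D.monomialSubgroup F ⊓ T.G1.map ι) →* W', Function.Surjective φ ∧
      φ.ker = (D.diagonalSubgroup F ⊓ T.G1.map ι).subgroupOf (D.monomialSubgroup F ⊓ T.G1.map ι) := by
  obtain ⟨ψ, h1, h2⟩ := hW
  obtain ⟨φ, h3, h4⟩ := T.exists_hom ψ h1 h2
  rw [← map_H h, ← map_N h]
  exact up_hom _ φ h3 h4

theorem tw_core' {O : Type*} (T : Tw (gam F h) O)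
    (hc : ((gam F h).Bor.subgroupOf T.G1).normalCore = ⊥) :
    ((D.borelSubgroup F ⊓ T.G1.map ι).subgroupOf (T.G1.map ι)).normalCore = ⊥ := by
  rw [← map_Bor h]
  exact up_core _ hc

/-- The normal core of `B¹` is trivial if each `U_I¹` has an element with non-zero leading
coefficients. -/
theorem tw_core_of {O : Type*} (T : Tw (gam F h) O)
    (hc : ∀ i, ∃ (L : List (Nd D)) (l : List (Rt D)) (φ : Lat D), ListOK L l φ ∧ i ∈ L ∧
      ∃ t : Rt D → F, t (Chev.simple i) ≠ 0 ∧ oprod xg l t ∈ T.G1) :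
    ((gam F h).Bor.subgroupOf T.G1).normalCore = ⊥ := by
  refine tw_core T fun i => ?_
  obtain ⟨L, l, φ, hl, hi, t, ht, ht'⟩ := hc i
  refine ⟨φ, l, t, hl.2.1, hl.2.2, fun r hr => ((hl.1 r).1 hr).1, (hl.1 _).2 ⟨pos_simple i, fun k hk => ?_⟩,
    ht, ht'⟩
  rw [cor_simple, Pi.single_eq_of_ne]
  rintro rfl
  exact hk hi

/-- A one parameter subgroup on which a torus element acts by a scalar `≠ 1`. -/
theorem mem_comm_of_tor {G : Type*} [Group G] {K : Subgroup G} {k : G} (hk : k ∈ K) {g : F → G}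
    (hg : ∀ t, g t ∈ K) (hadd : ∀ s t, g (s + t) = g s * g t) {a : F} (ha : a ≠ 1)
    (e : ∀ t, k * g t * k⁻¹ = g (a * t)) (t : F) : g t ∈ ⁅K, K⁆ := by
  have := Subgroup.commutator_mem_commutator hk (hg (t / (a - 1)))
  rw [commutatorElement_def, e, show a * (t / (a - 1)) = t + t / (a - 1) by
    field_simp [sub_ne_zero.2 ha]; ring, hadd, mul_inv_cancel_right] at this
  exact this

theorem mem_comm_of_sRefl {K : Subgroup (D.group F)} {i : Nd D} (hn : nG xg (Chev.simple i) 1 ∈ K)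
    {r : Rt D} {t : F} (h : xg (sRefl i r) t ∈ ⁅K, K⁆) : xg r t ∈ ⁅K, K⁆ :=
  (mem_of_conj_sign (le_normalizer_commutator _) hn (eta_mul_self' _ _) (n_conj i r) t).2 h

theorem hconj2 (r s k : Rt D) {a b : F} (ha : a ≠ 0) (hb : b ≠ 0) (t : F) :
    hG xg r a * hG xg s b * xg k t * (hG xg r a * hG xg s b)⁻¹ = xg k (a ^ pr r k * (b ^ pr s k * t)) := by
  rw [← stFam_xg.hconj r k ha, ← stFam_xg.hconj s k hb]; group

theorem hconj3 (r s m k : Rt D) {a b c : F} (ha : a ≠ 0) (hb : b ≠ 0) (hc : c ≠ 0) (t : F) :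
    hG xg r a * (hG xg s b * hG xg m c) * xg k t * (hG xg r a * (hG xg s b * hG xg m c))⁻¹ =
      xg k (a ^ pr r k * (b ^ pr s k * (c ^ pr m k * t))) := by
  rw [← stFam_xg.hconj r k ha, ← hconj2 s m k hb hc]; group

theorem wordG_single (r : ℕ) (t : F) {G : Type*} [Group G] (x : Rt D → F → G) :
    wordG x [(r, t)] = xN x r t := by simp

theorem wordG_negWord {w : List (ℕ × F)} (hw : ∀ p ∈ w, p.1 < D.nroots) :
    wordG (xg (D := D)) (D.negWord w) = wordG yg w := by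
  induction w with
  | nil => rfl
  | cons p w ih =>
    rw [negWord, List.map_cons, wordG_cons, wordG_cons, ← negWord, ih fun p hp => hw p (by simp [hp]),
      xN_of_lt _ (hw p (by simp)), yg, ← xN_val xg]
    rfl

theorem twc_ker {ρ : Equiv.Perm (Nd D)} {f : Nd D → F →+* F} {σ : D.group F →* D.group F}
    (hσ : GEnd ρ f σ) {c : Nd D → Fˣ} (hc : tor D F c = 1) : tor D F (twc ρ f c) = 1 := by
  rw [← hσ.map_tor, hc, map_one]

omit hD hM hE in
theorem twc_two {ρ : Equiv.Perm (Nd D)} {f : Nd D → F →+* F} (h1 : ∀ i, ρ (ρ i) = i)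
    (h2 : ∀ i t, f (ρ i) (f i t) = t) (c : Nd D → Fˣ) : twc ρ f (twc ρ f c) = c := by
  funext i
  apply Units.ext
  conv_lhs => rw [← h1 i]
  conv_lhs => rw [twc_apply, twc_apply, h2]

omit hD hM hE in
theorem twc_three {ρ : Equiv.Perm (Nd D)} {f : Nd D → F →+* F} (h1 : ∀ i, ρ (ρ (ρ i)) = i)
    (h2 : ∀ i t, f (ρ (ρ i)) (f (ρ i) (f i t)) = t) (c : Nd D → Fˣ) :
    twc ρ f (twc ρ f (twc ρ f c)) = c := by
  funext i
  apply Units.ext
  conv_lhs => rw [← h1 i]
  conv_lhs => rw [twc_apply, twc_apply, twc_apply, h2]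

/-- Lifting fixed points of the torus: order two, kernel of exponent three. -/
theorem lift_fixed_two {ρ : Equiv.Perm (Nd D)} {f : Nd D → F →+* F}
    (h2 : ∀ c, twc ρ f (twc ρ f c) = c) (h3 : ∀ z, tor D F z = 1 → z ^ 3 = 1) (c : Nd D → Fˣ)
    (hc : tor D F (twc ρ f c) = tor D F c) : ∃ d, twc ρ f d = d ∧ tor D F d = tor D F c := by
  have h0 : tor D F (twc ρ f c * c⁻¹) = 1 := by rw [map_mul, map_inv, hc, mul_inv_cancel]
  refine ⟨c * (twc ρ f c * c⁻¹) ^ 2, ?_, by rw [map_mul, map_pow, h0, one_pow, mul_one]⟩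
  rw [map_mul, map_pow, map_mul, map_inv, h2, ← mul_one (twc ρ f c * _), ← h3 _ h0]
  generalize twc ρ f c = a
  simp only [pow_succ, pow_zero, one_mul]
  apply Additive.ofMul.injective
  simp only [ofMul_mul, ofMul_inv]
  abel

/-- Lifting fixed points of the torus: order three, kernel of exponent two. -/
theorem lift_fixed_three {ρ : Equiv.Perm (Nd D)} {f : Nd D → F →+* F} {σ : D.group F →* D.group F}
    (hσ : GEnd ρ f σ) (h3 : ∀ c, twc ρ f (twc ρ f (twc ρ f c)) = c)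
    (h2 : ∀ z, tor D F z = 1 → z ^ 2 = 1) (c : Nd D → Fˣ)
    (hc : tor D F (twc ρ f c) = tor D F c) : ∃ d, twc ρ f d = d ∧ tor D F d = tor D F c := by
  have h0 : tor D F (twc ρ f c * c⁻¹) = 1 := by rw [map_mul, map_inv, hc, mul_inv_cancel]
  have h1 := twc_ker hσ h0
  refine ⟨c * twc ρ f (twc ρ f c * c⁻¹), ?_, by rw [map_mul, h1, mul_one]⟩
  have h4 := h2 _ h1
  simp only [map_mul, map_inv, h3] at h4 ⊢
  rw [← mul_one (twc ρ f c * _), ← h4]
  generalize twc ρ f (twc ρ f c) = b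
  generalize twc ρ f c = a
  simp only [pow_succ, pow_zero, one_mul]
  apply Additive.ofMul.injective
  simp only [ofMul_mul, ofMul_inv]
  abel

theorem act_wordProd (ω : List (Nd D)) (r : Rt D) :
    (rs h).act ((rs h).cs.wordProd ω) r = ω.foldr (fun i r => sRefl i r) r := by
  induction ω with
  | nil => simp
  | cons i ω ih => rw [CoxeterSystem.wordProd_cons, RS.act_mul, ih, rs_act_simple, List.foldr_cons]

/-- If `-1` lies in the relative Weyl group, the squares of fixed torus elements lie in `G¹`. -/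
theorem tor_sq_mem {O : Type*} (T : Tw (gam F h) O) {S : Set (List (ℕ × F))}
    (h1 : T.G1 = Subgroup.closure (wordG xg '' S)) (h2 : GenOK h T.σ T.I S) {w : W D} (hw : T.τ w = w)
    (hw' : ∀ i, (rs h).act w (Chev.simple i) = Chev.neg (Chev.simple i)) {c : Nd D → Fˣ}
    (hc : T.σ (tor D F c) = tor D F c) : tor D F (c ^ 2) ∈ T.G1 := by
  obtain ⟨n, hn, hn'⟩ := T.exists_rep hw
  have hH : tor D F c ∈ (gam F h).H := by rw [gam_H]; exact ⟨c, rfl⟩
  have key : T.G1 ≤ T.G1.comap (MulAut.conj (tor D F c)).toMonoidHom := by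
    conv_lhs => rw [h1]
    refine (Subgroup.closure_le _).2 fun g hg => ?_
    obtain ⟨o, ⟨h3, h4⟩ | ⟨h3, h4⟩⟩ := (h2 g).1 hg
    · exact T.U_le o _ (RGD0.H_conj_XS hH h3) (by simp [hc, h4])
    · exact T.V_le o _ (RGD0.H_conj_XS hH h3) (by simp [hc, h4])
  have h3 := T.G1.mul_mem (key hn) (T.G1.inv_mem hn)
  have h4 := rep_conj_tor h hn' hw' c⁻¹
  rw [map_inv, inv_inv] at h4
  rw [map_pow, pow_two]
  convert h3 using 1
  conv_lhs => enter [2]; rw [← h4]
  simp [mul_assoc]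

/-- The commutator table of a pair of roots, valid on both sides. -/
def CT (r s : Rt D) (L : List (Rt D × ℤ × ℕ × ℕ)) : Prop :=
  s ≠ r ∧ s ≠ Chev.neg r ∧ NegOK D r s ∧ D.commTerms r s = L.map fun c => ((c.1 : ℕ), c.2)

instance decCT (r s : Rt D) (L : List (Rt D × ℤ × ℕ × ℕ)) : Decidable (CT r s L) := by
  unfold CT; infer_instance

theorem Side.comm' {y : Rt D → F → D.group F} {Z : Set (Nd D) → Subgroup (D.group F)} (hy : Side y Z)
    {r s : Rt D} {L : List (Rt D × ℤ × ℕ × ℕ)} (h : CT r s L) (t u : F) : y s u * y r t =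
      y r t * y s u * (L.map fun c => y c.1 (c.2.1 * (-t) ^ c.2.2.1 * u ^ c.2.2.2)).prod := by
  rw [hy.comm r s h.1 h.2.1 h.2.2.1, commWord, h.2.2.2, wordG, List.map_map, List.map_map]
  simp [Function.comp_def]

theorem exists_sqrt_pow (p m : ℕ) : ∃ x : ℝ, x ^ 2 = (p : ℝ) ^ m := ⟨√_, Real.sq_sqrt (by positivity)⟩

end CA.CG
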