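import Cfsg.Agent.Lib.CG.Tw3
import Cfsg.Agent.Lib.Chev.InstE6
import Cfsg.Prelude.Def_LieTwisted

/-! The twisted groups of type `²E₆`. -/

set_option autoImplicit false
set_option linter.unusedSectionVars false
set_option maxHeartbeats 400000
set_option backward.isDefEq.respectTransparency false

namespace CA.CG

open Cfsg.Lie Cfsg.Lie.ChevalleyDatum CA.Chev CA.Weyl CA.BN Matrix

/-- The fundamental roots of `E₆`. -/
abbrev pE6 (i : Fin 6) : Rt chevE6 := Chev.simple (D := chevE6) i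

theorem lE6_1 : ListOK (D := chevE6) [(1 : Fin 6)] [pE6 1] (lat _ [0, 1]) := by decide +kernel
theorem lE6_3 : ListOK (D := chevE6) [(3 : Fin 6)] [pE6 3] (lat _ [0, 0, 0, 1]) := by decide +kernel
theorem lE6_24 : ListOK (D := chevE6) [(2 : Fin 6), (4 : Fin 6)] [pE6 2, pE6 4]
    (lat _ [0, 0, 1, 0, 2]) := by decide +kernel
theorem lE6_05 : ListOK (D := chevE6) [(0 : Fin 6), (5 : Fin 6)] [pE6 0, pE6 5]
    (lat _ [1, 0, 0, 0, 0, 2]) := by decide +kernel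
theorem oE6_24 : Orth chevE6 (pE6 2) (pE6 4) := by decide +kernel
theorem oE6_05 : Orth chevE6 (pE6 0) (pE6 5) := by decide +kernel

variable {K : Type*} [Field K] {q : ℕ} {φ : K →+* K} {σ : chevE6.group K →* chevE6.group K}

/-- The data defining `²E₆`. -/
structure E6Data (q : ℕ) (φ : K →+* K) (σ : chevE6.group K →* chevE6.group K) : Prop where
  pow : ∀ t, φ t = t ^ q
  inv : ∀ t, φ (φ t) = t
  gend : GEnd (D := chevE6) rhoE6 (fun _ => φ) σ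

namespace E6Data

variable (E : E6Data q φ σ)
include E

section

variable {y : Rt chevE6 → K → chevE6.group K} {Z : Set (Nd chevE6) → Subgroup (chevE6.group K)}
  (hy : Side y Z) (hL : ∀ r t, y r t ∈ L2 K r)
include hy

theorem fx0 (u : chevE6.group K) : u ∈ Z {i | i ∈ (orbE6 0).1} ∧ σ u = u ↔
    ∃ t, φ t = t ∧ u = y (pE6 1) t := hy.fx1 E.gend lE6_1 rfl u

theorem fx1 (u : chevE6.group K) : u ∈ Z {i | i ∈ (orbE6 1).1} ∧ σ u = u ↔
    ∃ t, φ t = t ∧ u = y (pE6 3) t := hy.fx1 E.gend lE6_3 rfl u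

include hL

theorem fx2 (u : chevE6.group K) : u ∈ Z {i | i ∈ (orbE6 2).1} ∧ σ u = u ↔
    ∃ t, u = y (pE6 2) t * y (pE6 4) (φ t) :=
  hy.fx2 E.gend lE6_24 rfl rfl (fun _ _ => oE6_24.commute (hL _ _) (hL _ _)) E.inv u

theorem fx3 (u : chevE6.group K) : u ∈ Z {i | i ∈ (orbE6 3).1} ∧ σ u = u ↔
    ∃ t, u = y (pE6 0) t * y (pE6 5) (φ t) :=
  hy.fx2 E.gend lE6_05 rfl rfl (fun _ _ => oE6_05.commute (hL _ _) (hL _ _)) E.inv u

end

theorem genOK : GenOK hE6 σ (fun o => {i | i ∈ (orbE6 o).1}) (e6Words K q) := by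
  intro g
  have w1 : ∀ (i : Fin 6) (t : K) r, r = chevE6.simple i → wordG xg [(r, t)] = xg (pE6 i) t :=
    fun i t r h => by rw [wordG_single, xN_simple _ i h]
  have w2 : ∀ (i : Fin 6) (t : K) r, r = chevE6.neg (chevE6.simple i) →
      wordG xg [(r, t)] = yg (pE6 i) (-t) :=
    fun i t r h => by rw [wordG_single, xN_neg_simple _ i h, yg, _root_.neg_neg]
  have w3 : ∀ (i j : Fin 6) (t : K) r s, r = chevE6.simple i → s = chevE6.simple j →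
      wordG xg [(r, t), (s, t ^ q)] = xg (pE6 i) t * xg (pE6 j) (φ t) :=
    fun i j t r s h h' => by rw [wordG_cons, w1 j _ _ h', xN_simple _ i h, E.pow]
  have w4 : ∀ (i j : Fin 6) (t : K) r s, r = chevE6.neg (chevE6.simple i) →
      s = chevE6.neg (chevE6.simple j) →
      wordG xg [(r, t), (s, t ^ q)] = yg (pE6 i) (-t) * yg (pE6 j) (φ (-t)) :=
    fun i j t r s h h' => by
      rw [wordG_cons, w2 j _ _ h', xN_neg_simple _ i h, map_neg, E.pow, yg, yg, _root_.neg_neg,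
        _root_.neg_neg]
  constructor
  · rintro ⟨w, (⟨t, ht, r, hr, rfl⟩ | ⟨t, r, hr, rfl⟩), rfl⟩ <;>
      simp only [List.mem_cons, List.not_mem_nil, or_false] at hr
    · rw [← E.pow] at ht
      rcases hr with rfl | rfl | rfl | rfl
      · exact ⟨0, Or.inl ((E.fx0 (side_pos hE6) _).2 ⟨t, ht, w1 1 _ _ rfl⟩)⟩
      · exact ⟨0, Or.inr ((E.fx0 (side_neg hE6) _).2 ⟨-t, by simp [ht], w2 1 _ _ rfl⟩)⟩
      · exact ⟨1, Or.inl ((E.fx1 (side_pos hE6) _).2 ⟨t, ht, w1 3 _ _ rfl⟩)⟩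
      · exact ⟨1, Or.inr ((E.fx1 (side_neg hE6) _).2 ⟨-t, by simp [ht], w2 3 _ _ rfl⟩)⟩
    · rcases hr with rfl | rfl | rfl | rfl
      · exact ⟨3, Or.inl ((E.fx3 (side_pos hE6) x_mem_L2 _).2 ⟨t, w3 0 5 _ _ _ rfl rfl⟩)⟩
      · exact ⟨3, Or.inr ((E.fx3 (side_neg hE6) y_mem_L2 _).2 ⟨-t, w4 0 5 _ _ _ rfl rfl⟩)⟩
      · exact ⟨2, Or.inl ((E.fx2 (side_pos hE6) x_mem_L2 _).2 ⟨t, w3 2 4 _ _ _ rfl rfl⟩)⟩
      · exact ⟨2, Or.inr ((E.fx2 (side_neg hE6) y_mem_L2 _).2 ⟨-t, w4 2 4 _ _ _ rfl rfl⟩)⟩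
  · rintro ⟨o, ho⟩
    fin_cases o <;> rcases ho with ho | ho
    · obtain ⟨t, ht, rfl⟩ := (E.fx0 (side_pos hE6) _).1 ho
      exact ⟨_, Or.inl ⟨t, by rw [← E.pow, ht], e6p2, by simp, rfl⟩, w1 1 _ _ rfl⟩
    · obtain ⟨t, ht, rfl⟩ := (E.fx0 (side_neg hE6) _).1 ho
      exact ⟨_, Or.inl ⟨-t, by rw [← E.pow, map_neg, ht], e6m2, by simp, rfl⟩,
        (w2 1 _ _ rfl).trans (by rw [_root_.neg_neg])⟩
    · obtain ⟨t, ht, rfl⟩ := (E.fx1 (side_pos hE6) _).1 ho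
      exact ⟨_, Or.inl ⟨t, by rw [← E.pow, ht], e6p4, by simp, rfl⟩, w1 3 _ _ rfl⟩
    · obtain ⟨t, ht, rfl⟩ := (E.fx1 (side_neg hE6) _).1 ho
      exact ⟨_, Or.inl ⟨-t, by rw [← E.pow, map_neg, ht], e6m4, by simp, rfl⟩,
        (w2 3 _ _ rfl).trans (by rw [_root_.neg_neg])⟩
    · obtain ⟨t, rfl⟩ := (E.fx2 (side_pos hE6) x_mem_L2 _).1 ho
      exact ⟨_, Or.inr ⟨t, (e6p3, e6p5), by simp, rfl⟩, w3 2 4 _ _ _ rfl rfl⟩
    · obtain ⟨t, rfl⟩ := (E.fx2 (side_neg hE6) y_mem_L2 _).1 ho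
      exact ⟨_, Or.inr ⟨-t, (e6m3, e6m5), by simp, rfl⟩, (w4 2 4 _ _ _ rfl rfl).trans (by rw [_root_.neg_neg])⟩
    · obtain ⟨t, rfl⟩ := (E.fx3 (side_pos hE6) x_mem_L2 _).1 ho
      exact ⟨_, Or.inr ⟨t, (e6p1, e6p6), by simp, rfl⟩, w3 0 5 _ _ _ rfl rfl⟩
    · obtain ⟨t, rfl⟩ := (E.fx3 (side_neg hE6) y_mem_L2 _).1 ho
      exact ⟨_, Or.inr ⟨-t, (e6m1, e6m6), by simp, rfl⟩, (w4 0 5 _ _ _ rfl rfl).trans (by rw [_root_.neg_neg])⟩

theorem nontriv : ∀ o, ∃ u ∈ (gam K hE6).VJ {i | i ∈ (orbE6 o).1}, σ u = u ∧ u ≠ 1 := by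
  have hy := side_neg (F := K) hE6
  intro o
  fin_cases o
  · obtain ⟨h1, h2⟩ := (E.fx0 hy _).2 ⟨1, map_one _, rfl⟩
    exact ⟨_, h1, h2, fun e => one_ne_zero (hy.inj_nil (lE6_1.2.2 _ (by simp)) (e.trans (hy.zero _).symm))⟩
  · obtain ⟨h1, h2⟩ := (E.fx1 hy _).2 ⟨1, map_one _, rfl⟩
    exact ⟨_, h1, h2, fun e => one_ne_zero (hy.inj_nil (lE6_3.2.2 _ (by simp)) (e.trans (hy.zero _).symm))⟩
  · obtain ⟨h1, h2⟩ := (E.fx2 hy y_mem_L2 _).2 ⟨1, rfl⟩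
    exact ⟨_, h1, h2, fun e => one_ne_zero (hy.inj2 lE6_24.2.1 lE6_24.2.2 (b' := 0)
      (e.trans (by rw [hy.zero, hy.zero, mul_one]))).1⟩
  · obtain ⟨h1, h2⟩ := (E.fx3 hy y_mem_L2 _).2 ⟨1, rfl⟩
    exact ⟨_, h1, h2, fun e => one_ne_zero (hy.inj2 lE6_05.2.1 lE6_05.2.2 (b' := 0)
      (e.trans (by rw [hy.zero, hy.zero, mul_one]))).1⟩

/-- The twisted group. -/
noncomputable def tw : Tw (gam K hE6) (Fin 4) :=
  E.gend.tw' hE6 (by decide) cartanCoxE6 colsE6_spec orbE6_ok E.genOK E.nontriv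

theorem map_G1 : E.tw.G1.map (chevE6.group K).subtype = twistedE6 K q := map_gen _

theorem mem1 {i : Fin 6} (hi : i = 1 ∨ i = 3) (t : K) (ht : φ t = t) :
    xg (pE6 i) t ∈ E.tw.G1 ∧ xg (Chev.neg (pE6 i)) t ∈ E.tw.G1 := by
  rcases hi with rfl | rfl
  · have h1 := (E.fx0 (side_pos hE6) _).2 ⟨t, ht, rfl⟩
    have h2 := (E.fx0 (side_neg hE6) _).2 ⟨-t, by simp [ht], rfl⟩
    exact ⟨E.tw.U_le 0 _ h1.1 h1.2, by simpa [yg] using E.tw.V_le 0 _ h2.1 h2.2⟩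
  · have h1 := (E.fx1 (side_pos hE6) _).2 ⟨t, ht, rfl⟩
    have h2 := (E.fx1 (side_neg hE6) _).2 ⟨-t, by simp [ht], rfl⟩
    exact ⟨E.tw.U_le 1 _ h1.1 h1.2, by simpa [yg] using E.tw.V_le 1 _ h2.1 h2.2⟩

theorem mem24 (t : K) : xg (pE6 2) (RingHom.id K t) * xg (pE6 4) (φ t) ∈ E.tw.G1 ∧
    xg (Chev.neg (pE6 2)) (RingHom.id K t) * xg (Chev.neg (pE6 4)) (φ t) ∈ E.tw.G1 := by
  have h1 := (E.fx2 (side_pos hE6) x_mem_L2 _).2 ⟨t, rfl⟩
  have h2 := (E.fx2 (side_neg hE6) y_mem_L2 _).2 ⟨-t, rfl⟩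
  exact ⟨E.tw.U_le 2 _ h1.1 h1.2, by simpa [yg] using E.tw.V_le 2 _ h2.1 h2.2⟩

theorem mem05 (t : K) : xg (pE6 0) (RingHom.id K t) * xg (pE6 5) (φ t) ∈ E.tw.G1 ∧
    xg (Chev.neg (pE6 0)) (RingHom.id K t) * xg (Chev.neg (pE6 5)) (φ t) ∈ E.tw.G1 := by
  have h1 := (E.fx3 (side_pos hE6) x_mem_L2 _).2 ⟨t, rfl⟩
  have h2 := (E.fx3 (side_neg hE6) y_mem_L2 _).2 ⟨-t, rfl⟩
  exact ⟨E.tw.U_le 3 _ h1.1 h1.2, by simpa [yg] using E.tw.V_le 3 _ h2.1 h2.2⟩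

theorem tor_mem (c : Fin 6 → Kˣ) (hc : twc (D := chevE6) rhoE6 (fun _ => φ) c = c) :
    tor chevE6 K c ∈ E.tw.G1 := by
  have h := (twc_eq_iff _ _ _ _).1 hc
  have e : c = Pi.mulSingle 1 (c 1) * Pi.mulSingle 3 (c 3) *
      (Pi.mulSingle 2 (c 2) * Pi.mulSingle 4 (c 4)) * (Pi.mulSingle 0 (c 0) * Pi.mulSingle 5 (c 5)) := by
    funext i; fin_cases i <;> simp
  rw [e, map_mul, map_mul, map_mul, map_mul, map_mul, tor_single, tor_single, tor_single, tor_single,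
    tor_single, tor_single]
  refine Subgroup.mul_mem _ (Subgroup.mul_mem _ (Subgroup.mul_mem _
    (n1_mem (E.mem1 (Or.inl rfl)) (h (1 : Fin 6))).2 (n1_mem (E.mem1 (Or.inr rfl)) (h (3 : Fin 6))).2) ?_) ?_
  · have := (n2_mem oE6_24 E.mem24 (c 2)).2
    rwa [h (2 : Fin 6)] at this
  · have := (n2_mem oE6_05 E.mem05 (c 0)).2
    rwa [h (0 : Fin 6)] at this

omit E in
theorem ker_iff (c : Fin 6 → Kˣ) : tor chevE6 K c = 1 ↔
    c 0 ^ 3 = 1 ∧ c = ![c 0, 1, c 0 ^ 2, 1, c 0, c 0 ^ 2] := by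
  rw [kerE6.mem_ker_iff]
  simp only [Fin.forall_fin_one, Fin.prod_univ_one]
  refine and_congr Iff.rfl ⟨fun h => funext fun i => (h i).trans ?_, fun h i => (congrFun h i).trans ?_⟩ <;>
  fin_cases i <;> simp [lf, zpow_ofNat]

theorem H_inf : (gam K hE6).H ⊓ E.tw.G1 =
    ((twc (D := chevE6) rhoE6 fun _ => φ).eqLocus (MonoidHom.id _)).map (tor chevE6 K) := by
  refine H_inf_eq E.tw E.gend E.tor_mem (lift_fixed_two (twc_two (by decide) fun _ => E.inv) fun z hz => ?_)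
  obtain ⟨h1, h2⟩ := (ker_iff z).1 hz
  rw [h2]
  funext i
  fin_cases i <;> simp [h1, pow_right_comm _ 2]

theorem card_C [Fintype K] (hq : 1 < q) (hK : Fintype.card K = q ^ 2) :
    Nat.card ((twc (D := chevE6) rhoE6 fun _ => φ).eqLocus (MonoidHom.id _)) =
      (q - 1) * (q - 1) * ((q ^ 2 - 1) * (q ^ 2 - 1)) := by
  refine (card_of_param (P := ({z : Kˣ // (z : K) ^ q = z} × {z : Kˣ // (z : K) ^ q = z}) × (Kˣ × Kˣ))
    (p := fun a => ![a.2.1, a.1.1, a.2.2, a.1.2, Units.map φ.toMonoidHom a.2.2,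
      Units.map φ.toMonoidHom a.2.1]) ?_ ?_).trans ?_
  rotate_left 2
  · simp only [Nat.card_prod, card_fixed_units hq hK, Nat.card_units, Nat.card_eq_fintype_card, hK]
  · rintro ⟨⟨a, b⟩, c, d⟩ ⟨⟨a', b'⟩, c', d'⟩ e
    exact Prod.ext (Prod.ext (Subtype.ext (congrFun e (1 : Fin 6))) (Subtype.ext (congrFun e (3 : Fin 6))))
      (Prod.ext (congrFun e (0 : Fin 6)) (congrFun e (2 : Fin 6)))
  · intro c
    refine (twc_eq_iff _ _ _ _).trans ⟨fun h => ⟨((⟨c (1 : Fin 6), by rw [← E.pow]; exact h (1 : Fin 6)⟩,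
      ⟨c (3 : Fin 6), by rw [← E.pow]; exact h (3 : Fin 6)⟩), (c (0 : Fin 6), c (2 : Fin 6))), ?_⟩, ?_⟩
    · funext i
      fin_cases i
      exacts [rfl, rfl, rfl, rfl, Units.ext (h (2 : Fin 6)).symm, Units.ext (h (0 : Fin 6)).symm]
    · rintro ⟨⟨⟨a, b⟩, c, d⟩, rfl⟩ i
      fin_cases i
      exacts [rfl, (E.pow _).trans a.2, rfl, (E.pow _).trans b.2, E.inv _, E.inv _]

theorem card_ker [Fintype K] (hq : 1 < q) (hK : Fintype.card K = q ^ 2) :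
    Nat.card ↥((tor chevE6 K).ker ⊓ (twc (D := chevE6) rhoE6 fun _ => φ).eqLocus (MonoidHom.id _)) =
      Nat.gcd 3 (q + 1) := by
  refine (card_of_param (P := {z : Kˣ // z ^ Nat.gcd 3 (q + 1) = 1})
    (p := fun a => ![a.1, 1, a.1 ^ 2, 1, a.1, a.1 ^ 2]) ?_ ?_).trans ?_
  rotate_left 2
  · rw [card_pow_eq_one, hK, Nat.gcd_eq_left]
    exact (Nat.gcd_dvd_right _ _).trans ⟨q - 1, by simpa using Nat.sq_sub_sq q 1⟩
  · intro a b e
    exact Subtype.ext (congrFun e (0 : Fin 6))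
  · intro c
    have key : ∀ z : Kˣ, z ^ 3 = 1 → (φ z = (z ^ 2 : Kˣ) ↔ z ^ (q + 1) = 1) := fun z hz => by
      rw [E.pow, ← Units.val_pow_eq_pow_val, Units.val_inj, pow_succ z q, ← hz, pow_succ z 2, mul_left_inj]
    refine (and_congr (ker_iff c) (twc_eq_iff _ _ _ _)).trans ⟨fun ⟨⟨h1, h2⟩, h3⟩ =>
      ⟨⟨c (0 : Fin 6), pow_gcd_eq_one.2 ⟨h1, (key _ h1).1 ?_⟩⟩, h2⟩, ?_⟩
    · exact (h3 (0 : Fin 6)).trans (congrArg Units.val (congrFun h2 5))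
    · rintro ⟨⟨z, hz⟩, rfl⟩
      obtain ⟨h1, h2⟩ := pow_gcd_eq_one.1 hz
      have h3 := (key z h1).2 h2
      have h4 : φ (z ^ 2 : Kˣ) = z := by rw [← h3, E.inv]
      refine ⟨⟨h1, rfl⟩, fun i => ?_⟩
      fin_cases i
      exacts [h3, map_one _, h4, map_one _, h3, h4]

theorem card_H [Fintype K] (hq : 1 < q) (hK : Fintype.card K = q ^ 2) :
    Nat.gcd 3 (q + 1) * Nat.card ↥(chevE6.diagonalSubgroup K ⊓ twistedE6 K q) =
      (q - 1) ^ 4 * (q + 1) ^ 2 := by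
  rw [← E.map_G1, tw_card_H, ← E.card_ker hq hK, card_H_inf hE6 E.H_inf, E.card_C hq hK,
    show q ^ 2 - 1 = (q + 1) * (q - 1) by simpa using Nat.sq_sub_sq q 1]
  ring

theorem hx [Fintype K] (hq : 1 < q) (hK : Fintype.card K = q ^ 2) (o : Fin 4) :
    (Nat.card (E.tw.Fx ((gam K hE6).UJ (E.tw.I o))) : ℝ) = (q : ℝ) ^ (rs hE6).cs.length (E.tw.wI o) := by
  have hy := side_pos (F := K) hE6
  rw [show (rs hE6).cs.length (E.tw.wI o) = (orbE6 o).2.length from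
    (cartanCoxE6.isLongest_of_longb _ colsE6_spec _ (orbE6_ok.2 o).2.2).2.1]
  fin_cases o
  · rw [card_of_param (P := {t : K // t ^ q = t}) (p := fun t => xg (pE6 1) t.1)
      (fun _ _ e => Subtype.ext (xg_injective _ e)) fun u => (E.fx0 hy u).trans (by simp [E.pow]),
      card_fixed hq hK]
    simp [orbE6]
  · rw [card_of_param (P := {t : K // t ^ q = t}) (p := fun t => xg (pE6 3) t.1)
      (fun _ _ e => Subtype.ext (xg_injective _ e)) fun u => (E.fx1 hy u).trans (by simp [E.pow]),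
      card_fixed hq hK]
    simp [orbE6]
  · rw [card_of_param (fun _ _ e => (hy.inj2 lE6_24.2.1 lE6_24.2.2 e).1) (E.fx2 hy x_mem_L2),
      Nat.card_eq_fintype_card, hK]
    simp [orbE6]
  · rw [card_of_param (fun _ _ e => (hy.inj2 lE6_05.2.1 lE6_05.2.2 e).1) (E.fx3 hy x_mem_L2),
      Nat.card_eq_fintype_card, hK]
    simp [orbE6]

theorem card_U [Fintype K] (hq : 1 < q) (hK : Fintype.card K = q ^ 2) :
    Nat.card ↥(chevE6.posUnipotent K ⊓ twistedE6 K q) = q ^ 36 := by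
  have := tw_card_U E.tw (E.hx hq hK)
  rw [E.map_G1] at this
  exact_mod_cast this

theorem card [Fintype K] (hq : 1 < q) (hK : Fintype.card K = q ^ 2) :
    Nat.gcd 3 (q + 1) * Nat.card (twistedE6 K q) =
      q ^ 36 * (q ^ 2 - 1) * (q ^ 5 + 1) * (q ^ 6 - 1) * (q ^ 8 - 1) * (q ^ 9 + 1) * (q ^ 12 - 1) := by
  have h1 := tw_card E.tw (E.hx hq hK) (poinTwE6 _ _ E.tw.hτ)
  have h2 := congrArg (Nat.cast (R := ℝ)) (E.card_H hq hK)
  have h0 : 0 < q := by omega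
  rw [E.map_G1, show chevE6.nroots / 2 = 36 from rfl] at h1
  apply Nat.cast_injective (R := ℝ)
  simp only [Nat.cast_mul, cast_pow_sub h0, Nat.cast_pow, Nat.cast_sub h0, Nat.cast_one, Nat.cast_add,
    Nat.cast_ofNat] at h2 ⊢
  rw [h1, show geo 6 (q : ℝ) = (q + 1) * (q ^ 4 + q ^ 2 + 1) by simp [geo, Finset.sum_range_succ]; ring,
    show geo 8 (q : ℝ) = (q + 1) * ((q ^ 2 + 1) * (q ^ 4 + 1)) by simp [geo, Finset.sum_range_succ]; ring]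
  linear_combination (q ^ 36 * (geo 2 q * (q ^ 5 + 1) * (q ^ 4 + q ^ 2 + 1) *
    ((q ^ 2 + 1) * (q ^ 4 + 1)) * (q ^ 9 + 1) * geo 12 q) : ℝ) * h2

theorem core : ((gam K hE6).Bor.subgroupOf E.tw.G1).normalCore = ⊥ := by
  refine tw_core_of E.tw fun i => ?_
  have h1 : oprod xg [pE6 2, pE6 4] (fun _ => 1) ∈ E.tw.G1 := by simpa using (E.mem24 1).1
  have h2 : oprod xg [pE6 0, pE6 5] (fun _ => 1) ∈ E.tw.G1 := by simpa using (E.mem05 1).1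
  fin_cases i
  · exact ⟨_, _, _, lE6_05, by decide, _, one_ne_zero, h2⟩
  · exact ⟨_, _, _, lE6_1, by decide, fun _ => 1, one_ne_zero,
      by simpa using (E.mem1 (Or.inl rfl) 1 (map_one _)).1⟩
  · exact ⟨_, _, _, lE6_24, by decide, _, one_ne_zero, h1⟩
  · exact ⟨_, _, _, lE6_3, by decide, fun _ => 1, one_ne_zero,
      by simpa using (E.mem1 (Or.inr rfl) 1 (map_one _)).1⟩
  · exact ⟨_, _, _, lE6_24, by decide, _, one_ne_zero, h1⟩
  · exact ⟨_, _, _, lE6_05, by decide, _, one_ne_zero, h2⟩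

theorem perfect (hb : ∃ b : Kˣ, b ≠ 1) : commutator E.tw.G1 = ⊤ := by
  have hy := side_pos (F := K) hE6
  obtain ⟨b, hb⟩ := hb
  have hb' : ((b⁻¹ : Kˣ) : K) ≠ 1 := by simpa using hb
  have h47 : ∀ t, φ t = t → xg (sRefl (1 : Fin 6) (pE6 3)) t ∈ ⁅E.tw.G1, E.tw.G1⁆ := fun t ht => by
    simpa using comm_single (r := pE6 1) (s := pE6 3) (k := sRefl (1 : Fin 6) (pE6 3)) (ε := -1)
      (by decide +kernel) (by decide +kernel) (by decide +kernel) (E.mem1 (Or.inl rfl) t ht).1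
      (E.mem1 (Or.inr rfl) 1 (map_one _)).1
  have n1 : nG xg (pE6 1) 1 ∈ E.tw.G1 := (n1_mem (E.mem1 (Or.inl rfl)) (map_one φ)).1
  have n3 : nG xg (pE6 3) 1 ∈ E.tw.G1 := (n1_mem (E.mem1 (Or.inr rfl)) (map_one φ)).1
  refine tw_perfect' E.tw rfl E.genOK fun o u hu hu' => ?_
  fin_cases o
  · obtain ⟨t, ht, rfl⟩ := (E.fx0 hy u).1 ⟨hu, hu'⟩
    refine mem_comm_of_sRefl n3 ?_
    rw [show sRefl (D := chevE6) (3 : Fin 6) (pE6 1) = sRefl (1 : Fin 6) (pE6 3) by decide +kernel]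
    exact h47 t ht
  · obtain ⟨t, ht, rfl⟩ := (E.fx1 hy u).1 ⟨hu, hu'⟩
    exact mem_comm_of_sRefl n1 (h47 t ht)
  · obtain ⟨t, rfl⟩ := (E.fx2 hy x_mem_L2 u).1 ⟨hu, hu'⟩
    refine mem_comm_of_tor (g := fun t => xg (pE6 2) t * xg (pE6 4) (φ t)) (n2_mem oE6_05 E.mem05 b).2
      (fun t => (E.mem24 t).1) (fun s t => ?_) hb' (fun t => ?_) t
    · rw [map_add, hy.add, hy.add, (oE6_24.commute (x_mem_L2 _ _) (x_mem_L2 _ _)).symm.mul_mul_mul_comm]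
    · rw [← conj_mul, hconj2 _ _ _ (by simp) (by simp), hconj2 _ _ _ (by simp) (by simp),
        show pr (pE6 0) (pE6 2) = -1 by decide +kernel, show pr (pE6 5) (pE6 2) = 0 by decide +kernel,
        show pr (pE6 0) (pE6 4) = 0 by decide +kernel, show pr (pE6 5) (pE6 4) = -1 by decide +kernel]
      simp
  · obtain ⟨t, rfl⟩ := (E.fx3 hy x_mem_L2 u).1 ⟨hu, hu'⟩
    refine mem_comm_of_tor (g := fun t => xg (pE6 0) t * xg (pE6 5) (φ t)) (n2_mem oE6_24 E.mem24 b).2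
      (fun t => (E.mem05 t).1) (fun s t => ?_) hb' (fun t => ?_) t
    · rw [map_add, hy.add, hy.add, (oE6_05.commute (x_mem_L2 _ _) (x_mem_L2 _ _)).symm.mul_mul_mul_comm]
    · rw [← conj_mul, hconj2 _ _ _ (by simp) (by simp), hconj2 _ _ _ (by simp) (by simp),
        show pr (pE6 2) (pE6 0) = -1 by decide +kernel, show pr (pE6 4) (pE6 0) = 0 by decide +kernel,
        show pr (pE6 2) (pE6 5) = 0 by decide +kernel, show pr (pE6 4) (pE6 5) = -1 by decide +kernel]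
      simp

omit E in
theorem exists_ne_one [Fintype K] {n : ℕ} (hq : 1 < q) (hn : 1 < n) (hK : Fintype.card K = q ^ n) :
    ∃ b : Kˣ, b ≠ 1 := by
  obtain ⟨c, hc⟩ := exists_sq_ne_one (K := K) (by
    rw [hK]
    calc 3 < 2 ^ 2 := by norm_num
      _ ≤ q ^ 2 := Nat.pow_le_pow_left hq 2
      _ ≤ q ^ n := Nat.pow_le_pow_right (by omega) hn)
  exact ⟨_, hc⟩

theorem perfect' [Fintype K] (hq : 1 < q) (hK : Fintype.card K = q ^ 2) :
    commutator (twistedE6 K q) = ⊤ := by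
  rw [← E.map_G1]
  exact perfect_of_equiv (upEquiv _) (E.perfect (exists_ne_one hq one_lt_two hK))

theorem simple [Fintype K] (hq : 1 < q) (hK : Fintype.card K = q ^ 2) :
    IsSimpleGroup (twistedE6 K q) ∧ ¬ IsMulCommutative (twistedE6 K q) := by
  rw [← E.map_G1]
  exact tw_simple E.tw (irrE6 _) (E.perfect (exists_ne_one hq one_lt_two hK)) E.core

theorem bn : ∃ P : Cfsg.BNPair ↥(twistedE6 K q),
    P.B = (chevE6.borelSubgroup K ⊓ twistedE6 K q).subgroupOf (twistedE6 K q) ∧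
    P.N = (chevE6.monomialSubgroup K ⊓ twistedE6 K q).subgroupOf (twistedE6 K q) := by
  rw [← E.map_G1]
  exact tw_bn E.tw

theorem hom : ∃ φ : ↥(chevE6.monomialSubgroup K ⊓ twistedE6 K q) →* (CoxeterMatrix.F₄).Group,
    Function.Surjective φ ∧ φ.ker = (chevE6.diagonalSubgroup K ⊓ twistedE6 K q).subgroupOf
      (chevE6.monomialSubgroup K ⊓ twistedE6 K q) := by
  rw [← E.map_G1]
  exact tw_hom E.tw (fixedE6 _ _ E.tw.hτ)

theorem core' : ((chevE6.borelSubgroup K ⊓ twistedE6 K q).subgroupOf (twistedE6 K q)).normalCore = ⊥ := by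
  rw [← E.map_G1]
  exact tw_core' E.tw E.core

end E6Data

end CA.CG
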