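import Cfsg.Agent.Lib.CG.TwInst
import Cfsg.Agent.Lib.CG.EvalP
import Cfsg.Agent.Lib.Chev.AutG2

/-! The twisted groups of type `²G₂`. -/

set_option autoImplicit false
set_option linter.unusedSectionVars false
set_option maxHeartbeats 400000
set_option backward.isDefEq.respectTransparency false

namespace CA.CG

open Cfsg.Lie Cfsg.Lie.ChevalleyDatum CA.Chev CA.Weyl CA.BN Matrix

/-- The roots of `G₂`. -/
def rG2 (i : Fin 12) : Rt chevG2 := i

theorem lG2 : ListOK (D := chevG2) [(0 : Fin 2), (1 : Fin 2)]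
    [rG2 7, rG2 6, rG2 8, rG2 9, rG2 10, rG2 11] (lat _ [4, 7]) := by decide +kernel

variable {K : Type*} [Field K]

/-- The normal form in the unipotent subgroup. -/
def NG (y : Rt chevG2 → K → chevG2.group K) (s t c d e f : K) : chevG2.group K :=
  y (rG2 7) s * (y (rG2 6) t * (y (rG2 8) c * (y (rG2 9) d * (y (rG2 10) e * y (rG2 11) f))))

theorem NG_eq (y : Rt chevG2 → K → chevG2.group K) (s t c d e f : K) : NG y s t c d e f =
    oprod y [rG2 7, rG2 6, rG2 8, rG2 9, rG2 10, rG2 11]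
      fun r => [0, 0, 0, 0, 0, 0, t, s, c, d, e, f].getD r 0 := by
  simp only [oprod_cons, oprod_nil, mul_one]
  rfl

section

variable {y : Rt chevG2 → K → chevG2.group K} {Z : Set (Nd chevG2) → Subgroup (chevG2.group K)}
  (hy : Side y Z)
include hy

theorem NG_mul (h3 : (3 : K) = 0) (s t c d e f s' t' c' d' e' f' : K) :
    NG y s t c d e f * NG y s' t' c' d' e' f' = NG y (s + s') (t + t') (s' * t + c + c')
      (s' ^ 2 * t - s' * c + d + d') (e + e' - s' ^ 3 * t)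
      (f + f' - s' ^ 3 * t ^ 2 - t' * (e - s' ^ 3 * t)) := by
  have c0 : ∀ r t u g, y r t * (y r u * g) = y r (t + u) * g := fun r t u g => by rw [hy.add, mul_assoc]
  have c1 : ∀ s t g, y (rG2 6) t * (y (rG2 7) s * g) = y (rG2 7) s * (y (rG2 6) t * (y (rG2 8) (s * t) *
      (y (rG2 9) (s ^ 2 * t) * (y (rG2 10) (-(s ^ 3 * t)) * (y (rG2 11) (-(s ^ 3 * t ^ 2)) * g))))) :=
    fun s t g => by
      rw [← mul_assoc, hy.comm' (L := [(rG2 8, -1, 1, 1), (rG2 9, 1, 2, 1), (rG2 10, 1, 3, 1),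
        (rG2 11, 1, 3, 2)]) (by decide +kernel)]
      simp [mul_assoc, Odd.neg_pow (show Odd 3 by decide)]
  have c2 : ∀ s t g, y (rG2 8) t * (y (rG2 7) s * g) =
      y (rG2 7) s * (y (rG2 8) t * (y (rG2 9) (-(s * t)) * g)) := fun s t g => by
    rw [← mul_assoc, hy.comm' (L := [(rG2 9, -2, 1, 1), (rG2 10, -3, 2, 1), (rG2 11, 3, 1, 2)])
      (by decide +kernel), show -(s * t) = 2 * (s * t) by linear_combination -(s * t) * h3]
    simp [mul_assoc, h3, hy.zero]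
  have c3 : ∀ s t g, y (rG2 9) t * (y (rG2 7) s * g) = y (rG2 7) s * (y (rG2 9) t * g) := fun s t g => by
    rw [← mul_assoc, hy.comm' (L := [(rG2 10, 3, 1, 1)]) (by decide +kernel)]
    simp [mul_assoc, h3, hy.zero]
  have c4 : ∀ s t g, y (rG2 9) t * (y (rG2 8) s * g) = y (rG2 8) s * (y (rG2 9) t * g) := fun s t g => by
    rw [← mul_assoc, hy.comm' (L := [(rG2 11, 3, 1, 1)]) (by decide +kernel)]
    simp [mul_assoc, h3, hy.zero]
  have c5 : ∀ s t g, y (rG2 10) t * (y (rG2 6) s * g) =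
      y (rG2 6) s * (y (rG2 10) t * (y (rG2 11) (-(s * t)) * g)) := fun s t g => by
    rw [← mul_assoc, hy.comm' (L := [(rG2 11, 1, 1, 1)]) (by decide +kernel)]
    simp [mul_assoc]
  have c6 : ∀ r r', CT r r' [] → ∀ s t g, y r' t * (y r s * g) = y r s * (y r' t * g) :=
    fun r r' h s t g => by rw [← mul_assoc, hy.comm' h]; simp [mul_assoc]
  refine mul_right_cancel (b := 1) ?_
  simp only [NG, mul_assoc, c0, c1, c2, c3, c4, c5, c6 (rG2 7) (rG2 10) (by decide +kernel),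
    c6 (rG2 7) (rG2 11) (by decide +kernel), c6 (rG2 6) (rG2 8) (by decide +kernel),
    c6 (rG2 6) (rG2 9) (by decide +kernel), c6 (rG2 6) (rG2 11) (by decide +kernel),
    c6 (rG2 8) (rG2 10) (by decide +kernel), c6 (rG2 8) (rG2 11) (by decide +kernel),
    c6 (rG2 9) (rG2 10) (by decide +kernel), c6 (rG2 9) (rG2 11) (by decide +kernel),
    c6 (rG2 10) (rG2 11) (by decide +kernel)]
  congr 3
  · congr 1; ring
  congr 1
  · congr 1; ring
  congr 1
  · congr 1; ring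
  congr 2; ring

theorem NG_inj {s t c d e f s' t' c' d' e' f' : K} (h : NG y s t c d e f = NG y s' t' c' d' e' f') :
    s = s' ∧ t = t' ∧ c = c' ∧ d = d' ∧ e = e' ∧ f = f' := by
  rw [NG_eq, NG_eq] at h
  have := hy.inj lG2.2.1 lG2.2.2 h
  exact ⟨this (rG2 7) (by simp), this (rG2 6) (by simp), this (rG2 8) (by simp), this (rG2 9) (by simp),
    this (rG2 10) (by simp), this (rG2 11) (by simp)⟩

theorem NG_mem (g : chevG2.group K) :
    g ∈ Z {i | i ∈ (orbG2 0).1} ↔ ∃ s t c d e f, g = NG y s t c d e f := by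
  refine (hy.ex lG2 g).trans ⟨?_, ?_⟩
  · rintro ⟨t, rfl⟩
    exact ⟨_, _, _, _, _, _, by simp only [oprod_cons, oprod_nil, mul_one]; rfl⟩
  · rintro ⟨s, t, c, d, e, f, rfl⟩
    exact ⟨_, NG_eq ..⟩

theorem NG_zero : NG y 0 0 0 0 0 0 = 1 := by simp [NG, hy.zero]

end

variable {e : ℕ} {θ ψ : K →+* K} {σ : chevG2.group K →* chevG2.group K}

/-- The action of the twisting endomorphism on the positive root elements. -/
def G2Act (θ ψ : K →+* K) (σ : chevG2.group K →* chevG2.group K)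
    (y : Rt chevG2 → K → chevG2.group K) : Prop :=
  (∀ t, σ (y (rG2 7) t) = y (rG2 6) (ψ t)) ∧ (∀ t, σ (y (rG2 6) t) = y (rG2 7) (θ t)) ∧
    (∀ t, σ (y (rG2 8) t) = y (rG2 10) (ψ t)) ∧ (∀ t, σ (y (rG2 9) t) = y (rG2 11) (ψ t)) ∧
    (∀ t, σ (y (rG2 10) t) = y (rG2 8) (θ t)) ∧ ∀ t, σ (y (rG2 11) t) = y (rG2 9) (θ t)

/-- The data defining `²G₂`. -/
structure G2Data (e : ℕ) (θ ψ : K →+* K) (σ : chevG2.group K →* chevG2.group K) : Prop where
  three : (3 : K) = 0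
  pow : ∀ t, θ t = t ^ e
  cube : ∀ t, ψ t = θ t ^ 3
  inv : ∀ t, ψ (θ t) = t
  pos : G2Act θ ψ σ xg
  neg : G2Act θ ψ σ yg

/-- The fixed points in the unipotent subgroup. -/
def RG (θ : K →+* K) (y : Rt chevG2 → K → chevG2.group K) (t u v : K) : chevG2.group K :=
  NG y (θ t) t (θ t * t + θ u) (θ t ^ 2 * t + θ v) u v

/-- The fixed points over the prime field as words. -/
def reeN (t u v : ℕ) : List (ℕ × ℕ) := [(7, t), (6, t), (8, t * t + u), (9, t ^ 2 * t + v), (10, u), (11, v)]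

/-- The negative fixed points over the prime field as words. -/
def reeN' (t u v : ℕ) : List (ℕ × ℕ) := (reeN t u v).map fun q => (11 - q.1, 2 * q.2)

theorem RG_pos (t u v : ℕ) :
    RG θ xg t u v = wordG xg ((reeN t u v).map fun q => (q.1, (q.2 : K))) := by
  simp only [RG, reeN, List.map_cons, List.map_nil, wordG_cons, wordG_nil, mul_one, map_natCast]
  push_cast
  rfl

theorem RG_neg (h3 : (3 : K) = 0) (t u v : ℕ) :
    RG θ yg t u v = wordG xg ((reeN' t u v).map fun q => (q.1, (q.2 : K))) := by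
  have h : ∀ a : K, -a = 2 * a := fun a => by linear_combination -a * h3
  simp only [RG, NG, yg, h, reeN', reeN, List.map_cons, List.map_nil, wordG_cons, wordG_nil, mul_one,
    map_natCast]
  push_cast
  rfl

namespace G2Data

variable (E : G2Data e θ ψ σ)
include E

theorem gend : GEnd (D := chevG2) Weyl.rhoG2 ![ψ, θ] σ where
  pos i t := by
    fin_cases i
    exacts [E.pos.1 t, E.pos.2.1 t]
  neg i t := by
    fin_cases i
    · have := E.neg.1 (-t)
      rwa [yg, yg, map_neg, _root_.neg_neg, _root_.neg_neg] at this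
    · have := E.neg.2.1 (-t)
      rwa [yg, yg, map_neg, _root_.neg_neg, _root_.neg_neg] at this

theorem inv' (t : K) : θ (ψ t) = t := by rw [E.cube, map_pow, ← E.cube, E.inv]

section

variable {y : Rt chevG2 → K → chevG2.group K} {Z : Set (Nd chevG2) → Subgroup (chevG2.group K)}
  (hy : Side y Z) (ha : G2Act θ ψ σ y)
include hy ha

theorem map_NG (s t c d e f : K) : σ (NG y s t c d e f) =
    NG y (θ t) (ψ s) (θ t * ψ s + θ e) (θ t ^ 2 * ψ s + θ f) (ψ c - θ t ^ 3 * ψ s)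
      (ψ d - θ t ^ 3 * ψ s ^ 2) := by
  obtain ⟨h1, h2, h3, h4, h5, h6⟩ := ha
  have e7 : ∀ s, y (rG2 7) s = NG y s 0 0 0 0 0 := fun s => by simp [NG, hy.zero]
  have e6 : ∀ s, y (rG2 6) s = NG y 0 s 0 0 0 0 := fun s => by simp [NG, hy.zero]
  have e8 : ∀ s, y (rG2 8) s = NG y 0 0 s 0 0 0 := fun s => by simp [NG, hy.zero]
  have e9 : ∀ s, y (rG2 9) s = NG y 0 0 0 s 0 0 := fun s => by simp [NG, hy.zero]
  have e10 : ∀ s, y (rG2 10) s = NG y 0 0 0 0 s 0 := fun s => by simp [NG, hy.zero]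
  have e11 : ∀ s, y (rG2 11) s = NG y 0 0 0 0 0 s := fun s => by simp [NG, hy.zero]
  rw [NG, map_mul, map_mul, map_mul, map_mul, map_mul, h1, h2, h3, h4, h5, h6, e6, e7, e10, e11, e8, e9]
  simp [NG_mul hy E.three]

theorem fx (g : chevG2.group K) : g ∈ Z {i | i ∈ (orbG2 0).1} ∧ σ g = g ↔
    ∃ p : K × K × K, g = RG θ y p.1 p.2.1 p.2.2 := by
  rw [NG_mem hy]
  constructor
  · rintro ⟨⟨s, t, c, d, u, v, rfl⟩, h⟩
    rw [E.map_NG hy ha] at h
    obtain ⟨rfl, -, h3, h4, -⟩ := NG_inj hy h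
    exact ⟨(t, u, v), by rw [← h3, ← h4, E.inv]; rfl⟩
  · rintro ⟨⟨t, u, v⟩, rfl⟩
    refine ⟨⟨_, _, _, _, _, _, rfl⟩, ?_⟩
    rw [RG, E.map_NG hy ha]
    simp only [map_add, map_mul, map_pow, E.inv, E.cube t]
    congr 1 <;> ring

end

theorem word_U (t u v : K) : wordG xg (reeWordU e t u v) = RG θ xg t u v := by
  simp only [reeWordU, wordG_cons, wordG_nil, mul_one, RG, E.pow, ← pow_succ, ← pow_mul, mul_comm e]
  rfl

theorem word_V (t u v : K) : wordG xg (reeWordV e t u v) = RG θ yg t u v := by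
  rw [reeWordV, wordG_negWord (by simp [reeWordU]; decide)]
  simp only [reeWordU, wordG_cons, wordG_nil, mul_one, RG, E.pow, ← pow_succ, ← pow_mul, mul_comm e]
  rfl

theorem genOK : GenOK hG2 σ (fun o => {i | i ∈ (orbG2 o).1}) (g2Words K e) := by
  intro g
  constructor
  · rintro ⟨w, ⟨t, u, v, rfl | rfl⟩, rfl⟩
    · exact ⟨0, Or.inl ((E.fx (side_pos hG2) E.pos _).2 ⟨(t, u, v), E.word_U t u v⟩)⟩
    · exact ⟨0, Or.inr ((E.fx (side_neg hG2) E.neg _).2 ⟨(t, u, v), E.word_V t u v⟩)⟩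
  · rintro ⟨o, ho⟩
    fin_cases o
    rcases ho with ho | ho
    · obtain ⟨t, rfl⟩ := (E.fx (side_pos hG2) E.pos _).1 ho
      exact ⟨_, ⟨_, _, _, Or.inl rfl⟩, E.word_U ..⟩
    · obtain ⟨t, rfl⟩ := (E.fx (side_neg hG2) E.neg _).1 ho
      exact ⟨_, ⟨_, _, _, Or.inr rfl⟩, E.word_V ..⟩

theorem nontriv : ∀ o, ∃ u ∈ (gam K hG2).VJ {i | i ∈ (orbG2 o).1}, σ u = u ∧ u ≠ 1 := by
  have hy := side_neg (F := K) hG2
  intro o
  fin_cases o
  obtain ⟨h1, h2⟩ := (E.fx hy E.neg _).2 ⟨(1, 0, 0), rfl⟩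
  exact ⟨_, h1, h2, fun e => one_ne_zero (NG_inj hy (e.trans (NG_zero hy).symm)).2.1⟩

/-- The twisted group. -/
noncomputable def tw : Tw (gam K hG2) (Fin 1) :=
  E.gend.tw' hG2 (by decide) cartanCoxG2 colsG2_spec orbG2_ok E.genOK E.nontriv

theorem map_G1 : E.tw.G1.map (chevG2.group K).subtype = twistedG2 K e := map_gen _

theorem memU (t u v : K) : RG θ xg t u v ∈ E.tw.G1 :=
  have h1 := (E.fx (side_pos hG2) E.pos _).2 ⟨(t, u, v), rfl⟩
  E.tw.U_le 0 _ h1.1 h1.2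

theorem memV (t u v : K) : RG θ yg t u v ∈ E.tw.G1 :=
  have h1 := (E.fx (side_neg hG2) E.neg _).2 ⟨(t, u, v), rfl⟩
  E.tw.V_le 0 _ h1.1 h1.2

theorem h0_mem : tor chevG2 K (-1) ∈ E.tw.G1 := by
  haveI : CharP K 3 := (CharP.charP_iff_prime_eq_zero Nat.prime_three).2 E.three
  have h2 : (-1 : K) = 2 := by linear_combination -E.three
  have key := word_eq_of_eval (F := K) (p := 3) agreeG2 three_pos
    (w := reeN 0 0 1 ++ (reeN' 0 0 1 ++ (reeN 1 1 1 ++ reeN' 2 1 2)))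
    (w' := [(7, 2), (4, 1), (7, 2), (7, 2), (4, 1), (7, 2), (6, 2), (5, 1), (6, 2), (6, 2), (5, 1), (6, 2)])
    (by decide +kernel)
  have e1 : tor chevG2 K (-1) = hG xg (rG2 7) (-1) * hG xg (rG2 6) (-1) := by
    have : (-1 : Fin 2 → Kˣ) = Pi.mulSingle 0 (-1) * Pi.mulSingle 1 (-1) := by
      funext i; fin_cases i <;> simp
    erw [this, map_mul, tor_single, tor_single]
    rfl
  simp only [List.map_append, wordG_append, ← RG_pos (θ := θ), ← RG_neg (θ := θ) E.three] at key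
  have := Subgroup.mul_mem _ (E.memU (0 : ℕ) (0 : ℕ) (1 : ℕ)) (Subgroup.mul_mem _ (E.memV (0 : ℕ) (0 : ℕ) (1 : ℕ))
    (Subgroup.mul_mem _ (E.memU (1 : ℕ) (1 : ℕ) (1 : ℕ)) (E.memV (2 : ℕ) (1 : ℕ) (2 : ℕ))))
  rw [key] at this
  convert this using 1
  simp only [e1, hG, nG, inv_neg, inv_one, _root_.neg_neg, List.map_cons, List.map_nil, wordG_cons,
    wordG_nil, Nat.cast_one, Nat.cast_ofNat, ← h2, mul_assoc, mul_one]
  rfl

theorem mem_C (b : Kˣ) : twc (D := chevG2) Weyl.rhoG2 ![ψ, θ] ![Units.map θ.toMonoidHom b, b] =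
    ![Units.map θ.toMonoidHom b, b] := by
  refine (twc_eq_iff _ _ _ _).2 fun i => ?_
  fin_cases i
  exacts [E.inv _, rfl]

theorem tor_mem [Fintype K] (h4 : Fintype.card K % 4 = 3) (c : Fin 2 → Kˣ)
    (hc : twc (D := chevG2) Weyl.rhoG2 ![ψ, θ] c = c) : tor chevG2 K c ∈ E.tw.G1 := by
  have h1 : tor chevG2 K ((c ^ (Fintype.card K / 4 + 1)) ^ 2) ∈ E.tw.G1 := by
    refine tor_sq_mem E.tw rfl E.genOK (E.tw.τ_wI 0) (fun i => ?_) ?_
    · rw [show E.tw.wI 0 = (rs hG2).cs.wordProd (orbG2 0).2 from rfl, act_wordProd]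
      revert i
      decide +kernel
    · exact (E.gend.map_tor _).trans (by rw [map_pow, hc])
  have h2 : (c 1 ^ (Fintype.card K / 2)) ^ 2 = 1 := by
    rw [← pow_mul, show Fintype.card K / 2 * 2 = Fintype.card K - 1 by omega]
    exact Units.ext (by simpa using FiniteField.pow_card_sub_one_eq_one _ (c 1).ne_zero)
  have h3 : θ (c 1) = c 0 := (twc_eq_iff _ _ _ _).1 hc (1 : Fin 2)
  rw [← pow_mul, show (Fintype.card K / 4 + 1) * 2 = Fintype.card K / 2 + 1 by omega, pow_succ,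
    map_mul] at h1
  refine (Subgroup.mul_mem_cancel_left _ ?_).1 h1
  rcases sq_eq_one_iff.1 (congrArg Units.val h2 : ((c 1 : K) ^ _) ^ 2 = 1) with h | h
  · rw [show c ^ (Fintype.card K / 2) = 1 from ?_, map_one]
    · exact Subgroup.one_mem _
    · funext i
      fin_cases i <;> apply Units.ext
      · simpa [← h3] using congrArg θ h
      · simpa using h
  · rw [show c ^ (Fintype.card K / 2) = -1 from ?_]
    · exact E.h0_mem
    · funext i
      fin_cases i <;> apply Units.ext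
      · simpa [← h3] using congrArg θ h
      · simpa using h

omit E in
theorem ker_eq : (tor chevG2 K).ker = ⊥ := by
  rw [eq_bot_iff]
  intro c hc
  exact funext fun i => by simpa using ((kerG2.mem_ker_iff c).1 hc).2 i

theorem H_inf [Fintype K] (h4 : Fintype.card K % 4 = 3) : (gam K hG2).H ⊓ E.tw.G1 =
    ((twc (D := chevG2) Weyl.rhoG2 ![ψ, θ]).eqLocus (MonoidHom.id _)).map (tor chevG2 K) :=
  H_inf_eq E.tw E.gend (E.tor_mem h4) fun c hc => ⟨c, (MonoidHom.ker_eq_bot_iff _).1 ker_eq hc, rfl⟩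

theorem card_H [Fintype K] (h4 : Fintype.card K % 4 = 3) :
    Nat.card ↥(chevG2.diagonalSubgroup K ⊓ twistedG2 K e) = Fintype.card K - 1 := by
  have := card_H_inf hG2 (E.H_inf h4)
  rw [ker_eq, bot_inf_eq, Subgroup.card_bot, one_mul] at this
  rw [← E.map_G1, tw_card_H, this]
  refine (card_of_param (P := Kˣ) (p := fun a => ![Units.map θ.toMonoidHom a, a]) ?_ ?_).trans ?_
  · exact fun a b e => congrFun e (1 : Fin 2)
  · intro c
    refine ⟨fun h => ⟨c (1 : Fin 2), ?_⟩, ?_⟩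
    · replace h := (twc_eq_iff _ _ _ _).1 h
      funext i
      fin_cases i
      exacts [Units.ext (h (1 : Fin 2)).symm, rfl]
    · rintro ⟨a, rfl⟩
      exact E.mem_C a
  · simp only [Nat.card_units, Nat.card_eq_fintype_card]

theorem card_Fx [Fintype K] :
    Nat.card (E.tw.Fx ((gam K hG2).UJ (E.tw.I 0))) = Fintype.card K ^ 3 := by
  have hy := side_pos (F := K) hG2
  rw [card_of_param (fun p p' e => ?_) (E.fx hy E.pos), Nat.card_prod, Nat.card_prod,
    Nat.card_eq_fintype_card, pow_three]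
  obtain ⟨-, h1, -, -, h2, h3⟩ := NG_inj hy e
  exact Prod.ext h1 (Prod.ext h2 h3)

theorem hx [Fintype K] {x : ℝ} (hx : x ^ 2 = Fintype.card K) (o : Fin 1) :
    (Nat.card (E.tw.Fx ((gam K hG2).UJ (E.tw.I o))) : ℝ) = x ^ (rs hG2).cs.length (E.tw.wI o) := by
  rw [show (rs hG2).cs.length (E.tw.wI o) = (orbG2 o).2.length from
    (cartanCoxG2.isLongest_of_longb _ colsG2_spec _ (orbG2_ok.2 o).2.2).2.1, Subsingleton.elim o 0,
    E.card_Fx, Nat.cast_pow, ← hx, ← pow_mul]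
  rfl

theorem card_U [Fintype K] :
    Nat.card ↥(chevG2.posUnipotent K ⊓ twistedG2 K e) = Fintype.card K ^ 3 := by
  have hx : √(Fintype.card K : ℝ) ^ 2 = Fintype.card K := Real.sq_sqrt (by positivity)
  have := tw_card_U E.tw (E.hx hx)
  rw [E.map_G1, show chevG2.nroots / 2 = 2 * 3 from rfl, pow_mul, hx] at this
  exact_mod_cast this

theorem mem_U_iff (g : GL chevG2.Idx K) : g ∈ chevG2.posUnipotent K ⊓ twistedG2 K e ↔
    ∃ t u v : K, (g : Matrix chevG2.Idx chevG2.Idx K) = chevG2.wordMat K (reeWordU e t u v) := by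
  rw [← E.map_G1, ← map_U hG2, ← Subgroup.map_inf _ _ _ (chevG2.group K).subtype_injective, E.tw.U_inf,
    ← RGD0.UJ_univ, show (Set.univ : Set (Nd chevG2)) = {i | i ∈ (orbG2 0).1} from
      (Set.eq_univ_of_forall (by decide)).symm]
  constructor
  · rintro ⟨g, hg, rfl⟩
    obtain ⟨⟨t, u, v⟩, rfl⟩ := (E.fx (side_pos hG2) E.pos g).1 hg
    exact ⟨t, u, v, by rw [← mat_wordG, E.word_U]; rfl⟩
  · rintro ⟨t, u, v, h⟩
    exact ⟨_, (E.fx (side_pos hG2) E.pos _).2 ⟨(t, u, v), rfl⟩,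
      Units.ext (by rw [h, ← mat_wordG, E.word_U]; rfl)⟩

theorem card [Fintype K] {q : ℕ} (hq : Fintype.card K = q) (h4 : q % 4 = 3) :
    Nat.card (twistedG2 K e) = q ^ 3 * (q - 1) * (q ^ 3 + 1) := by
  have hx : √(Fintype.card K : ℝ) ^ 2 = Fintype.card K := Real.sq_sqrt (by positivity)
  have h1 := tw_card E.tw (E.hx hx) (poinTwG2 _ _ E.tw.hτ)
  rw [E.map_G1, show chevG2.nroots / 2 = 2 * 3 from rfl, E.card_H (hq ▸ h4), show 6 = 2 * 3 from rfl,
    pow_mul, hx, hq] at h1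
  exact_mod_cast h1

theorem core : ((gam K hG2).Bor.subgroupOf E.tw.G1).normalCore = ⊥ := by
  refine tw_core_of E.tw fun i => ?_
  have h1 := E.memU 1 0 0
  rw [RG, NG_eq, map_one] at h1
  fin_cases i
  · exact ⟨_, _, _, lG2, by decide, _, one_ne_zero, h1⟩
  · exact ⟨_, _, _, lG2, by decide, _, one_ne_zero, h1⟩

omit E in
theorem chi_eq (c : Fin 2 → Kˣ) (a : Lat chevG2) : chi (D := chevG2) c a =
    c 0 ^ a (0 : Fin 2) * c 1 ^ a (1 : Fin 2) := Fin.prod_univ_two _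

theorem RG_mul (t u v u' v' : K) : RG θ xg t u v * RG θ xg 0 u' v' = RG θ xg t (u + u') (v + v') := by
  simp only [RG, NG_mul (side_pos hG2) E.three, map_zero, map_add]
  congr 1 <;> ring

theorem perfect [Fintype K] (h4 : Fintype.card K % 4 = 3) (hb : ∃ b : Kˣ, b ^ 2 ≠ 1) :
    commutator E.tw.G1 = ⊤ := by
  have hy := side_pos (F := K) hG2
  obtain ⟨b, hb⟩ := hb
  have hb' : (b : K) ^ 2 ≠ 1 := fun h => hb (Units.ext h)
  obtain ⟨β, hβ⟩ : ∃ β : K, β = b ^ 2 * (ψ b)⁻¹ := ⟨_, rfl⟩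
  have hθ : θ b ≠ 0 := by simp
  obtain ⟨k, hk, h1⟩ : ∃ k ∈ E.tw.G1, ∀ t u v : K, k * RG θ xg t u v * k⁻¹ =
      RG θ xg (β * t) (ψ b * (b : K)⁻¹ * u) (b * v) := by
    refine ⟨_, E.tor_mem h4 _ (E.mem_C b), fun t u v => ?_⟩
    rw [RG, NG, ← conj_mul, ← conj_mul, ← conj_mul, ← conj_mul, ← conj_mul, tor_conj, tor_conj, tor_conj,
      tor_conj, tor_conj, tor_conj, chi_eq, chi_eq, chi_eq, chi_eq, chi_eq, chi_eq,
      show wt (rG2 7) = ![2, -1] by decide +kernel, show wt (rG2 6) = ![-3, 2] by decide +kernel,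
      show wt (rG2 8) = ![-1, 1] by decide +kernel, show wt (rG2 9) = ![1, 0] by decide +kernel,
      show wt (rG2 10) = ![3, -1] by decide +kernel, show wt (rG2 11) = ![0, 1] by decide +kernel,
      ← NG, RG, hβ]
    simp only [map_add, map_mul, map_pow, map_inv₀, E.inv']
    rw [E.cube b]
    congr 1 <;> simp [zpow_ofNat] <;> field_simp <;> simp
  have hψ : ψ (ψ b) = b ^ 3 := by rw [E.cube, E.inv']
  have h2 : ∀ v, RG θ xg 0 0 v ∈ ⁅E.tw.G1, E.tw.G1⁆ :=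
    mem_comm_of_tor (g := fun v => RG θ xg 0 0 v) hk (E.memU 0 0) (fun s t => by rw [E.RG_mul, add_zero])
      (a := b) (fun h => hb' (by rw [h, one_pow])) fun v => by rw [h1, mul_zero, mul_zero]
  have h3 : ∀ u, RG θ xg 0 u 0 ∈ ⁅E.tw.G1, E.tw.G1⁆ := by
    refine mem_comm_of_tor (g := fun u => RG θ xg 0 u 0) hk (fun u => E.memU 0 u 0)
      (fun s t => by rw [E.RG_mul, add_zero]) (a := ψ b * (b : K)⁻¹) (fun h => hb' ?_)
      fun u => by rw [h1, mul_zero, mul_zero]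
    rw [mul_inv_eq_one₀ b.ne_zero] at h
    rw [h, h] at hψ
    exact mul_left_cancel₀ b.ne_zero (by linear_combination -hψ)
  have h5 : β ≠ 1 := fun h => hb' (by
    rw [hβ, mul_inv_eq_one₀ (by simp)] at h
    rw [← h, map_pow, ← h] at hψ
    rw [mul_left_cancel₀ (pow_ne_zero 3 b.ne_zero) (show (b : K) ^ 3 * b = b ^ 3 * 1 by
      linear_combination hψ), one_pow])
  refine tw_perfect' E.tw rfl E.genOK fun o g hg hg' => ?_
  fin_cases o
  obtain ⟨⟨t, u, v⟩, rfl⟩ := (E.fx hy E.pos g).1 ⟨hg, hg'⟩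
  obtain ⟨s, rfl⟩ : ∃ s, t = β * s - s := ⟨t / (β - 1), by field_simp [sub_ne_zero.2 h5]⟩
  have h6 := Subgroup.commutator_mem_commutator hk (E.memU s 0 0)
  rw [commutatorElement_def, h1] at h6
  have h7 := (E.fx hy E.pos (RG θ xg (β * s) (ψ b * (b : K)⁻¹ * 0) (b * 0) * (RG θ xg s 0 0)⁻¹)).1
    ⟨Subgroup.mul_mem _ ((E.fx hy E.pos _).2 ⟨(_, _, _), rfl⟩).1
      (Subgroup.inv_mem _ ((E.fx hy E.pos _).2 ⟨(_, _, _), rfl⟩).1),
      E.tw.fix _ (Subgroup.commutator_le_self _ h6)⟩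
  obtain ⟨⟨t', u', v'⟩, h8⟩ := h7
  rw [h8] at h6
  rw [mul_inv_eq_iff_eq_mul, RG, RG, RG, NG_mul hy E.three] at h8
  obtain rfl : t' = β * s - s := by linear_combination -(NG_inj hy h8).2.1
  have := Subgroup.mul_mem _ (Subgroup.mul_mem _ h6 (h3 (u - u'))) (h2 (v - v'))
  simpa [E.RG_mul] using this

theorem perfect' [Fintype K] (h4 : Fintype.card K % 4 = 3) (hb : ∃ b : Kˣ, b ^ 2 ≠ 1) :
    commutator (twistedG2 K e) = ⊤ := by
  rw [← E.map_G1]
  exact perfect_of_equiv (upEquiv _) (E.perfect h4 hb)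

theorem simple [Fintype K] (h4 : Fintype.card K % 4 = 3) (hb : ∃ b : Kˣ, b ^ 2 ≠ 1) :
    IsSimpleGroup (twistedG2 K e) ∧ ¬ IsMulCommutative (twistedG2 K e) := by
  rw [← E.map_G1]
  refine tw_simple E.tw (fun J ⟨a, ha⟩ ⟨b, hb⟩ => ?_) (E.perfect h4 hb) E.core
  exact absurd (Subsingleton.elim a b ▸ ha) hb

theorem bn : ∃ P : Cfsg.BNPair ↥(twistedG2 K e),
    P.B = (chevG2.borelSubgroup K ⊓ twistedG2 K e).subgroupOf (twistedG2 K e) ∧
    P.N = (chevG2.monomialSubgroup K ⊓ twistedG2 K e).subgroupOf (twistedG2 K e) := by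
  rw [← E.map_G1]
  exact tw_bn E.tw

theorem hom : ∃ φ : ↥(chevG2.monomialSubgroup K ⊓ twistedG2 K e) →* Multiplicative (ZMod 2),
    Function.Surjective φ ∧ φ.ker = (chevG2.diagonalSubgroup K ⊓ twistedG2 K e).subgroupOf
      (chevG2.monomialSubgroup K ⊓ twistedG2 K e) := by
  rw [← E.map_G1]
  exact tw_hom E.tw (fixedG2 _ _ E.tw.hτ)

theorem core' : ((chevG2.borelSubgroup K ⊓ twistedG2 K e).subgroupOf (twistedG2 K e)).normalCore = ⊥ := by
  rw [← E.map_G1]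
  exact tw_core' E.tw E.core

end G2Data

theorem g2Data [Fintype K] {m : ℕ} (hK : Fintype.card K = 3 ^ (2 * m + 1)) :
    ∃ (θ ψ : K →+* K) (σ : chevG2.group K →* chevG2.group K), G2Data (3 ^ m) θ ψ σ := by
  haveI := charP_of_card_pow Nat.prime_three hK
  have hθ : ∀ t : K, iterateFrobenius K 3 m t = t ^ 3 ^ m := fun t => iterateFrobenius_def ..
  obtain ⟨σ, h1, -⟩ := graphG2 (iterateFrobenius K 3 m) Weyl.rhoG2 (by decide)
  have h2 : ∀ r t, σ (yg r t) = yg (twG2.rt r) (iterateFrobenius K 3 m t ^ expG2 r) := fun r t => by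
    have : expG2 (Chev.neg r) = expG2 r ∧ Odd (expG2 r) := by revert r; decide +kernel
    rw [yg, h1, yg, TwData.rt_neg, this.1, map_neg, this.2.neg_pow]
  refine ⟨_, (frobenius K 3).comp (iterateFrobenius K 3 m), σ, CharP.cast_eq_zero K 3, hθ, fun _ => rfl,
    fun t => ?_, ⟨h1 _, fun t => (h1 _ t).trans (congrArg _ (pow_one _)), h1 _, h1 _,
      fun t => (h1 _ t).trans (congrArg _ (pow_one _)), fun t => (h1 _ t).trans (congrArg _ (pow_one _))⟩,
    ⟨h2 _, fun t => (h2 _ t).trans (congrArg _ (pow_one _)), h2 _, h2 _,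
      fun t => (h2 _ t).trans (congrArg _ (pow_one _)), fun t => (h2 _ t).trans (congrArg _ (pow_one _))⟩⟩
  rw [RingHom.comp_apply, hθ, hθ, frobenius_def, ← pow_mul, ← pow_mul, ← pow_succ, ← pow_add,
    ← add_assoc, ← two_mul, ← hK, FiniteField.pow_card]

theorem three_pow_mod (m : ℕ) : 3 ^ (2 * m + 1) % 4 = 3 := by
  rw [pow_succ, pow_mul, Nat.mul_mod, Nat.pow_mod]; norm_num

theorem exists_sq_ne_one' [Fintype K] {m : ℕ} (hm : 1 ≤ m) (hK : Fintype.card K = 3 ^ (2 * m + 1)) :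
    ∃ b : Kˣ, b ^ 2 ≠ 1 := exists_sq_ne_one (by
  rw [hK]
  calc 3 < 3 ^ 3 := by norm_num
    _ ≤ _ := Nat.pow_le_pow_right (by omega) (by omega))

end CA.CG
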