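import Cfsg.Agent.Lib.CG.Struct
import Cfsg.Agent.Lib.Weyl.Fixed
import Cfsg.Agent.Lib.Weyl.PoinE8
import Cfsg.Prelude.Def_ChevG2
import Cfsg.Prelude.Def_ChevB2
import Cfsg.Prelude.Def_ChevD4
import Cfsg.Prelude.Def_ChevF4
import Cfsg.Prelude.Def_ChevE6
import Cfsg.Prelude.Def_ChevE7
import Cfsg.Prelude.Def_ChevE8

/-! Type by type: Coxeter matrices, the order of the torus, perfectness, the order formulas. -/

set_option autoImplicit false
set_option linter.unusedSectionVars false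
set_option maxHeartbeats 400000
set_option synthInstance.maxSize 4096
set_option backward.isDefEq.respectTransparency false

namespace CA.CG

open Cfsg.Lie Cfsg.Lie.ChevalleyDatum CA.Chev CA.Weyl CA.BN Matrix

theorem hG2 : CartanCox (cartA chevG2) CoxeterMatrix.G₂ := ⟨by decide +kernel, by decide +kernel⟩
theorem hB2 : CartanCox (cartA chevB2) (CoxeterMatrix.B 2) := ⟨by decide +kernel, by decide +kernel⟩
theorem hD4 : CartanCox (cartA chevD4) coxeterD4 := ⟨by decide +kernel, by decide +kernel⟩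
theorem hF4 : CartanCox (cartA chevF4) CoxeterMatrix.F₄ := ⟨by decide +kernel, by decide +kernel⟩
theorem hE6 : CartanCox (cartA chevE6) CoxeterMatrix.E₆ := ⟨by decide +kernel, by decide +kernel⟩
theorem hE7 : CartanCox (cartA chevE7) CoxeterMatrix.E₇ := ⟨by decide +kernel, by decide +kernel⟩
theorem hE8 : CartanCox (cartA chevE8) CoxeterMatrix.E₈ := ⟨by decide +kernel, by decide +kernel⟩

/-! ### The kernel of the torus map -/

/-- An entry of a table. -/
def lf (L : List (List ℤ)) (a i : ℕ) : ℤ := (L.getD a []).getD i 0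

/-- A description of the weight lattice modulo the root lattice as a product of cyclic groups. -/
def KerOK (D : ChevalleyDatum) {m : ℕ} (g : Fin m → Nd D) (n : Fin m → ℕ) (K V v : List (List ℤ)) :
    Prop :=
  (∀ i l : Nd D, (if l = i then 1 else 0) =
    ∑ a, (if l = g a then lf K a i else 0) + ∑ j : Nd D, lf V i j * cartA D l j) ∧
  (∀ a (l : Nd D), (if l = g a then (n a : ℤ) else 0) = ∑ j : Nd D, lf v a j * cartA D l j) ∧
  (∀ (a : Fin m) (j : Nd D), (∑ i : Nd D, lf K a i * cartA D i j) % n a = 0) ∧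
  ∀ a b : Fin m, lf K a (g b) = if a = b then 1 else 0

instance decKerOK (D : ChevalleyDatum) {m : ℕ} (g : Fin m → Nd D) (n : Fin m → ℕ)
    (K V v : List (List ℤ)) : Decidable (KerOK D g n K V v) := by
  unfold KerOK; infer_instance

theorem kerG2 : KerOK chevG2 (m := 0) ![] ![] [] [[2, 1], [3, 2]] [] := by decide +kernel
theorem kerB2 : KerOK chevB2 ![(0 : Fin 2)] ![2] [[1, 0]] [[0, 0], [1, 1]] [[2, 1]] := by decide +kernel
theorem kerD4 : KerOK chevD4 ![(0 : Fin 4), (2 : Fin 4)] ![2, 2] [[1, 0, 0, 1], [0, 0, 1, 1]]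
    [[0, 0, 0, 0], [1, 2, 1, 1], [0, 0, 0, 0], [-1, -1, -1, 0]] [[2, 2, 1, 1], [1, 2, 2, 1]] := by
  decide +kernel
theorem kerF4 : KerOK chevF4 (m := 0) ![] ![] []
    [[2, 3, 2, 1], [3, 6, 4, 2], [4, 8, 6, 3], [2, 4, 3, 2]] [] := by decide +kernel
theorem kerE6 : KerOK chevE6 ![(0 : Fin 6)] ![3] [[1, 0, 2, 0, 1, 2]]
    [[0, 0, 0, 0, 0, 0], [1, 2, 2, 3, 2, 1], [-1, 0, 0, 0, 0, 0], [2, 3, 4, 6, 4, 2], [0, 1, 1, 2, 2, 1],
      [-2, -1, -2, -2, -1, 0]] [[4, 3, 5, 6, 4, 2]] := by decide +kernel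
theorem kerE7 : KerOK chevE7 ![(1 : Fin 7)] ![2] [[0, 1, 0, 0, 1, 0, 1]]
    [[2, 2, 3, 4, 3, 2, 1], [0, 0, 0, 0, 0, 0, 0], [3, 4, 6, 8, 6, 4, 2], [4, 6, 8, 12, 9, 6, 3],
      [1, 1, 2, 3, 3, 2, 1], [2, 3, 4, 6, 5, 4, 2], [-1, -2, -2, -3, -2, -1, 0]]
    [[4, 7, 8, 12, 9, 6, 3]] := by decide +kernel
theorem kerE8 : KerOK chevE8 (m := 0) ![] ![] []
    [[4, 5, 7, 10, 8, 6, 4, 2], [5, 8, 10, 15, 12, 9, 6, 3], [7, 10, 14, 20, 16, 12, 8, 4],
      [10, 15, 20, 30, 24, 18, 12, 6], [8, 12, 16, 24, 20, 15, 10, 5], [6, 9, 12, 18, 15, 12, 8, 4],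
      [4, 6, 8, 12, 10, 8, 6, 3], [2, 3, 4, 6, 5, 4, 3, 2]] [] := by decide +kernel

section General

variable {D : ChevalleyDatum} {F : Type*} [Field F]

theorem chi_sum {ι : Type*} (c : Nd D → Fˣ) (s : Finset ι) (a : ι → Lat D) :
    chi c (∑ i ∈ s, a i) = ∏ i ∈ s, chi c (a i) := by
  classical
  induction s using Finset.induction_on with
  | empty => simp
  | insert i s hi ih => rw [Finset.prod_insert hi, Finset.sum_insert hi, chi_add, ih]

theorem chi_single (c : Nd D → Fˣ) (i : Nd D) (k : ℤ) : chi c (Pi.single i k) = c i ^ k := by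
  rw [chi, Finset.prod_eq_single i]
  · simp
  · intro j _ hj; simp [hj]
  · simp

theorem chi_prod {ι : Type*} (s : Finset ι) (c : ι → Nd D → Fˣ) (a : Lat D) :
    chi (fun i => ∏ b ∈ s, c b i) a = ∏ b ∈ s, chi (c b) a := by
  simp only [chi, ← Finset.prod_zpow]
  exact Finset.prod_comm

variable [hD : IsRoot D] [hM : MatFacts D F] [hE : IsEta D]

theorem KerOK.mem_ker_iff {m : ℕ} {g : Fin m → Nd D} {n : Fin m → ℕ} {K V v : List (List ℤ)}
    (h : KerOK D g n K V v) (c : Nd D → Fˣ) : tor D F c = 1 ↔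
      (∀ a, c (g a) ^ n a = 1) ∧ ∀ i, c i = ∏ a, c (g a) ^ lf K a i := by
  rw [tor_eq_one_iff]
  obtain ⟨h1, h2, h3, -⟩ := h
  constructor
  · intro hc
    have key : ∀ u : Nd D → ℤ, chi c (∑ j, u j • wt (Chev.simple j)) = 1 := fun u => by
      simp only [chi_sum, chi_smul, hc, _root_.one_zpow, Finset.prod_const_one]
    refine ⟨fun a => ?_, fun i => ?_⟩
    · rw [← zpow_natCast, ← chi_single, ← key fun j => lf v a j]
      congr 1
      funext l
      simpa [Pi.single_apply, cartA_eq] using h2 a l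
    · have : (Pi.single i 1 : Lat D) = ∑ a, Pi.single (g a) (lf K a i) +
          ∑ j : Nd D, lf V i j • wt (Chev.simple j) := by
        funext l
        simpa [Pi.single_apply, cartA_eq] using h1 i l
      rw [← zpow_one (c i), ← chi_single, this, chi_add, key, mul_one, chi_sum]
      simp [chi_single]
  · rintro ⟨e1, e2⟩ j
    rw [funext e2, chi_prod]
    refine Finset.prod_eq_one fun a _ => ?_
    obtain ⟨k, hk⟩ := Int.dvd_of_emod_eq_zero (h3 a j)
    rw [chi_zpow (c (g a)) (fun i => lf K a i)]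
    change c (g a) ^ (∑ i : Nd D, lf K a i * cartA D i j) = 1
    rw [hk, _root_.zpow_mul, zpow_natCast, e1, _root_.one_zpow]

theorem KerOK.card_ker [Fintype F] {m : ℕ} {g : Fin m → Nd D} {n : Fin m → ℕ} {K V v : List (List ℤ)}
    (h : KerOK D g n K V v) :
    Nat.card (tor D F).ker = ∏ a, Nat.gcd (n a) (Fintype.card F - 1) := by
  have e : ∀ (z : Fin m → Fˣ) b, ∏ a, z a ^ lf K a (g b) = z b := fun z b => by
    simp [h.2.2.2]
  have : Nat.card (Π a, (powMonoidHom (n a) : Fˣ →* Fˣ).ker) = Nat.card (tor D F).ker := by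
    refine Nat.card_eq_of_bijective (fun z => ⟨fun i => ∏ a, (z a : Fˣ) ^ lf K a i, ?_⟩) ⟨?_, ?_⟩
    · rw [MonoidHom.mem_ker, h.mem_ker_iff]
      simp only [e]
      exact ⟨fun a => (z a).2, fun _ => trivial⟩
    · intro z z' hz
      funext b
      have := congrFun (congrArg Subtype.val hz) (g b)
      simp only [e] at this
      exact Subtype.ext this
    · rintro ⟨c, hc⟩
      obtain ⟨h1, h2⟩ := (h.mem_ker_iff c).1 hc
      exact ⟨fun a => ⟨c (g a), h1 a⟩, Subtype.ext (funext h2).symm⟩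
  rw [← this, Nat.card_pi]
  refine Finset.prod_congr rfl fun a _ => ?_
  rw [IsCyclic.card_powMonoidHom_ker, Nat.card_units, Nat.card_eq_fintype_card, Nat.gcd_comm]

theorem card_ker_mul [Fintype F] :
    Nat.card (tor D F).ker * Nat.card (tor D F).range = (Fintype.card F - 1) ^ D.rank := by
  rw [← Subgroup.index_ker, Subgroup.card_mul_index, Nat.card_fun, Nat.card_units,
    Nat.card_eq_fintype_card, Nat.card_eq_fintype_card, Fintype.card_fin]

theorem KerOK.card_H [Fintype F] {m : ℕ} {g : Fin m → Nd D} {n : Fin m → ℕ} {K V v : List (List ℤ)}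
    (h : KerOK D g n K V v) : (∏ a, Nat.gcd (n a) (Fintype.card F - 1)) *
      Nat.card (D.diagonalSubgroup F) = (Fintype.card F - 1) ^ D.rank := by
  rw [← map_H (cartanCox_coxM D), Subgroup.card_map_of_injective (D.group F).subtype_injective,
    gam_H, ← h.card_ker, card_ker_mul]

theorem card_group [Fintype F] {M : CoxeterMatrix (Nd D)} (h : CartanCox (cartA D) M) {f : ℝ → ℝ}
    (hf : HasPoin (rs h).cs Set.univ f) : (Nat.card (D.group F) : ℝ) =
      (Fintype.card F : ℝ) ^ (D.nroots / 2) * Nat.card (D.diagonalSubgroup F) * f (Fintype.card F) := by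
  rw [(gam F h).card_G (fun i => card_X _) hf, card_pos, ← map_H h,
    Subgroup.card_map_of_injective (D.group F).subtype_injective, Nat.card_eq_fintype_card]

/-! ### Perfectness -/

theorem mem_commutator_of_tor {r : Rt D} {c : Nd D → Fˣ} (hc : chi c (wt r) ≠ 1) :
    rtX xg r ≤ commutator (D.group F) := by
  intro y hy
  obtain ⟨t, rfl⟩ := mem_rtX.1 hy
  have h1 : (chi c (wt r) : F) - 1 ≠ 0 := sub_ne_zero.2 fun e => hc (Units.ext e)
  have := Subgroup.commutator_mem_commutator (Subgroup.mem_top (tor D F c))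
    (Subgroup.mem_top (xg r (t / (chi c (wt r) - 1))))
  rw [commutatorElement_def, tor_conj, ← stRel_xg.neg_arg, ← stRel_xg.add] at this
  rwa [show (chi c (wt r) : F) * (t / (chi c (wt r) - 1)) + -(t / (chi c (wt r) - 1)) = t by
    field_simp; ring] at this

theorem commWord_mem_commutator {r s : Rt D} (h1 : s ≠ r) (h2 : s ≠ Chev.neg r) (t u : F) :
    wordG xg (D.commWord F r s t u) ∈ commutator (D.group F) := by
  have := Subgroup.commutator_mem_commutator (Subgroup.mem_top (xg s u)⁻¹) (Subgroup.mem_top (xg r t)⁻¹)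
  rw [commutatorElement_def, inv_inv, inv_inv, mul_assoc, stRel_xg.comm r s h1 h2] at this
  rw [commutator_def]
  simpa [mul_assoc] using this

theorem le_of_sRefl {K : Subgroup (D.group F)} [hK : K.Normal] {r : Rt D} {j : Nd D}
    (h : rtX xg (sRefl j r) ≤ K) : rtX xg r ≤ K := by
  intro y hy
  have h1 := (rep_nG (F := F) (cartanCox_coxM D) j one_ne_zero).conj hy
  rw [rs_act_simple] at h1
  simpa [mul_assoc] using hK.conj_mem _ (h h1) (nG xg (Chev.simple j) 1)⁻¹

theorem simple_ne_neg (i j : Nd D) : Chev.simple j ≠ Chev.neg (Chev.simple i) := fun e =>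
  (pos_simple i).not_neg (e ▸ pos_simple j)

theorem perfect_of_table (h : ∀ i : Nd D, ∃ j : Nd D, j ≠ i ∧ ∃ ε ∈ [(1 : ℤ), -1],
    D.commTerms (D.simple i) (D.simple j) = [(D.reflectRoot j (D.simple i), ε, 1, 1)]) :
    commutator (D.group F) = ⊤ := by
  refine (gam F (cartanCox_coxM D)).eq_top_of_simple gen_xg fun i => ?_
  obtain ⟨j, hj, ε, hε, e⟩ := h i
  refine le_of_sRefl (j := j) fun y hy => ?_
  obtain ⟨t, rfl⟩ := mem_rtX.1 hy
  have := commWord_mem_commutator (r := Chev.simple i) (s := Chev.simple j) (by simpa using hj)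
    (simple_ne_neg i j) (-(ε : F)) t
  simp only [commWord, simple_val, e, List.map_cons, List.map_nil, wordG_cons, wordG_nil] at this
  rw [← simple_val, ← sRefl_val, xN_val] at this
  simp only [List.mem_cons, List.not_mem_nil, or_false] at hε
  rcases hε with rfl | rfl <;> simpa using this

theorem le_commutator_of_wt {r : Rt D} {v : Lat D} (hv : v ⬝ᵥ wt r = 1) (hF : ∃ a : F, a ≠ 0 ∧ a ≠ 1) :
    rtX xg r ≤ commutator (D.group F) := by
  obtain ⟨a, h0, h1⟩ := hF
  refine mem_commutator_of_tor (c := fun i => Units.mk0 a h0 ^ v i) ?_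
  rw [chi_zpow, hv, zpow_one]
  exact fun e => h1 (congrArg Units.val e)

end General

variable {F : Type*} [Field F]

theorem perfectD4 [IsRoot chevD4] [IsEta chevD4] [MatFacts chevD4 F] : commutator (chevD4.group F) = ⊤ :=
  perfect_of_table (by decide +kernel)
theorem perfectF4 [IsRoot chevF4] [IsEta chevF4] [MatFacts chevF4 F] : commutator (chevF4.group F) = ⊤ :=
  perfect_of_table (by decide +kernel)
theorem perfectE6 [IsRoot chevE6] [IsEta chevE6] [MatFacts chevE6 F] : commutator (chevE6.group F) = ⊤ :=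
  perfect_of_table (by decide +kernel)
theorem perfectE7 [IsRoot chevE7] [IsEta chevE7] [MatFacts chevE7 F] : commutator (chevE7.group F) = ⊤ :=
  perfect_of_table (by decide +kernel)
theorem perfectE8 [IsRoot chevE8] [IsEta chevE8] [MatFacts chevE8 F] : commutator (chevE8.group F) = ⊤ :=
  perfect_of_table (by decide +kernel)

theorem perfectG2 [IsRoot chevG2] [IsEta chevG2] [MatFacts chevG2 F] (hF : ∃ a : F, a ≠ 0 ∧ a ≠ 1) :
    commutator (chevG2.group F) = ⊤ := by
  refine (gam F (cartanCox_coxM chevG2)).eq_top_of_simple gen_xg fun i => ?_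
  have : ∀ i : Nd chevG2, (fun j : Nd chevG2 => lf [[0, -1], [-1, -1]] i j) ⬝ᵥ
      (fun j => cartA chevG2 j i) = 1 := by decide +kernel
  exact le_commutator_of_wt (this i) hF

theorem perfectB2 [IsRoot chevB2] [IsEta chevB2] [MatFacts chevB2 F] (hF : ∃ a : F, a ≠ 0 ∧ a ≠ 1) :
    commutator (chevB2.group F) = ⊤ := by
  refine (gam F (cartanCox_coxM chevB2)).eq_top_of_simple gen_xg fun i => ?_
  have h0 : ∀ r : Rt chevB2, r = (5 : Fin 8) ∨ r = (6 : Fin 8) → rtX xg r ≤ commutator (chevB2.group F) := by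
    rintro r (rfl | rfl)
    · exact le_commutator_of_wt (v := ![0, -1]) (by decide +kernel) hF
    · exact le_commutator_of_wt (v := ![0, 1]) (by decide +kernel) hF
  have hi : i = (0 : Fin 2) ∨ i = (1 : Fin 2) := by revert i; decide
  rcases hi with rfl | rfl
  · exact h0 _ (Or.inl rfl)
  · refine le_of_sRefl (j := (0 : Fin 2)) fun y hy => ?_
    obtain ⟨t, rfl⟩ := mem_rtX.1 hy
    have h1 := commWord_mem_commutator (D := chevB2) (r := (5 : Fin 8)) (s := (4 : Fin 8)) (by decide)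
      (fun e => absurd (congrArg Fin.val e) (by rw [neg_val]; decide +kernel)) (1 : F) (-t)
    have e : chevB2.commTerms (5 : Fin 8) (4 : Fin 8) =
      [(((6 : Fin 8) : ℕ), -1, 1, 1), (((7 : Fin 8) : ℕ), -1, 2, 1)] := by decide +kernel
    simp only [commWord, e, List.map_cons, List.map_nil, wordG_cons, wordG_nil] at h1
    rw [xN_val (D := chevB2), xN_val (D := chevB2)] at h1
    have h2 := (Subgroup.mul_mem_cancel_left _ (h0 _ (Or.inr rfl) (x_mem_rtX _ _))).1 h1
    have e2 : sRefl (D := chevB2) (0 : Fin 2) ((rs (cartanCox_coxM chevB2)).simple (1 : Fin 2)) =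
      (7 : Fin 8) := Fin.ext (by rw [sRefl_val, rs_simple, simple_val]; decide +kernel)
    rw [e2]
    simpa using h2

/-! ### Orders -/

theorem cast_pow_sub {q : ℕ} (hq : 0 < q) (d : ℕ) : ((q ^ d - 1 : ℕ) : ℝ) = geo d q * (q - 1) := by
  rw [geo_mul, Nat.cast_sub (Nat.one_le_pow _ _ hq)]; simp

theorem card_H_G2 [IsRoot chevG2] [IsEta chevG2] [MatFacts chevG2 F] [Fintype F] {q : ℕ} (hq : Fintype.card F = q) :
    1 * Nat.card (chevG2.diagonalSubgroup F) = (q - 1) ^ chevG2.rank := by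
  subst hq
  simpa [pow_two] using kerG2.card_H (F := F)

theorem card_G2 [IsRoot chevG2] [IsEta chevG2] [MatFacts chevG2 F] [Fintype F] {q : ℕ} (hq : Fintype.card F = q) :
    Nat.card (chevG2.group F) =
      q ^ 6 * (q ^ 2 - 1) * (q ^ 6 - 1) := by
  have h1 := card_group (F := F) hG2 (poinG2 _)
  have h2 := congrArg (Nat.cast (R := ℝ)) (card_H_G2 hq)
  have h0 : 0 < q := hq ▸ Fintype.card_pos
  rw [hq, show chevG2.nroots / 2 = 6 from rfl] at h1
  rw [show (q - 1) ^ chevG2.rank = (q - 1) ^ 2 from rfl] at h2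
  apply Nat.cast_injective (R := ℝ)
  simp only [Nat.cast_mul, cast_pow_sub h0, Nat.cast_pow, Nat.cast_sub h0, Nat.cast_one] at h2 ⊢
  rw [h1]
  linear_combination (q ^ 6 * (geo 2 q * geo 6 q) : ℝ) * h2

theorem card_H_B2 [IsRoot chevB2] [IsEta chevB2] [MatFacts chevB2 F] [Fintype F] {q : ℕ} (hq : Fintype.card F = q) :
    Nat.gcd 2 (q - 1) * Nat.card (chevB2.diagonalSubgroup F) = (q - 1) ^ chevB2.rank := by
  subst hq
  simpa [pow_two] using kerB2.card_H (F := F)

theorem card_B2 [IsRoot chevB2] [IsEta chevB2] [MatFacts chevB2 F] [Fintype F] {q : ℕ} (hq : Fintype.card F = q) :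
    Nat.gcd 2 (q - 1) * Nat.card (chevB2.group F) =
      q ^ 4 * (q ^ 2 - 1) * (q ^ 4 - 1) := by
  have h1 := card_group (F := F) hB2 (poinB2 _)
  have h2 := congrArg (Nat.cast (R := ℝ)) (card_H_B2 hq)
  have h0 : 0 < q := hq ▸ Fintype.card_pos
  rw [hq, show chevB2.nroots / 2 = 4 from rfl] at h1
  rw [show (q - 1) ^ chevB2.rank = (q - 1) ^ 2 from rfl] at h2
  apply Nat.cast_injective (R := ℝ)
  simp only [Nat.cast_mul, cast_pow_sub h0, Nat.cast_pow, Nat.cast_sub h0, Nat.cast_one] at h2 ⊢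
  rw [h1]
  linear_combination (q ^ 4 * (geo 2 q * geo 4 q) : ℝ) * h2

theorem card_H_D4 [IsRoot chevD4] [IsEta chevD4] [MatFacts chevD4 F] [Fintype F] {q : ℕ} (hq : Fintype.card F = q) :
    Nat.gcd 2 (q - 1) ^ 2 * Nat.card (chevD4.diagonalSubgroup F) = (q - 1) ^ chevD4.rank := by
  subst hq
  simpa [pow_two] using kerD4.card_H (F := F)

theorem card_D4 [IsRoot chevD4] [IsEta chevD4] [MatFacts chevD4 F] [Fintype F] {q : ℕ} (hq : Fintype.card F = q) :
    Nat.gcd 2 (q - 1) ^ 2 * Nat.card (chevD4.group F) =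
      q ^ 12 * (q ^ 2 - 1) * (q ^ 4 - 1) * (q ^ 4 - 1) * (q ^ 6 - 1) := by
  have h1 := card_group (F := F) hD4 (poinD4 _)
  have h2 := congrArg (Nat.cast (R := ℝ)) (card_H_D4 hq)
  have h0 : 0 < q := hq ▸ Fintype.card_pos
  rw [hq, show chevD4.nroots / 2 = 12 from rfl] at h1
  rw [show (q - 1) ^ chevD4.rank = (q - 1) ^ 4 from rfl] at h2
  apply Nat.cast_injective (R := ℝ)
  simp only [Nat.cast_mul, cast_pow_sub h0, Nat.cast_pow, Nat.cast_sub h0, Nat.cast_one] at h2 ⊢
  rw [h1]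
  linear_combination (q ^ 12 * (geo 2 q * geo 4 q * geo 4 q * geo 6 q) : ℝ) * h2

theorem card_H_F4 [IsRoot chevF4] [IsEta chevF4] [MatFacts chevF4 F] [Fintype F] {q : ℕ} (hq : Fintype.card F = q) :
    1 * Nat.card (chevF4.diagonalSubgroup F) = (q - 1) ^ chevF4.rank := by
  subst hq
  simpa [pow_two] using kerF4.card_H (F := F)

theorem card_F4 [IsRoot chevF4] [IsEta chevF4] [MatFacts chevF4 F] [Fintype F] {q : ℕ} (hq : Fintype.card F = q) :
    Nat.card (chevF4.group F) =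
      q ^ 24 * (q ^ 2 - 1) * (q ^ 6 - 1) * (q ^ 8 - 1) * (q ^ 12 - 1) := by
  have h1 := card_group (F := F) hF4 (poinF4 _)
  have h2 := congrArg (Nat.cast (R := ℝ)) (card_H_F4 hq)
  have h0 : 0 < q := hq ▸ Fintype.card_pos
  rw [hq, show chevF4.nroots / 2 = 24 from rfl] at h1
  rw [show (q - 1) ^ chevF4.rank = (q - 1) ^ 4 from rfl] at h2
  apply Nat.cast_injective (R := ℝ)
  simp only [Nat.cast_mul, cast_pow_sub h0, Nat.cast_pow, Nat.cast_sub h0, Nat.cast_one] at h2 ⊢
  rw [h1]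
  linear_combination (q ^ 24 * (geo 2 q * geo 6 q * geo 8 q * geo 12 q) : ℝ) * h2

theorem card_H_E6 [IsRoot chevE6] [IsEta chevE6] [MatFacts chevE6 F] [Fintype F] {q : ℕ} (hq : Fintype.card F = q) :
    Nat.gcd 3 (q - 1) * Nat.card (chevE6.diagonalSubgroup F) = (q - 1) ^ chevE6.rank := by
  subst hq
  simpa [pow_two] using kerE6.card_H (F := F)

theorem card_E6 [IsRoot chevE6] [IsEta chevE6] [MatFacts chevE6 F] [Fintype F] {q : ℕ} (hq : Fintype.card F = q) :
    Nat.gcd 3 (q - 1) * Nat.card (chevE6.group F) =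
      q ^ 36 * (q ^ 2 - 1) * (q ^ 5 - 1) * (q ^ 6 - 1) * (q ^ 8 - 1) * (q ^ 9 - 1) * (q ^ 12 - 1) := by
  have h1 := card_group (F := F) hE6 (poinE6 _)
  have h2 := congrArg (Nat.cast (R := ℝ)) (card_H_E6 hq)
  have h0 : 0 < q := hq ▸ Fintype.card_pos
  rw [hq, show chevE6.nroots / 2 = 36 from rfl] at h1
  rw [show (q - 1) ^ chevE6.rank = (q - 1) ^ 6 from rfl] at h2
  apply Nat.cast_injective (R := ℝ)
  simp only [Nat.cast_mul, cast_pow_sub h0, Nat.cast_pow, Nat.cast_sub h0, Nat.cast_one] at h2 ⊢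
  rw [h1]
  linear_combination (q ^ 36 * (geo 2 q * geo 5 q * geo 6 q * geo 8 q * geo 9 q * geo 12 q) : ℝ) * h2

theorem card_H_E7 [IsRoot chevE7] [IsEta chevE7] [MatFacts chevE7 F] [Fintype F] {q : ℕ} (hq : Fintype.card F = q) :
    Nat.gcd 2 (q - 1) * Nat.card (chevE7.diagonalSubgroup F) = (q - 1) ^ chevE7.rank := by
  subst hq
  simpa [pow_two] using kerE7.card_H (F := F)

theorem card_E7 [IsRoot chevE7] [IsEta chevE7] [MatFacts chevE7 F] [Fintype F] {q : ℕ} (hq : Fintype.card F = q) :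
    Nat.gcd 2 (q - 1) * Nat.card (chevE7.group F) =
      q ^ 63 * (q ^ 2 - 1) * (q ^ 6 - 1) * (q ^ 8 - 1) * (q ^ 10 - 1) * (q ^ 12 - 1) * (q ^ 14 - 1) * (q ^ 18 - 1) := by
  have h1 := card_group (F := F) hE7 (poinE7 _)
  have h2 := congrArg (Nat.cast (R := ℝ)) (card_H_E7 hq)
  have h0 : 0 < q := hq ▸ Fintype.card_pos
  rw [hq, show chevE7.nroots / 2 = 63 from rfl] at h1
  rw [show (q - 1) ^ chevE7.rank = (q - 1) ^ 7 from rfl] at h2
  apply Nat.cast_injective (R := ℝ)
  simp only [Nat.cast_mul, cast_pow_sub h0, Nat.cast_pow, Nat.cast_sub h0, Nat.cast_one] at h2 ⊢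
  rw [h1]
  linear_combination (q ^ 63 * (geo 2 q * geo 6 q * geo 8 q * geo 10 q * geo 12 q * geo 14 q * geo 18 q) : ℝ) * h2

theorem card_H_E8 [IsRoot chevE8] [IsEta chevE8] [MatFacts chevE8 F] [Fintype F] {q : ℕ} (hq : Fintype.card F = q) :
    1 * Nat.card (chevE8.diagonalSubgroup F) = (q - 1) ^ chevE8.rank := by
  subst hq
  simpa [pow_two] using kerE8.card_H (F := F)

theorem card_E8 [IsRoot chevE8] [IsEta chevE8] [MatFacts chevE8 F] [Fintype F] {q : ℕ} (hq : Fintype.card F = q) :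
    Nat.card (chevE8.group F) =
      q ^ 120 * (q ^ 2 - 1) * (q ^ 8 - 1) * (q ^ 12 - 1) * (q ^ 14 - 1) * (q ^ 18 - 1) * (q ^ 20 - 1) * (q ^ 24 - 1) * (q ^ 30 - 1) := by
  have h1 := card_group (F := F) hE8 (poinE8 _)
  have h2 := congrArg (Nat.cast (R := ℝ)) (card_H_E8 hq)
  have h0 : 0 < q := hq ▸ Fintype.card_pos
  rw [hq, show chevE8.nroots / 2 = 120 from rfl] at h1
  rw [show (q - 1) ^ chevE8.rank = (q - 1) ^ 8 from rfl] at h2
  apply Nat.cast_injective (R := ℝ)
  simp only [Nat.cast_mul, cast_pow_sub h0, Nat.cast_pow, Nat.cast_sub h0, Nat.cast_one] at h2 ⊢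
  rw [h1]
  linear_combination (q ^ 120 * (geo 2 q * geo 8 q * geo 12 q * geo 14 q * geo 18 q * geo 20 q * geo 24 q * geo 30 q) : ℝ) * h2

end CA.CG
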