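import Cfsg.Agent.Lib.CG.Sys

/-! Ordered products of root elements, nilpotency of `U`, solvability of `B`, the centre, and the kernel
of a homomorphism onto the Chevalley group. -/

set_option autoImplicit false
set_option linter.unusedSectionVars false
set_option maxHeartbeats 400000

namespace CA.BN

open CA.Weyl RGD0

theorem comm_XS {R G : Type*} [Group G] {X : R → Subgroup G} {S T : R → Prop} {K : Subgroup G}
    (hS : XS X S ≤ Subgroup.normalizer (K : Set G)) (hT : XS X T ≤ Subgroup.normalizer (K : Set G))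
    (h : ∀ r s, S r → T s → ∀ a ∈ X r, ∀ b ∈ X s, a * b * a⁻¹ * b⁻¹ ∈ K) {a b : G}
    (ha : a ∈ XS X S) (hb : b ∈ XS X T) : a * b * a⁻¹ * b⁻¹ ∈ K := by
  refine (XS_induction (C := fun a => a ∈ XS X S ∧ a * b * a⁻¹ * b⁻¹ ∈ K) ha ?_ ?_ ?_).2
  · intro r hr a ha
    refine ⟨le_XS hr ha, (XS_induction (C := fun b => b ∈ XS X T ∧ a * b * a⁻¹ * b⁻¹ ∈ K) hb
      ?_ ?_ ?_).2⟩
    · exact fun s hs b hb => ⟨le_XS hs hb, h r s hr hs a ha b hb⟩
    · exact ⟨Subgroup.one_mem _, by simp⟩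
    · rintro c d ⟨hc, hc'⟩ ⟨hd, hd'⟩
      refine ⟨Subgroup.mul_mem _ hc hd, ?_⟩
      have := K.mul_mem hc' (Subgroup.le_normalizer_iff.1 hT c hc _ hd')
      convert this using 1; group
  · exact ⟨Subgroup.one_mem _, by simp⟩
  · rintro c d ⟨hc, hc'⟩ ⟨hd, hd'⟩
    refine ⟨Subgroup.mul_mem _ hc hd, ?_⟩
    have := K.mul_mem (Subgroup.le_normalizer_iff.1 hS c hc _ hd') hc'
    convert this using 1; group

variable {B R W : Type*} [Fintype B] [DecidableEq B] [Group W] [Fintype R]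
variable {Φ : RS B R W} {G : Type*} [Group G]

/-- A normal subgroup contained in the Borel subgroup lies in `H` and centralises `U`. -/
theorem RGD.normal_le_Bor (Γ : RGD Φ G) {K : Subgroup G} [hK : K.Normal] (hle : K ≤ Γ.Bor) {g : G}
    (hg : g ∈ K) : g ∈ Γ.H ∧ ∀ u ∈ Γ.U, g * u * g⁻¹ = u := by
  obtain ⟨w, -, hw'⟩ := Φ.exists_w0
  obtain ⟨n, hw⟩ := Γ.exists_rep w
  have hH : ∀ k ∈ K, k ∈ Γ.H := by
    intro k hk
    obtain ⟨u, hu, h, hh, e⟩ := mem_Bor.1 (hle hk)
    have h1 : n * k * n⁻¹ ∈ Γ.Bor := hle (hK.conj_mem k hk n)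
    have h2 : n * u * n⁻¹ = 1 := by
      refine Γ.BV _ ?_ (hw.conj_XS hw' hu)
      have := Γ.Bor.mul_mem h1 (Γ.Bor.inv_mem (H_le_Bor (hw.conj_H hh)))
      rw [e] at this
      simpa [mul_assoc] using this
    have h3 : u = 1 := by simpa [mul_inv_eq_one] using h2
    rw [e, h3, one_mul]; exact hh
  refine ⟨hH g hg, fun u hu => ?_⟩
  have h1 := hH _ (Subgroup.mul_mem _ hg (hK.conj_mem _ (Subgroup.inv_mem _ hg) u))
  have h2 : g * u * g⁻¹ * u⁻¹ ∈ Γ.U := Γ.U.mul_mem (H_conj_XS (hH g hg) hu) (Γ.U.inv_mem hu)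
  exact mul_inv_eq_one.1 (RGD.eq_one_of_U_H h2 (by simpa [mul_assoc] using h1))

theorem RGD.normalizer_Bor (Γ : RGD Φ G) {M : Subgroup G} (hM : Γ.Bor ≤ M) :
    Subgroup.normalizer (M : Set G) = M := by
  choose ns hns using fun i => Γ.exists_rep (Φ.cs.simple i)
  exact normalizer_eq (P := Γ.toBN ns hns) hM

theorem RGD0.isSolvable_Bor (Γ : RGD0 Φ G) (hU : Group.IsSolvable Γ.U)
    (hH : ∀ a ∈ Γ.H, ∀ b ∈ Γ.H, a * b = b * a) : Group.IsSolvable Γ.Bor := by
  refine Group.isSolvable_of_ker_le_range (Subgroup.inclusion U_le_Bor) Abelianization.of ?_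
  rw [Abelianization.ker_of, commutator_def, Subgroup.commutator_le]
  rintro ⟨a, ha⟩ - ⟨b, hb⟩ -
  obtain ⟨u, hu, h, hh, rfl⟩ := mem_Bor.1 ha
  obtain ⟨v, hv, k, hk, rfl⟩ := mem_Bor.1 hb
  refine ⟨⟨u * (h * v * h⁻¹) * (k * u⁻¹ * k⁻¹) * v⁻¹, ?_⟩, Subtype.ext ?_⟩
  · exact Γ.U.mul_mem (Γ.U.mul_mem (Γ.U.mul_mem hu (H_conj_XS hh hv)) (H_conj_XS
      hk (Γ.U.inv_mem hu))) (Γ.U.inv_mem hv)
  · have e : h * k * h⁻¹ = k := by rw [hH h hh k hk, mul_inv_cancel_right]
    change u * (h * v * h⁻¹) * (k * u⁻¹ * k⁻¹) * v⁻¹ = u * h * (v * k) * (u * h)⁻¹ * (v * k)⁻¹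
    calc _ = u * (h * v * h⁻¹) * ((h * k * h⁻¹) * u⁻¹ * k⁻¹) * v⁻¹ := by rw [e]
      _ = u * h * v * (k * h⁻¹) * u⁻¹ * k⁻¹ * v⁻¹ := by group
      _ = _ := by group

theorem ChevSys.rep_iff {F : Type*} [Field F] (C : ChevSys Φ F G) {n : G} {ω : List B} :
    C.rgd0.Rep n (Φ.cs.wordProd ω) ↔ n * (C.nw ω)⁻¹ ∈ C.H :=
  ⟨fun h => h.mul_inv_mem (C.rep_nw ω), fun h => by
    simpa using (C.rep_nw ω).H_mul (Γ := C.rgd0) h⟩

end CA.BN

namespace CA.CG

open Cfsg.Lie Cfsg.Lie.ChevalleyDatum CA.Chev CA.Weyl CA.BN Matrix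

variable {D : ChevalleyDatum} [hD : IsRoot D] {F : Type*} [Field F]

/-- A set of roots closed under positive integral combinations. -/
def Closed (S : Rt D → Prop) : Prop := ∀ r s k (i j : ℕ), S r → S s → 0 < i → 0 < j →
  wt k = (i : ℤ) • wt r + (j : ℤ) • wt s → S k

omit hD in
theorem dot_of_wt_eq (φ : Lat D) {r s k : Rt D} {i j : ℕ} (hi : 0 < i) (hj : 0 < j)
    (e : wt k = (i : ℤ) • wt r + (j : ℤ) • wt s) (hr : 0 ≤ φ ⬝ᵥ wt r) (hs : 0 ≤ φ ⬝ᵥ wt s) :
    φ ⬝ᵥ wt r + φ ⬝ᵥ wt s ≤ φ ⬝ᵥ wt k := by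
  rw [e, dotProduct_add, dotProduct_smul, dotProduct_smul, smul_eq_mul, smul_eq_mul]
  have h1 : (1 : ℤ) ≤ i := by exact_mod_cast hi
  have h2 : (1 : ℤ) ≤ j := by exact_mod_cast hj
  nlinarith

theorem ne_neg_of_dot {φ : Lat D} {r s : Rt D} (hr : 0 < φ ⬝ᵥ wt r) (hs : 0 < φ ⬝ᵥ wt s) :
    s ≠ Chev.neg r := by
  rintro rfl
  simp at hs
  omega

section Fam

variable {G : Type*} [Group G] {x : Rt D → F → G}

/-- The ordered product of root elements along a list of roots. -/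
def oprod (x : Rt D → F → G) (l : List (Rt D)) (t : Rt D → F) : G := (l.map fun r => x r (t r)).prod

omit hD in
@[simp] theorem oprod_nil (t : Rt D → F) : oprod x [] t = 1 := rfl

omit hD in
@[simp] theorem oprod_cons (r : Rt D) (l : List (Rt D)) (t : Rt D → F) :
    oprod x (r :: l) t = x r (t r) * oprod x l t := by simp [oprod]

omit hD in
theorem oprod_congr {l : List (Rt D)} {t t' : Rt D → F} (h : ∀ r ∈ l, t r = t' r) :
    oprod x l t = oprod x l t' := by
  unfold oprod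
  rw [List.map_congr_left fun r hr => by rw [h r hr]]

omit hD in
theorem map_oprod {G' : Type*} [Group G'] (f : G →* G') (l : List (Rt D)) (t : Rt D → F) :
    f (oprod x l t) = oprod (fun r t => f (x r t)) l t := by
  induction l with
  | nil => simp
  | cons r l ih => simp [ih]

theorem oprod_mem {S : Rt D → Prop} {l : List (Rt D)} (h : ∀ r ∈ l, S r) (t : Rt D → F) :
    oprod x l t ∈ XS (rtX x) S := by
  induction l with
  | nil => exact Subgroup.one_mem _
  | cons r l ih =>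
    rw [oprod_cons]
    exact Subgroup.mul_mem _ (le_XS (h r (by simp)) (x_mem_rtX r _)) (ih fun s hs => h s (by simp [hs]))

theorem mem_rtX' (hx : StRel x) {r : Rt D} {g : G} : g ∈ rtX x r ↔ ∃ t, x r t = g :=
  ⟨fun hg => (Subgroup.closure_le (hx.XG r)).2 (fun _ h => h) hg,
    fun ⟨t, e⟩ => e ▸ x_mem_rtX r t⟩

theorem XS_le_normalizer (hx : StRel x) {S T : Rt D → Prop}
    (h : ∀ r s, S r → T s → s = r ∨ (s ≠ Chev.neg r ∧ ∀ (k : Rt D) (i j : ℕ), 0 < i → 0 < j →
      wt k = (i : ℤ) • wt r + (j : ℤ) • wt s → T k)) :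
    XS (rtX x) S ≤ Subgroup.normalizer (XS (rtX x) T : Set G) := by
  refine XS_le.2 fun r hr => Subgroup.le_normalizer_iff.2 fun a ha y hy => ?_
  refine XS_conj_mem a (fun s hs z hz => ?_) hy
  by_cases hsr : s = r
  · subst hsr
    exact le_XS hs (Subgroup.mul_mem _ (Subgroup.mul_mem _ ha hz) (Subgroup.inv_mem _ ha))
  · obtain ⟨h1, h2⟩ := (h r s hr hs).resolve_left hsr
    obtain ⟨t, rfl⟩ := (mem_rtX' hx).1 ha
    obtain ⟨u, rfl⟩ := (mem_rtX' hx).1 hz
    have := Subgroup.mul_mem _ (comm_mem hx hsr h1 (fun k i j hi hj e t =>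
      le_XS (h2 k i j hi hj e) (x_mem_rtX k t)) t u) (le_XS hs hz)
    simpa using this

/-- Existence of the ordered product. -/
theorem exists_oprod (hx : StRel x) (φ : Lat D) {l : List (Rt D)}
    (hl : l.Pairwise fun a b => φ ⬝ᵥ wt a < φ ⬝ᵥ wt b) (hpos : ∀ r ∈ l, 0 < φ ⬝ᵥ wt r)
    (hcl : Closed (· ∈ l)) {g : G} (hg : g ∈ XS (rtX x) (· ∈ l)) : ∃ t, g = oprod x l t := by
  classical
  induction l generalizing g with
  | nil =>
    refine ⟨0, ?_⟩
    simpa using (XS_le (K := ⊥)).2 (by simp) hg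
  | cons r l ih =>
    rw [List.pairwise_cons] at hl
    have hr := hpos r (by simp)
    have hpos' : ∀ s ∈ l, 0 < φ ⬝ᵥ wt s := fun s hs => hpos s (by simp [hs])
    have key : ∀ a s k (i j : ℕ), a ∈ r :: l → s ∈ l → 0 < i → 0 < j →
        wt k = (i : ℤ) • wt a + (j : ℤ) • wt s → k ∈ l := by
      intro a s k i j ha hs hi hj e
      refine (List.mem_cons.1 (hcl a s k i j ha (by simp [hs]) hi hj e)).resolve_left ?_
      rintro rfl
      have := dot_of_wt_eq φ hi hj e (hpos a ha).le (hpos' s hs).le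
      have := hpos a ha
      have := hl.1 s hs
      omega
    have hn : XS (rtX x) (· = r) ≤ Subgroup.normalizer (XS (rtX x) (· ∈ l) : Set G) :=
      XS_le_normalizer hx fun a s ha hs => Or.inr ⟨ne_neg_of_dot (ha ▸ hr) (hpos' s hs),
        fun k i j hi hj e => key a s k i j (by simp [ha]) hs hi hj e⟩
    have hle : XS (rtX x) (· ∈ r :: l) ≤ XS (rtX x) (· = r) ⊔ XS (rtX x) (· ∈ l) :=
      XS_le.2 fun s hs => (List.mem_cons.1 hs).elim (fun h => le_sup_of_le_left (le_XS h))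
        fun h => le_sup_of_le_right (le_XS h)
    obtain ⟨a, ha, b, hb, rfl⟩ := mem_sup_of_le_normalizer hn (hle hg)
    obtain ⟨c, rfl⟩ := (mem_rtX' hx).1 ((XS_le.2 fun s hs => by rw [hs]) ha : a ∈ rtX x r)
    obtain ⟨t, rfl⟩ := ih hl.2 hpos' (fun a s k i j ha => key a s k i j (by simp [ha])) hb
    refine ⟨Function.update t r c, ?_⟩
    rw [oprod_cons, Function.update_self, oprod_congr (t := Function.update t r c) (t' := t)
      fun s hs => Function.update_of_ne ?_ _ _]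
    rintro rfl
    exact lt_irrefl _ (hl.1 s hs)

/-- The subgroup generated by the root elements of degree at least `m`. -/
def Ug (x : Rt D → F → G) (φ : Lat D) (m : ℤ) : Subgroup G :=
  XS (rtX x) fun r => 0 < φ ⬝ᵥ wt r ∧ m ≤ φ ⬝ᵥ wt r

theorem Ug_le_normalizer (hx : StRel x) (φ : Lat D) (m n : ℤ) :
    Ug x φ m ≤ Subgroup.normalizer (Ug x φ n : Set G) :=
  XS_le_normalizer hx fun r s hr hs => Or.inr ⟨ne_neg_of_dot hr.1 hs.1, fun k i j hi hj e => by
    have := dot_of_wt_eq φ hi hj e hr.1.le hs.1.le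
    omega⟩

theorem comm_Ug (hx : StRel x) (φ : Lat D) {m n : ℤ} {a b : G} (ha : a ∈ Ug x φ m)
    (hb : b ∈ Ug x φ n) : a * b * a⁻¹ * b⁻¹ ∈ Ug x φ (m + 1) := by
  refine comm_XS (Ug_le_normalizer hx φ _ _) (Ug_le_normalizer hx φ _ _) ?_ ha hb
  intro r s hr hs a ha b hb
  obtain ⟨t, rfl⟩ := (mem_rtX' hx).1 ha
  obtain ⟨u, rfl⟩ := (mem_rtX' hx).1 hb
  by_cases hsr : s = r
  · rw [hsr, hx.commute_self]; simp
  · refine comm_mem hx hsr (ne_neg_of_dot hr.1 hs.1) (fun k i j hi hj e t => le_XS ?_ (x_mem_rtX k t)) t u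
    have := dot_of_wt_eq φ hi hj e hr.1.le hs.1.le
    omega

theorem isNilpotent_Ug (hx : StRel x) (φ : Lat D) : Group.IsNilpotent (Ug x φ 0) := by
  rw [Subgroup.nilpotent_iff_finite_descending_central_series]
  obtain ⟨m, hm⟩ := (Set.finite_range fun r : Rt D => (φ ⬝ᵥ wt r).toNat).bddAbove
  refine ⟨m + 1, fun n => (Ug x φ n).subgroupOf _, ⟨by simp, fun a n ha b => ?_⟩, ?_⟩
  · have := comm_Ug hx φ ha b.2
    exact_mod_cast this
  · have : Ug x φ ((m + 1 : ℕ) : ℤ) = ⊥ := eq_bot_iff.2 (XS_le.2 fun r hr => by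
      have := hm ⟨r, rfl⟩
      simp only at this
      omega)
    simp only [this, Subgroup.bot_subgroupOf]

/-- The positive roots in increasing order. -/
def posL (D : ChevalleyDatum) : List (Rt D) := (List.finRange D.nroots).filter fun r => decide (Pos r)

omit hD in
@[simp] theorem mem_posL {r : Rt D} : r ∈ posL D ↔ Pos r := by simp [posL]

theorem posL_pairwise : (posL D).Pairwise fun a b => ordVec D ⬝ᵥ wt a < ordVec D ⬝ᵥ wt b :=
  ((List.pairwise_lt_finRange _).imp fun h => ord_lt_ord.2 h).filter _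

theorem posL_pos : ∀ r ∈ posL D, 0 < ordVec D ⬝ᵥ wt r := fun r hr => (pos_iff_ord r).1 (mem_posL.1 hr)

theorem posL_closed : Closed (· ∈ posL D) := fun _ _ _ _ _ hr hs hi _ e =>
  mem_posL.2 (pos_of_wt_eq_add (mem_posL.1 hr) (mem_posL.1 hs) (by omega) e)

omit hD in
theorem posL_map : (posL D).map Fin.val = D.posRoots := by
  rw [posL, posRoots, ← List.map_coe_finRange_eq_range, List.filter_map]
  rfl

theorem exists_oprod_pos (hx : StRel x) {S : Rt D → Prop} (hS : ∀ r, S r → Pos r) {g : G}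
    (hg : g ∈ XS (rtX x) S) : ∃ t, g = oprod x (posL D) t :=
  exists_oprod hx _ posL_pairwise posL_pos posL_closed (XS_mono (fun r hr => mem_posL.2 (hS r hr)) hg)

variable [hM : MatFacts D F]

/-- Uniqueness of the ordered product. -/
theorem oprod_inj (φ : Lat D) {l : List (Rt D)}
    (hl : l.Pairwise fun a b => φ ⬝ᵥ wt a < φ ⬝ᵥ wt b) (hpos : ∀ r ∈ l, 0 ≤ φ ⬝ᵥ wt r)
    {t t' : Rt D → F} (e : oprod xg l t = oprod xg l t') : ∀ r ∈ l, t r = t' r := by
  induction l with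
  | nil => simp
  | cons r l ih =>
    rw [List.pairwise_cons] at hl
    rw [oprod_cons, oprod_cons] at e
    have h1 : xg r (-t' r + t r) = oprod xg l t' * (oprod xg l t)⁻¹ := by
      rw [stRel_xg.add, stRel_xg.neg_arg, eq_mul_inv_iff_mul_eq, mul_assoc, e, inv_mul_cancel_left]
    have h2 := eq_zero_of_mem_XS (S := (· ∈ l)) (hpos r (by simp)) hl.1 (t := -t' r + t r) (by
      rw [h1]
      exact Subgroup.mul_mem _ (oprod_mem (fun _ h => h) _)
        (Subgroup.inv_mem _ (oprod_mem (fun _ h => h) _)))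
    have h3 : t r = t' r := by linear_combination h2
    rw [h3] at e
    intro s hs
    rcases List.mem_cons.1 hs with rfl | hs
    · exact h3
    · exact ih hl.2 (fun s hs => hpos s (by simp [hs])) (mul_left_cancel e) s hs

theorem eq_one_of_map (hx : StRel x) (θ : G →* D.group F) (hθ : ∀ r t, θ (x r t) = xg r t) {g : G}
    {S : Rt D → Prop} (hS : ∀ r, S r → Pos r) (hg : g ∈ XS (rtX x) S) (h1 : θ g = 1) : g = 1 := by
  obtain ⟨t, rfl⟩ := exists_oprod_pos hx hS hg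
  have h0 : ∀ {G' : Type _} [Group G'] {y : Rt D → F → G'}, StRel y → ∀ l, oprod y l 0 = 1 := by
    intro G' _ y hy l
    induction l with
    | nil => rfl
    | cons r l ih => rw [oprod_cons, ih, mul_one]; exact hy.zero r
  rw [map_oprod] at h1
  simp only [hθ] at h1
  rw [oprod_congr (oprod_inj _ posL_pairwise (fun r hr => (posL_pos r hr).le)
    (h1.trans (h0 stRel_xg _).symm))]
  induction posL D with
  | nil => rfl
  | cons r l ih => rw [oprod_cons, ih, mul_one]; exact hx.zero r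

end Fam

variable [hM : MatFacts D F] [hE : IsEta D] {M : CoxeterMatrix (Nd D)} (h : CartanCox (cartA D) M)

theorem gam_U : (gam F h).U = Ug xg (ordVec D) 0 :=
  XS_congr fun r => by rw [rs_pos, pos_iff_ord, ord]; omega

theorem isNilpotent_U : Group.IsNilpotent (gam F h).U := by
  rw [gam_U]; exact isNilpotent_Ug stRel_xg _

theorem H_comm {a b : D.group F} (ha : a ∈ (gam F h).H) (hb : b ∈ (gam F h).H) : a * b = b * a := by
  rw [gam_H] at ha hb
  obtain ⟨c, rfl⟩ := ha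
  obtain ⟨d, rfl⟩ := hb
  rw [← map_mul, ← map_mul, mul_comm]

theorem isSolvable_Bor : Group.IsSolvable (gam F h).Bor :=
  (gam F h).isSolvable_Bor (haveI := isNilpotent_U (F := F) h; inferInstance) fun _ ha _ hb =>
    H_comm h ha hb

theorem eq_one_of_H {k : D.group F} (hk : k ∈ (gam F h).H)
    (hc : ∀ i, ∃ t : F, t ≠ 0 ∧ k * xg (Chev.simple i) t * k⁻¹ = xg (Chev.simple i) t) : k = 1 := by
  rw [gam_H] at hk
  obtain ⟨c, rfl⟩ := hk
  rw [tor_eq_one_iff]
  intro i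
  obtain ⟨t, ht, e⟩ := hc i
  rw [tor_conj] at e
  exact Units.ext ((mul_eq_right₀ ht).1 (xg_injective _ e))

theorem normal_eq_bot {K : Subgroup (D.group F)} [K.Normal] (hK : K ≤ (gam F h).Bor) : K = ⊥ :=
  eq_bot_iff.2 fun _ hg =>
    eq_one_of_H h ((gam F h).normal_le_Bor hK hg).1 fun i => ⟨1, one_ne_zero,
      ((gam F h).normal_le_Bor hK hg).2 _ (RGD0.mem_U ((rs h).pos_simple i) (x_mem_rtX _ _))⟩

theorem normalCore_Bor : (gam F h).Bor.normalCore = ⊥ := normal_eq_bot h (Subgroup.normalCore_le _)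

variable (D F) in
theorem center_eq_bot : Subgroup.center (D.group F) = ⊥ := by
  refine normal_eq_bot (cartanCox_coxM D) ?_
  rw [← (gam F _).normalizer_Bor le_rfl]
  exact Subgroup.center_le_normalizer _

section Kernel

variable {G : Type*} [Group G] {x : Rt D → F → G} (hx : StFam x)
  (hgen : XS (rtX x) (fun _ => True) = ⊤) (θ : G →* D.group F) (hθ : ∀ r t, θ (x r t) = xg r t)

include hθ in
theorem nondeg_of_hom' (i : Nd D) (r : Rt D) (t : F) (hr : ¬ Pos r) : x (Chev.simple i) 1 ≠ x r t :=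
  nondeg_of_hom ((D.group F).subtype.comp θ) (fun r t => by simp [hθ]) i r t hr

include hθ in
theorem map_XS_mem {S : Rt D → Prop} {g : G} (hg : g ∈ XS (rtX x) S) : θ g ∈ XS (rtX xg) S :=
  XS_map_mem θ (fun r hr y hy => le_XS hr ((Subgroup.closure_le ((rtX xg r).comap θ)).2 (by
    rintro _ ⟨t, rfl⟩
    change θ (x r t) ∈ rtX xg r
    rw [hθ]
    exact x_mem_rtX r t) hy)) hg

include hθ in
theorem surjective_of_hom : Function.Surjective θ := by
  rw [← MonoidHom.range_eq_top, eq_top_iff, ← gen_xg, XS_le]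
  intro r _ y hy
  obtain ⟨t, rfl⟩ := mem_rtX.1 hy
  exact ⟨_, hθ r t⟩

include hx hgen hθ in
/-- The kernel of a homomorphism onto the Chevalley group lies in the diagonal subgroup. -/
theorem ker_le_H : θ.ker ≤ Subgroup.closure {g | ∃ r t, t ≠ 0 ∧ g = hG x r t} := by
  intro g hg
  let h := cartanCox_coxM D
  let C := chevSys h hx hgen (nondeg_of_hom' θ hθ)
  have hxe : (fun r t => θ (x r t)) = xg := by funext r t; exact hθ r t
  obtain ⟨w, n, hn, a, ha, u, hu, rfl⟩ := C.rgd0.bruhat g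
  have hH : ∀ k ∈ C.H, θ k ∈ (gam F h).H := by
    refine fun k hk => (Subgroup.closure_le ((gam F h).H.comap θ)).2 ?_ hk
    rintro _ ⟨r, t, ht, rfl⟩
    change θ (hG x r t) ∈ (gam F h).H
    rw [map_hG, hxe]
    exact (sys F h).h_mem r ht
  have hnw : ∀ ω, θ (C.nw ω) = (sys F h).nw ω := by
    intro ω
    induction ω with
    | nil => simp
    | cons i ω ih =>
      rw [ChevSys.nw_cons, ChevSys.nw_cons, map_mul, ih]
      congr 1
      change θ (nG x _ _) = nG xg _ _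
      rw [map_nG, hxe]
  obtain ⟨ω, rfl⟩ := (rs h).cs.wordProd_surjective w
  have h1 : (gam F h).Rep (θ n) ((rs h).cs.wordProd ω) := by
    refine (sys F h).rep_iff.2 ?_
    rw [← hnw, ← map_inv, ← map_mul]
    exact hH _ (C.rep_iff.1 hn)
  rw [MonoidHom.mem_ker, map_mul, map_mul] at hg
  obtain ⟨h2, h3, -, -⟩ := RGD.bruhat_unique h1 (RGD0.rep_one_iff.2 (Subgroup.one_mem _))
    (map_XS_mem θ hθ ha) (Subgroup.one_mem _) (map_XS_mem θ hθ hu) (Subgroup.one_mem _)
    (by simpa using hg)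
  rw [h2] at hn hu
  rw [RGD0.Uw_one, Subgroup.mem_bot] at hu
  rw [hu, eq_one_of_map hx.toStRel θ hθ (fun r hr => (rs_pos h r).1 hr) ha h3, one_mul, mul_one]
  exact RGD0.rep_one_iff.1 hn

include hx hgen hθ in
/-- The kernel of a homomorphism onto the Chevalley group is the centre. -/
theorem ker_eq_center : θ.ker = Subgroup.center G := by
  apply le_antisymm
  · intro g hg
    let C := chevSys (cartanCox_coxM D) hx hgen (nondeg_of_hom' θ hθ)
    have h1 := C.sc_of_mem_H (ker_le_H hx hgen θ hθ hg)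
    have h2 : XS (rtX x) (fun _ => True) ≤ Subgroup.centralizer {g} := by
      refine XS_le.2 fun r _ y hy => ?_
      obtain ⟨t, rfl⟩ := (mem_rtX' hx.toStRel).1 hy
      obtain ⟨k, -, hk⟩ := h1 r
      have e : g * x r t * g⁻¹ = x r (k * t) := hk t
      have e' := congrArg θ e
      rw [map_mul, map_mul, map_inv, MonoidHom.mem_ker.1 hg, hθ, hθ, one_mul, inv_one, mul_one] at e'
      rw [← xg_injective r e', mul_inv_eq_iff_eq_mul] at e
      exact Subgroup.mem_centralizer_singleton_iff.2 e.symm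
    rw [hgen] at h2
    exact Subgroup.mem_center_iff.2 fun y =>
      Subgroup.mem_centralizer_singleton_iff.1 (h2 (Subgroup.mem_top y))
  · intro g hg
    rw [MonoidHom.mem_ker, ← Subgroup.mem_bot, ← center_eq_bot D F, Subgroup.mem_center_iff]
    intro y
    obtain ⟨y, rfl⟩ := surjective_of_hom θ hθ y
    rw [← map_mul, ← map_mul, Subgroup.mem_center_iff.1 hg y]

end Kernel

end CA.CG
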